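import Mathlib
import Cfsg.Agent.Lib.MinNormalNonabelian
import Cfsg.Agent.Lib.SubnormalJoin
import Cfsg.Prelude.Def_Solvable
import Cfsg.Prelude.Def_Transfer
import Cfsg.Agent.Lib.Cores
import Cfsg.Agent.SporadicStructure.M24IndexAbs
import Cfsg.Agent.H341.ThreeList_m3
import Cfsg.Prelude.Def_Classical
import Cfsg.Agent.FastGrp
import Cfsg.Agent.Prune
set_option linter.all false

section
prune_inst 0x7fbcb8fb2bf80ddfffff7e77fef4dffdd8b9ffffefdff9fbffe861ff0f9f4b068bc5fb876be012fe0ed6e0b410f87b03fdff8e7ee829dc7ffffd5ff45ffbee1fedf6bd08519498341fbc2ffee3f07f8e7f3fffffffffffffffffffffffffffbeffffffffffff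

-- part: H338/AltDeg
section
set_option linter.all false
open scoped Cfsg.Agent.FastGrp

/-!
# Permutation matrices as a homomorphism (helper338)
-/

set_option autoImplicit false

namespace Cfsg.Agent.H338.AltDeg

/-- The permutation representation. -/
def permHom (n : ℕ) (F : Type*) [Field F] : Equiv.Perm (Fin n) →* Matrix (Fin n) (Fin n) F where
  toFun s := Matrix.of fun i j => if i = s j then 1 else 0
  map_one' := by
    ext i j
    rw [Matrix.of_apply, Matrix.one_apply]
    by_cases h : i = j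
    · subst h; simp
    · rw [if_neg h, if_neg (by simpa using h)]
  map_mul' := by
    intro s t
    ext i k
    rw [Matrix.mul_apply, Finset.sum_eq_single (t k)]
    · show (if i = s (t k) then (1 : F) else 0) =
        (if i = s (t k) then (1 : F) else 0) * (if t k = t k then (1 : F) else 0)
      rw [if_pos (rfl : t k = t k), mul_one]
    · intro j _ hj
      show (if i = s j then (1 : F) else 0) * (if j = t k then (1 : F) else 0) = 0
      rw [if_neg hj, mul_zero]
    · intro h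
      exact absurd (Finset.mem_univ _) h

theorem permHom_injective (n : ℕ) (F : Type*) [Field F] : Function.Injective (permHom n F) := by
  intro s t h
  ext j
  have h1 := congrFun (congrFun h (s j)) j
  have h2 : (if s j = s j then (1 : F) else 0) = if s j = t j then 1 else 0 := h1
  rw [if_pos rfl] at h2
  by_contra hne
  have h3 : ¬ s j = t j := fun h => hne (by rw [h])
  rw [if_neg h3] at h2
  exact one_ne_zero h2

/-- The permutation representation of the alternating group. -/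
def altHom (n : ℕ) (F : Type*) [Field F] :
    alternatingGroup (Fin n) →* Matrix.GeneralLinearGroup (Fin n) F :=
  (MonoidHom.toHomUnits (permHom n F)).comp (alternatingGroup (Fin n)).subtype

theorem altHom_injective (n : ℕ) (F : Type*) [Field F] : Function.Injective (altHom n F) := by
  intro s t h
  apply Subtype.ext
  apply permHom_injective n F
  exact congrArg Units.val h

end Cfsg.Agent.H338.AltDeg
end

-- part: H338/LocSyl
section
prune_inst 0x4046008404a0000000000801090002254400001000020000159e00f06020e974300028940fc801f021120aa20000f800002100079001000002000820040000120942a72c6b248b004250011c0f807180c00000000000000000000000000041000000000000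
set_option linter.all false
open scoped Cfsg.Agent.FastGrp

-- part: H338/Reduce
section
/-!
# Local recognition: reduction to simple groups (helper338)

`Loc V n p`: `V` is a self-centralising elementary abelian subgroup of order `2^n` on which its
normaliser `N` acts irreducibly, `N/V` is simple of order divisible by a prime `p > n`, and
`O(C(s)) = 1` for the 2-central involutions of `N`.  Then `V` is normal or there is a simple normal
subgroup `K` containing `N` (`reduce`).
-/

set_option autoImplicit false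

namespace Cfsg.Agent.H338.Reduce

open Subgroup

variable {G : Type*} [Group G]

/-- a `2`-group normalising a non-trivial 2-group centralises a non-trivial element of it. -/
theorem exists_fixed [Finite G] {p : ℕ} [hp : Fact p.Prime] (P W : Subgroup G) (hP : IsPGroup p P)
    (hW : W ≠ ⊥) (hW2 : IsPGroup p W) (hn : ∀ x ∈ P, ∀ w ∈ W, x * w * x⁻¹ ∈ W) :
    ∃ w ∈ W, w ≠ 1 ∧ ∀ x ∈ P, x * w = w * x := by
  let act : MulAction P W :=
    { smul := fun x w => ⟨x * w * (x : G)⁻¹, hn x x.2 w w.2⟩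
      one_smul := fun w => Subtype.ext (by
        show ((1 : P) : G) * w * ((1 : P) : G)⁻¹ = w
        simp)
      mul_smul := fun x y w => Subtype.ext (by
        show ((x * y : P) : G) * w * ((x * y : P) : G)⁻¹ = x * (y * w * (y : G)⁻¹) * (x : G)⁻¹
        simp [mul_assoc]) }
  have hdvd : p ∣ Nat.card W := by
    obtain ⟨k, hk⟩ := IsPGroup.iff_card.1 hW2
    have hk0 : k ≠ 0 := by
      rintro rfl
      rw [pow_zero] at hk
      exact hW (Subgroup.card_eq_one.1 hk)
    rw [hk]
    exact dvd_pow_self p hk0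
  have h1 : (1 : W) ∈ MulAction.fixedPoints P W := by
    intro x
    apply Subtype.ext
    show (x : G) * ((1 : W) : G) * (x : G)⁻¹ = ((1 : W) : G)
    simp
  obtain ⟨b, hb, hb1⟩ := hP.exists_fixed_point_of_prime_dvd_card_of_fixed_point W hdvd h1
  refine ⟨b, b.2, fun h => hb1 (Subtype.ext h.symm), ?_⟩
  intro x hx
  have h2 := congrArg Subtype.val (hb ⟨x, hx⟩)
  have h3 : x * (b : G) * x⁻¹ = b := h2
  rw [mul_inv_eq_iff_eq_mul] at h3
  exact h3

/-- congruence for the fixed points of an element of prime order on a subgroup -/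
theorem card_fix_modEq [Finite G] {p : ℕ} (hp : p.Prime) {y : G} (hy : y ^ p = 1) (W : Subgroup G)
    (hn : ∀ w ∈ W, y * w * y⁻¹ ∈ W) :
    Nat.card W ≡ Nat.card (W ⊓ centralizer {y} : Subgroup G) [MOD p] := by
  classical
  have : Fact p.Prime := ⟨hp⟩
  have : Fintype G := Fintype.ofFinite G
  have : Fintype W := Fintype.ofFinite W
  let f : Function.End W := fun w => ⟨y * w * y⁻¹, hn w w.2⟩
  have hfn : ∀ n : ℕ, ∀ w : W, (((f ^ n) w : W) : G) = y ^ n * w * (y ^ n)⁻¹ := by
    intro n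
    induction n with
    | zero => intro x; simp [Function.End.one_def]
    | succ n ih =>
      intro x
      rw [pow_succ]
      show (((f ^ n) (f x) : W) : G) = _
      rw [ih (f x)]
      show y ^ n * (y * x * y⁻¹) * (y ^ n)⁻¹ = _
      rw [pow_succ]
      simp [mul_assoc]
  have hf : f ^ p ^ 1 = 1 := by
    funext x
    apply Subtype.ext
    rw [hfn, pow_one, hy]
    simp [Function.End.one_def]
  have h1 := Equiv.Perm.card_fixedPoints_modEq hf
  rw [← Nat.card_eq_fintype_card, ← Nat.card_eq_fintype_card] at h1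
  have h2 : Nat.card (Function.fixedPoints f) = Nat.card (W ⊓ centralizer {y} : Subgroup G) := by
    refine Nat.card_congr ⟨fun x => ⟨x.1.1, x.1.2, mem_centralizer_singleton_iff.2 ?_⟩,
      fun z => ⟨⟨z.1, z.2.1⟩, ?_⟩, ?_, ?_⟩
    · have h3 : y * x.1.1 * y⁻¹ = x.1.1 := congrArg Subtype.val x.2
      rw [mul_inv_eq_iff_eq_mul] at h3
      exact h3.symm
    · apply Subtype.ext
      show y * z.1 * y⁻¹ = z.1
      rw [mul_inv_eq_iff_eq_mul]
      exact (mem_centralizer_singleton_iff.1 z.2.2).symm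
    · intro x; rfl
    · intro z; rfl
  rw [h2] at h1
  exact h1

/-- The hypotheses. -/
structure Loc (V : Subgroup G) (n p : ℕ) : Prop where
  sq : ∀ v ∈ V, v * v = 1
  card : Nat.card V = 2 ^ n
  two_le : 2 ≤ n
  cent : ∀ g : G, (∀ v ∈ V, g * v = v * g) → g ∈ V
  irr : ∀ W : Subgroup G, W ≤ V → (∀ g ∈ normalizer (V : Set G), ∀ w ∈ W, g * w * g⁻¹ ∈ W) →
    W = ⊥ ∨ W = V
  simple : ∀ M : Subgroup G, V ≤ M → M ≤ normalizer (V : Set G) →
    (∀ g ∈ normalizer (V : Set G), ∀ m ∈ M, g * m * g⁻¹ ∈ M) →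
    M = V ∨ M = normalizer (V : Set G)
  prime : p.Prime
  lt : n < p
  y : ∃ y ∈ normalizer (V : Set G), orderOf y = p
  core : ∀ (P : Subgroup G), P ≤ normalizer (V : Set G) → IsPGroup 2 P → V ≤ P →
    (∀ Q : Subgroup G, Q ≤ normalizer (V : Set G) → IsPGroup 2 Q → P ≤ Q → Q = P) →
    ∀ s ∈ P, s ≠ 1 → s * s = 1 → (∀ x ∈ P, x * s = s * x) →
    ∀ R : Subgroup G, R ≤ centralizer {s} → (∀ g ∈ centralizer ({s} : Set G), ∀ r ∈ R,
      g * r * g⁻¹ ∈ R) → (Nat.card R).Coprime 2 → R = ⊥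

variable {V : Subgroup G} {n p : ℕ}

theorem Loc.comm (H : Loc V n p) {a b : G} (ha : a ∈ V) (hb : b ∈ V) : a * b = b * a := by
  have h1 := H.sq _ (V.mul_mem ha hb)
  have h2 := H.sq a ha
  have h3 := H.sq b hb
  calc a * b = (a * b)⁻¹ := eq_inv_of_mul_eq_one_left h1
    _ = b⁻¹ * a⁻¹ := mul_inv_rev _ _
    _ = b * a := by rw [inv_eq_of_mul_eq_one_left h2, inv_eq_of_mul_eq_one_left h3]

theorem Loc.le (_ : Loc V n p) : V ≤ normalizer (V : Set G) := le_normalizer

theorem conj_mem_V {g v : G} (hg : g ∈ normalizer (V : Set G)) (hv : v ∈ V) : g * v * g⁻¹ ∈ V :=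
  (mem_normalizer_iff.1 hg v).1 hv

theorem Loc.isPGroup [Finite G] (H : Loc V n p) : IsPGroup 2 V := IsPGroup.of_card H.card

theorem Loc.ne_bot [Finite G] (H : Loc V n p) : V ≠ ⊥ := by
  rintro h
  have h1 := H.card
  rw [h, Subgroup.card_bot] at h1
  have h2 := H.two_le
  have h3 : 2 ^ 2 ≤ 2 ^ n := Nat.pow_le_pow_right (by norm_num) h2
  omega

/-- A 2-central involution of `N` in `V` whose centraliser has trivial core. -/
theorem Loc.exists_s [Finite G] (H : Loc V n p) :
    ∃ s ∈ V, s ≠ 1 ∧ ∀ R : Subgroup G, R ≤ centralizer {s} →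
      (∀ g ∈ centralizer ({s} : Set G), ∀ r ∈ R, g * r * g⁻¹ ∈ R) → (Nat.card R).Coprime 2 →
      R = ⊥ := by
  classical
  have : Fact (Nat.Prime 2) := ⟨Nat.prime_two⟩
  -- a maximal 2-subgroup of `N` containing `V`
  have hfin : Set.Finite {P : Subgroup G | P ≤ normalizer (V : Set G) ∧ IsPGroup 2 P ∧ V ≤ P} :=
    Set.toFinite _
  obtain ⟨P, hP⟩ := hfin.exists_maximal ⟨V, H.le, H.isPGroup, le_rfl⟩
  obtain ⟨⟨hPN, hP2, hVP⟩, hPmax⟩ := hP
  have hmax : ∀ Q : Subgroup G, Q ≤ normalizer (V : Set G) → IsPGroup 2 Q → P ≤ Q → Q = P :=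
    fun Q h1 h2 h3 => le_antisymm (hPmax ⟨h1, h2, hVP.trans h3⟩ h3) h3
  obtain ⟨s, hs, hs1, hsc⟩ := exists_fixed P V hP2 H.ne_bot H.isPGroup
    (fun x hx w hw => conj_mem_V (hPN hx) hw)
  exact ⟨s, hs, hs1, H.core P hPN hP2 hVP hmax s (hVP hs) hs1 (H.sq s hs) hsc⟩

/-- No normal subgroups of odd order. -/
theorem Loc.no_odd [Finite G] (H : Loc V n p) (R : Subgroup G) (hR : R.Normal)
    (hodd : (Nat.card R).Coprime 2) : R = ⊥ := by
  obtain ⟨s, hs, hs1, hcore⟩ := H.exists_s
  -- centralisers of conjugates of `s`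
  have hC : ∀ g : G, ∀ r ∈ R, r * (g * s * g⁻¹) = (g * s * g⁻¹) * r → r = 1 := by
    intro g r hr hrs
    have h1 : R ⊓ centralizer {s} = ⊥ := by
      apply hcore _ inf_le_right
      · intro g' hg' r' hr'
        exact ⟨hR.conj_mem _ hr'.1 g', (centralizer {s}).mul_mem
          ((centralizer {s}).mul_mem hg' hr'.2) ((centralizer {s}).inv_mem hg')⟩
      · exact Nat.Coprime.coprime_dvd_left (Subgroup.card_dvd_of_le inf_le_left) hodd
    have h2 : g⁻¹ * r * g ∈ R ⊓ centralizer {s} := by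
      refine ⟨?_, mem_centralizer_singleton_iff.2 ?_⟩
      · have := hR.conj_mem _ hr g⁻¹
        rwa [inv_inv] at this
      · calc g⁻¹ * r * g * s = g⁻¹ * (r * (g * s * g⁻¹)) * g := by group
          _ = g⁻¹ * ((g * s * g⁻¹) * r) * g := by rw [hrs]
          _ = s * (g⁻¹ * r * g) := by group
    rw [h1, mem_bot] at h2
    calc r = g * (g⁻¹ * r * g) * g⁻¹ := by group
      _ = 1 := by rw [h2]; group
  -- conjugates invert `R`
  have hinv : ∀ g : G, ∀ r ∈ R, (g * s * g⁻¹) * r * (g * s * g⁻¹)⁻¹ = r⁻¹ := by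
    intro g r hr
    set t := g * s * g⁻¹ with ht
    have htt : t * t = 1 := by
      rw [ht]
      calc g * s * g⁻¹ * (g * s * g⁻¹) = g * (s * s) * g⁻¹ := by group
        _ = 1 := by rw [H.sq s hs]; group
    let φ : R →* R := (MulAut.conjNormal t : MulAut R).toMonoidHom
    have hφ : ∀ x : R, ((φ x : R) : G) = t * x * t⁻¹ := fun x => MulAut.conjNormal_apply t x
    have h1 : MonoidHom.FixedPointFree φ := by
      intro x hx
      have h2 := congrArg Subtype.val hx
      rw [hφ, mul_inv_eq_iff_eq_mul] at h2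
      exact Subtype.ext (hC g x x.2 h2.symm)
    have h2 : Function.Involutive φ := by
      intro x
      apply Subtype.ext
      rw [hφ, hφ]
      calc t * (t * (x : G) * t⁻¹) * t⁻¹ = (t * t) * x * (t * t)⁻¹ := by group
        _ = x := by rw [htt]; group
    have h3 := h1.coe_eq_inv_of_involutive h2
    have h4 := congrFun h3 ⟨r, hr⟩
    have h5 := congrArg Subtype.val h4
    rw [hφ] at h5
    exact h5
  -- two different conjugates
  obtain ⟨g, hg, hgs⟩ : ∃ g ∈ normalizer (V : Set G), g * s * g⁻¹ ≠ s := by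
    by_contra hcon
    push Not at hcon
    have h1 : zpowers s ≤ V := by rwa [zpowers_le]
    rcases H.irr (zpowers s) h1 (by
      intro g hg w hw
      obtain ⟨k, rfl⟩ := mem_zpowers_iff.1 hw
      rw [← conj_zpow, hcon g hg]
      exact hw) with h2 | h2
    · rw [zpowers_eq_bot] at h2
      exact hs1 h2
    · have h3 := H.card
      rw [← h2, Nat.card_zpowers] at h3
      have h4 : orderOf s ∣ 2 := orderOf_dvd_of_pow_eq_one (by rw [pow_two, H.sq s hs])
      have h5 := Nat.le_of_dvd (by norm_num) h4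
      have h6 : 2 ^ 2 ≤ 2 ^ n := Nat.pow_le_pow_right (by norm_num) H.two_le
      omega
  -- the centraliser of `R` in `V`
  have hW : V ⊓ centralizer (R : Set G) = V := by
    rcases H.irr (V ⊓ centralizer (R : Set G)) inf_le_left (by
      intro g hg w hw
      refine ⟨conj_mem_V hg hw.1, mem_centralizer_iff.2 ?_⟩
      have h1 := mem_centralizer_iff.1 hw.2
      intro r hr
      have h2 := h1 (g⁻¹ * r * g) (by
        have := hR.conj_mem _ hr g⁻¹
        rwa [inv_inv] at this)
      calc r * (g * w * g⁻¹) = g * ((g⁻¹ * r * g) * w) * g⁻¹ := by group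
        _ = g * (w * (g⁻¹ * r * g)) * g⁻¹ := by rw [h2]
        _ = g * w * g⁻¹ * r := by group) with h | h
    · exfalso
      apply hgs
      have h1 : s⁻¹ * (g * s * g⁻¹) ∈ V ⊓ centralizer (R : Set G) := by
        refine ⟨V.mul_mem (V.inv_mem hs) (conj_mem_V hg hs), mem_centralizer_iff.2 ?_⟩
        intro r hr
        have h2 := hinv g r hr
        have h3 := hinv 1 r⁻¹ (R.inv_mem hr)
        have h4 : s * r⁻¹ * s⁻¹ = r := by simpa using h3
        have h5 : (s⁻¹ * (g * s * g⁻¹)) * r * (s⁻¹ * (g * s * g⁻¹))⁻¹ = r := by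
          calc (s⁻¹ * (g * s * g⁻¹)) * r * (s⁻¹ * (g * s * g⁻¹))⁻¹
              = s⁻¹ * ((g * s * g⁻¹) * r * (g * s * g⁻¹)⁻¹) * s := by group
            _ = s⁻¹ * r⁻¹ * s := by rw [h2]
            _ = s⁻¹ * (r⁻¹) * s⁻¹⁻¹ := by rw [inv_inv]
            _ = s * r⁻¹ * s⁻¹ := by
              rw [inv_inv]
              have h6 : s⁻¹ = s := inv_eq_of_mul_eq_one_left (H.sq s hs)
              rw [h6]
            _ = r := h4
        rw [mul_inv_eq_iff_eq_mul] at h5
        exact h5.symm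
      rw [h, mem_bot] at h1
      rw [inv_mul_eq_one] at h1
      exact h1.symm
    · exact h
  have hsR : s ∈ V ⊓ centralizer (R : Set G) := by rw [hW]; exact hs
  rw [eq_bot_iff]
  intro r hr
  rw [mem_bot]
  apply hC 1 r hr
  have h1 := mem_centralizer_iff.1 hsR.2 r hr
  simpa using h1

end Cfsg.Agent.H338.Reduce
end

-- part: H338/Reduce2
section
/-!
# Local recognition: reduction to simple groups, main part (helper338)
-/

set_option autoImplicit false
open scoped Pointwise

namespace Cfsg.Agent.H338.Reduce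

open Subgroup

variable {G : Type*} [Group G]

/-- A normal subgroup of even order meets a Sylow 2-subgroup. -/
theorem sylow_inf_ne_bot {X : Type*} [Group X] [Finite X] {p : ℕ} [Fact p.Prime] (P : Sylow p X)
    (T : Subgroup X) [hT : T.Normal] (h : p ∣ Nat.card T) : (P : Subgroup X) ⊓ T ≠ ⊥ := by
  obtain ⟨t, ht⟩ := exists_prime_orderOf_dvd_card' (G := T) p h
  have ht' : orderOf (t : X) = p := by rw [← ht, Subgroup.orderOf_coe]
  have hpg : IsPGroup p (zpowers (t : X)) := by
    apply IsPGroup.of_card (n := 1)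
    rw [Nat.card_zpowers, ht', pow_one]
  obtain ⟨Q, hQ⟩ := hpg.exists_le_sylow
  obtain ⟨g, hg⟩ := MulAction.exists_smul_eq X Q P
  intro hbot
  have h1 : (t : X) ∈ (Q : Subgroup X) := hQ (mem_zpowers _)
  have h2 : g * (t : X) * g⁻¹ ∈ (P : Subgroup X) ⊓ T := by
    refine ⟨?_, hT.conj_mem _ t.2 g⟩
    rw [← hg]
    exact ⟨t, h1, rfl⟩
  rw [hbot, mem_bot] at h2
  have h3 : (t : X) = 1 := by
    calc (t : X) = g⁻¹ * (g * t * g⁻¹) * g := by group
      _ = 1 := by rw [h2]; group
  rw [h3, orderOf_one] at ht'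
  exact (Fact.out : p.Prime).one_lt.ne ht'

/-- Independent families in an elementary abelian 2-group. -/
theorem card_indep_le [Finite G] {V : Subgroup G} {n : ℕ} (hsq : ∀ v ∈ V, v * v = 1)
    (hcard : Nat.card V = 2 ^ n) {I : Set (Subgroup G)} (hI : sSupIndep I)
    (hV : ∀ T ∈ I, V ⊓ T ≠ ⊥) : I.ncard ≤ n := by
  classical
  have hcomm : ∀ a b : V, a * b = b * a := by
    intro a b
    apply Subtype.ext
    have h1 := hsq _ (V.mul_mem a.2 b.2)
    have h2 := hsq a a.2
    have h3 := hsq b b.2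
    show (a : G) * b = b * a
    calc (a : G) * b = (a * b)⁻¹ := eq_inv_of_mul_eq_one_left h1
      _ = (b : G)⁻¹ * (a : G)⁻¹ := mul_inv_rev _ _
      _ = b * a := by rw [inv_eq_of_mul_eq_one_left h2, inv_eq_of_mul_eq_one_left h3]
  let inst : CommGroup V := { (inferInstance : Group V) with mul_comm := hcomm }
  have hex : ∀ T : I, ∃ v : V, v ≠ 1 ∧ (v : G) ∈ (T : Subgroup G) := by
    intro T
    obtain ⟨v, hv⟩ := Subgroup.ne_bot_iff_exists_ne_one.1 (hV T T.2)
    have h0 : (v : G) ≠ 1 := fun h => hv (Subtype.ext h)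
    exact ⟨⟨v, v.2.1⟩, fun h => h0 (congrArg (fun z : V => (z : G)) h), v.2.2⟩
  choose w hw hwT using hex
  have hw2 : ∀ T, w T * w T = 1 := fun T => Subtype.ext (hsq _ (w T).2)
  have : Fintype I := Fintype.ofFinite I
  let f : Finset I → V := fun S => ∏ T ∈ S, w T
  have hf2 : ∀ S, f S * f S = 1 := fun S => by
    show (∏ T ∈ S, w T) * ∏ T ∈ S, w T = 1
    rw [← Finset.prod_mul_distrib]
    exact Finset.prod_eq_one fun T _ => hw2 T
  -- products over subsets avoiding `T`
  have hmem : ∀ (T : I) (S : Finset I), T ∉ S → ((f S : V) : G) ∈ sSup (I \ {(T : Subgroup G)}) := by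
    intro T S hTS
    induction S using Finset.induction_on with
    | empty => exact one_mem _
    | insert T' S hT' ih =>
      have h1 : f (insert T' S) = w T' * f S := Finset.prod_insert hT'
      rw [h1]
      rw [Finset.mem_insert, not_or] at hTS
      refine mul_mem ?_ (ih hTS.2)
      exact (le_sSup (show (T' : Subgroup G) ∈ I \ {(T : Subgroup G)} from
        ⟨T'.2, fun h => hTS.1 (Subtype.ext h).symm⟩)) (hwT T')
  have hne : ∀ S : Finset I, S.Nonempty → f S ≠ 1 := by
    rintro S ⟨T, hT⟩ h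
    have h1 : w T * f (S.erase T) = f S := Finset.mul_prod_erase S w hT
    rw [h] at h1
    have h2 : w T = f (S.erase T) := by
      have h3 := hf2 (S.erase T)
      exact mul_right_cancel (h1.trans h3.symm)
    have h3 := hmem T (S.erase T) (Finset.notMem_erase T S)
    have h4 : (w T : G) ∈ (T : Subgroup G) ⊓ sSup (I \ {(T : Subgroup G)}) := by
      refine ⟨hwT T, ?_⟩
      rw [h2]
      exact h3
    have h5 := (hI T.2).eq_bot
    rw [h5, mem_bot] at h4
    exact hw T (Subtype.ext h4)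
  have hmul : ∀ S T : Finset I, f (symmDiff S T) = f S * f T := by
    intro S T
    have h1 : f S = (∏ i ∈ S \ T, w i) * ∏ i ∈ S ∩ T, w i := by
      show ∏ i ∈ S, w i = _
      rw [← Finset.prod_union (Finset.disjoint_sdiff_inter S T), Finset.sdiff_union_inter]
    have h2 : f T = (∏ i ∈ T \ S, w i) * ∏ i ∈ S ∩ T, w i := by
      show ∏ i ∈ T, w i = _
      rw [Finset.inter_comm, ← Finset.prod_union (Finset.disjoint_sdiff_inter T S),
        Finset.sdiff_union_inter]
    have h3 : f (symmDiff S T) = (∏ i ∈ S \ T, w i) * ∏ i ∈ T \ S, w i := by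
      show ∏ i ∈ symmDiff S T, w i = _
      rw [symmDiff_def, Finset.sup_eq_union, Finset.prod_union disjoint_sdiff_sdiff]
    rw [h3, h1, h2, mul_mul_mul_comm, ← Finset.prod_mul_distrib (s := S ∩ T),
      Finset.prod_eq_one (s := S ∩ T) (fun i _ => hw2 i), mul_one]
  have hinj : Function.Injective f := by
    intro S T hST
    by_contra hne'
    have h1 : (symmDiff S T).Nonempty := by
      rw [Finset.nonempty_iff_ne_empty]
      intro h
      exact hne' (symmDiff_eq_bot.1 h)
    apply hne _ h1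
    rw [hmul, hST, hf2]
  have h1 := Nat.card_le_card_of_injective f hinj
  rw [hcard, Nat.card_eq_fintype_card (α := Finset I), Fintype.card_finset,
    ← Nat.card_eq_fintype_card] at h1
  have h2 : I.ncard = Nat.card I := rfl
  rw [h2]
  exact (Nat.pow_le_pow_iff_right (by norm_num)).1 h1

/-- Burnside: a self-normalising abelian 2-subgroup in a simple group. -/
theorem burnside {X : Type*} [Group X] [Finite X] [IsSimpleGroup X] {n : ℕ} (W : Subgroup X)
    (hsq : ∀ v ∈ W, v * v = 1) (hcard : Nat.card W = 2 ^ n) (hW : W ≠ ⊥)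
    (hna : ¬ ∀ x y : X, Commute x y) (hnorm : normalizer (W : Set X) ≤ W) : False := by
  have : Fact (Nat.Prime 2) := ⟨Nat.prime_two⟩
  have hcomm : ∀ a ∈ W, ∀ b ∈ W, a * b = b * a := by
    intro a ha b hb
    have h1 := hsq _ (W.mul_mem ha hb)
    have h2 := hsq a ha
    have h3 := hsq b hb
    calc a * b = (a * b)⁻¹ := eq_inv_of_mul_eq_one_left h1
      _ = b⁻¹ * a⁻¹ := mul_inv_rev _ _
      _ = b * a := by rw [inv_eq_of_mul_eq_one_left h2, inv_eq_of_mul_eq_one_left h3]
  have hnot : ¬ 2 ∣ W.index := by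
    have h1 := Sylow.card_quotient_normalizer_modEq_card_quotient hcard
    have h2 : normalizer (W : Set X) = W := le_antisymm hnorm le_normalizer
    have h3 : Nat.card (normalizer (W : Set X) ⧸ W.comap (normalizer (W : Set X)).subtype) = 1 := by
      have h4 : W.comap (normalizer (W : Set X)).subtype = ⊤ := by
        rw [eq_top_iff]
        intro x _
        exact hnorm x.2
      rw [← Subgroup.index, h4, Subgroup.index_top]
    rw [h3] at h1
    intro h4
    rw [← Subgroup.index] at h1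
    unfold Nat.ModEq at h1
    omega
  let P : Sylow 2 X := (IsPGroup.of_card hcard).toSylow hnot
  have hP : normalizer ((P : Subgroup X) : Set X) ≤ centralizer ((P : Subgroup X) : Set X) := by
    intro x hx
    rw [mem_centralizer_iff]
    intro w hw
    exact (hcomm x (hnorm hx) w hw).symm
  have h1 := MonoidHom.ker_transferSylow_isComplement' P hP
  rcases (inferInstance : (MonoidHom.transferSylow P hP).ker.Normal).eq_bot_or_eq_top with h | h
  · rw [h] at h1
    have h2 : (P : Subgroup X) = ⊤ := isComplement'_bot_left.1 h1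
    apply hna
    intro x y
    have hx : x ∈ (P : Subgroup X) := by rw [h2]; trivial
    have hy : y ∈ (P : Subgroup X) := by rw [h2]; trivial
    exact hcomm x hx y hy
  · rw [h] at h1
    exact hW (isComplement'_top_left.1 h1)

open Cfsg.Agent.Lib.MinNormal Cfsg.Agent.Lib.MinNormalNonabelian

variable {V : Subgroup G} {n p : ℕ}

/-- **The reduction.** -/
theorem Loc.reduce [Finite G] (H : Loc V n p) : V.Normal ∨ ∃ K : Subgroup G, K.Normal ∧
    IsSimpleGroup K ∧ (¬ ∀ x ∈ K, ∀ y ∈ K, Commute x y) ∧ normalizer (V : Set G) ≤ K ∧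
    ∀ g : G, (∀ k ∈ K, g * k = k * g) → g = 1 := by
  classical
  have : Fact (Nat.Prime 2) := ⟨Nat.prime_two⟩
  have : Fact p.Prime := ⟨H.prime⟩
  have hVne := H.ne_bot
  have : Nontrivial G := by
    obtain ⟨v, hv⟩ := Subgroup.ne_bot_iff_exists_ne_one.1 hVne
    exact ⟨⟨v, 1, fun h => hv (Subtype.ext h)⟩⟩
  obtain ⟨M, hMn, hMne, hmin⟩ := Cfsg.Agent.Lib.SubnormalJoin.exists_minimal_normal G
  have hM2 : 2 ∣ Nat.card M := by
    by_contra h
    exact hMne (H.no_odd M hMn (Nat.Coprime.symm ((Nat.Prime.coprime_iff_not_dvd Nat.prime_two).2 h)))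
  -- `V` meets every subgroup of even order normalised by `V`, inside a suitable group
  have hmeet : ∀ X T : Subgroup G, V ≤ X → T ≤ X → (∀ g ∈ X, ∀ t ∈ T, g * t * g⁻¹ ∈ T) →
      2 ∣ Nat.card T → V ⊓ T ≠ ⊥ := by
    intro X T hVX hTX hXT h2
    have hTn : (T.subgroupOf X).Normal := ⟨fun t ht g => hXT g g.2 t ht⟩
    have hT2 : 2 ∣ Nat.card (T.subgroupOf X) := by
      rw [Nat.card_congr (Subgroup.subgroupOfEquivOfLe hTX).toEquiv]
      exact h2
    have hV2 : IsPGroup 2 (V.subgroupOf X) := by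
      apply IsPGroup.of_card (n := n)
      rw [Nat.card_congr (Subgroup.subgroupOfEquivOfLe hVX).toEquiv, H.card]
    obtain ⟨P, hP⟩ := hV2.exists_le_sylow
    have h3 := sylow_inf_ne_bot P (T.subgroupOf X) hT2
    obtain ⟨w, hw, hw1, hwc⟩ := exists_fixed (V.subgroupOf X) ((P : Subgroup X) ⊓ T.subgroupOf X)
      hV2 h3 (P.2.to_le inf_le_left) (by
        intro x hx w hw
        exact ⟨(P : Subgroup X).mul_mem ((P : Subgroup X).mul_mem (hP hx) hw.1)
          ((P : Subgroup X).inv_mem (hP hx)), hTn.conj_mem _ hw.2 x⟩)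
    have hwV : (w : G) ∈ V := by
      apply H.cent
      intro v hv
      exact (congrArg Subtype.val (hwc ⟨v, hVX hv⟩ hv)).symm
    intro hbot
    have h4 : (w : G) ∈ V ⊓ T := ⟨hwV, hw.2⟩
    rw [hbot, mem_bot] at h4
    exact hw1 (Subtype.ext h4)
  -- `V ≤ M`
  have hVM : V ≤ M := by
    have h1 := hmeet ⊤ M le_top le_top (fun g _ t ht => hMn.conj_mem t ht g) hM2
    rcases H.irr (V ⊓ M) inf_le_left (fun g hg w hw =>
      ⟨conj_mem_V hg hw.1, hMn.conj_mem _ hw.2 g⟩) with h | h
    · exact absurd h h1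
    · rw [← h]; exact inf_le_right
  by_cases hab : ∀ x ∈ M, ∀ y ∈ M, Commute x y
  · left
    have h1 : M ≤ V := by
      intro m hm
      apply H.cent
      intro v hv
      exact (hab m hm v (hVM hv)).eq
    have h2 : M = V := le_antisymm h1 hVM
    rw [← h2]
    exact hMn
  right
  have := hMn
  obtain ⟨hne, hsI, hsup, hsimp, hcen, htrans⟩ := nonabelian_structure M hmin hab
  -- the order of the factors is even
  have hT2 : ∀ T ∈ minSet M, 2 ∣ Nat.card T := by
    intro T hT
    by_contra h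
    have hodd : (Nat.card T).Coprime 2 :=
      Nat.Coprime.symm ((Nat.Prime.coprime_iff_not_dvd Nat.prime_two).2 h)
    have hTn : (T.subgroupOf M).Normal := by
      refine ⟨fun t ht g => ?_⟩
      exact (mem_normalizer_iff.1 (hT.2.2.1 g.2) t).1 ht
    have h1 : T.subgroupOf M ≤ Cfsg.pPrimeCore 2 M := by
      apply Cfsg.Agent.Lib.Cores.le_pPrimeCore hTn
      rw [Nat.card_congr (Subgroup.subgroupOfEquivOfLe hT.1).toEquiv]
      exact hodd
    have h2 := Cfsg.Agent.Lib.Cores.map_subtype_pPrimeCore 2 hMn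
    have h3 : Cfsg.pPrimeCore 2 G = ⊥ := H.no_odd _ (Cfsg.Agent.Lib.Cores.pPrimeCore_normal 2)
      (Cfsg.Agent.Lib.Cores.pPrimeCore_coprime 2)
    rw [h3, inf_bot_eq, Subgroup.map_eq_bot_iff_of_injective _ M.subtype_injective] at h2
    rw [h2, le_bot_iff, Subgroup.subgroupOf_eq_bot, disjoint_iff, inf_eq_left.2 hT.1] at h1
    exact hT.2.1 h1
  have hVT : ∀ T ∈ minSet M, V ⊓ T ≠ ⊥ := fun T hT =>
    hmeet M T hVM hT.1 (fun g hg t ht => (mem_normalizer_iff.1 (hT.2.2.1 hg) t).1 ht) (hT2 T hT)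
  have hcount := card_indep_le H.sq H.card hsI hVT
  -- the kernel of the action of `N` on the factors
  let D : Subgroup G :=
    { carrier := {g | g ∈ normalizer (V : Set G) ∧ ∀ T ∈ minSet M, ∀ t, t ∈ T ↔ g * t * g⁻¹ ∈ T}
      one_mem' := ⟨one_mem _, fun T _ t => by simp⟩
      mul_mem' := by
        rintro a b ⟨ha, ha'⟩ ⟨hb, hb'⟩
        refine ⟨mul_mem ha hb, fun T hT t => ?_⟩
        rw [hb' T hT t, ha' T hT]
        have : a * (b * t * b⁻¹) * a⁻¹ = a * b * t * (a * b)⁻¹ := by group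
        rw [this]
      inv_mem' := by
        rintro a ⟨ha, ha'⟩
        refine ⟨inv_mem ha, fun T hT t => ?_⟩
        rw [ha' T hT (a⁻¹ * t * a⁻¹⁻¹)]
        have : a * (a⁻¹ * t * a⁻¹⁻¹) * a⁻¹ = t := by group
        rw [this] }
  have hVD : V ≤ D := fun v hv => ⟨H.le hv, fun T hT t => mem_normalizer_iff.1 (hT.2.2.1 (hVM hv)) t⟩
  have hconj : ∀ (g : G) (T : Subgroup G), T ∈ minSet M →
      T.map (MulAut.conj g).toMonoidHom ∈ minSet M := fun g T hT => map_conj_mem_minSet hT g
  have hDN : D = normalizer (V : Set G) := by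
    rcases H.simple D hVD (fun g hg => hg.1) (by
      rintro g hg d ⟨hd, hd'⟩
      refine ⟨mul_mem (mul_mem hg hd) (inv_mem hg), fun T hT t => ?_⟩
      have h1 := hd' _ (hconj g⁻¹ T hT) (g⁻¹ * t * g)
      have h2 : ∀ z : G, z ∈ T.map (MulAut.conj g⁻¹).toMonoidHom ↔ g * z * g⁻¹ ∈ T := by
        intro z
        constructor
        · rintro ⟨w, hw, rfl⟩
          have : g * ((MulAut.conj g⁻¹).toMonoidHom w) * g⁻¹ = w := by
            show g * (g⁻¹ * w * g⁻¹⁻¹) * g⁻¹ = w
            group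
          rw [this]; exact hw
        · intro hz
          refine ⟨_, hz, ?_⟩
          show g⁻¹ * (g * z * g⁻¹) * g⁻¹⁻¹ = z
          group
      rw [h2, h2] at h1
      have e1 : g * (g⁻¹ * t * g) * g⁻¹ = t := by group
      have e2 : g * (d * (g⁻¹ * t * g) * d⁻¹) * g⁻¹ = g * d * g⁻¹ * t * (g * d * g⁻¹)⁻¹ := by group
      rw [e1, e2] at h1
      exact h1) with h | h
    · exfalso
      obtain ⟨y, hy, hyo⟩ := H.y
      have hyD : y ∈ D := by
        refine ⟨hy, fun T hT t => ?_⟩
        let s : Finset (Subgroup G) := (Set.toFinite (minSet M)).toFinset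
        have hs : s.card = (minSet M).ncard := by
          rw [Set.ncard_eq_toFinset_card _ (Set.toFinite _)]
        have h1 : (MulAut.conj y) ^ p = 1 := by
          rw [← map_pow, ← hyo, pow_orderOf_eq_one, map_one]
        have h2 := Cfsg.Agent.SporadicStructure.M24IndexAbs.smul_eq_of_card_lt (α := Subgroup G)
          (g := MulAut.conj y) h1 s (by
            intro T hT
            rw [Set.Finite.mem_toFinset] at hT ⊢
            exact hconj y T hT) (by
            rw [hs]
            exact lt_of_le_of_lt hcount H.lt) T (by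
            rw [Set.Finite.mem_toFinset]; exact hT)
        constructor
        · intro ht
          rw [← h2]
          exact ⟨t, ht, rfl⟩
        · intro ht
          rw [← h2] at ht
          obtain ⟨w, hw, hwt⟩ := ht
          have h3 : y * w * y⁻¹ = y * t * y⁻¹ := hwt
          have h4 : w = t := by
            have := mul_right_cancel h3
            exact mul_left_cancel this
          rw [← h4]; exact hw
      rw [h] at hyD
      have h3 := H.sq y hyD
      have h4 : orderOf y ∣ 2 := orderOf_dvd_of_pow_eq_one (by rw [pow_two, h3])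
      rw [hyo] at h4
      have h5 := Nat.le_of_dvd (by norm_num) h4
      have h6 := H.two_le
      have h7 := H.lt
      omega
    · exact h
  -- `V` lies in every factor
  have hVle : ∀ T ∈ minSet M, V ≤ T := by
    intro T hT
    rcases H.irr (V ⊓ T) inf_le_left (by
      intro g hg w hw
      refine ⟨conj_mem_V hg hw.1, ?_⟩
      have h1 : g ∈ D := by rw [hDN]; exact hg
      exact (h1.2 T hT w).1 hw.2) with h | h
    · exact absurd h (hVT T hT)
    · rw [← h]; exact inf_le_right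
  obtain ⟨T, hT⟩ := hne
  have huniq : ∀ S ∈ minSet M, S = T := by
    intro S hS
    by_contra hST
    have h1 := hsI.pairwiseDisjoint hS hT hST
    apply hVne
    rw [eq_bot_iff]
    exact h1 (hVle S hS) (hVle T hT)
  have hMT : M = T := by
    rw [← hsup]
    apply le_antisymm
    · exact sSup_le fun S hS => (huniq S hS).le
    · exact le_sSup hT
  have hMs : IsSimpleGroup M := by rw [hMT]; exact hsimp T hT
  -- `N ≤ M`
  have hNM : normalizer (V : Set G) ≤ M := by
    rcases H.simple (normalizer (V : Set G) ⊓ M) (le_inf H.le hVM) inf_le_left (by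
      intro g hg m hm
      exact ⟨(normalizer (V : Set G)).mul_mem ((normalizer (V : Set G)).mul_mem hg hm.1)
        ((normalizer (V : Set G)).inv_mem hg), hMn.conj_mem _ hm.2 g⟩) with h | h
    · exfalso
      apply burnside (X := M) (n := n) (V.subgroupOf M)
      · intro v hv
        exact Subtype.ext (H.sq _ hv)
      · rw [Nat.card_congr (Subgroup.subgroupOfEquivOfLe hVM).toEquiv, H.card]
      · intro h1
        rw [Subgroup.subgroupOf_eq_bot, disjoint_iff, inf_eq_left.2 hVM] at h1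
        exact hVne h1
      · intro h1
        apply hab
        intro x hx y hy
        exact congrArg Subtype.val (h1 ⟨x, hx⟩ ⟨y, hy⟩).eq
      · intro x hx
        show (x : G) ∈ V
        rw [← h]
        refine ⟨?_, x.2⟩
        show (x : G) ∈ normalizer (V : Set G)
        rw [mem_normalizer_iff] at hx ⊢
        intro v
        constructor
        · intro hv
          exact (hx ⟨v, hVM hv⟩).1 hv
        · intro hv
          have hvM : v ∈ M := by
            have h2 := M.mul_mem (M.mul_mem (M.inv_mem x.2) (hVM hv)) x.2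
            have h3 : (x : G)⁻¹ * (x * v * (x : G)⁻¹) * x = v := by group
            rwa [h3] at h2
          exact (hx ⟨v, hvM⟩).2 hv
    · rw [← h]; exact inf_le_right
  refine ⟨M, hMn, hMs, hab, hNM, ?_⟩
  intro g hg
  have h1 : g ∈ V := H.cent g (fun v hv => hg v (hVM hv))
  have h2 := hcen T hT g (by rw [← hMT]; exact hVM h1) (fun t ht => hg t (by rw [hMT]; exact ht))
  exact h2

end Cfsg.Agent.H338.Reduce
end

-- part: H338/LocSyl
section
/-!
# Local recognition: the Sylow 2-subgroup (helper338)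

`V` self-centralising, `f : N(V) →* X` surjective with kernel `V`.  If `X` has no quadratic offenders
on `V`, the normaliser of a Sylow 2-subgroup of `N(V)` lies in `N(V)`.
-/

set_option autoImplicit false
open scoped Pointwise

namespace Cfsg.Agent.H338.LocSyl

open Subgroup Cfsg.Agent.H338.Reduce

variable {G : Type*} [Group G] {X : Type*} [Group X] {V : Subgroup G}

/-- The action of `X` on `V`. -/
noncomputable def act (f : normalizer (V : Set G) →* X) (hf : Function.Surjective f)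
    (hk : f.ker = V.subgroupOf (normalizer (V : Set G)))
    (hab : ∀ a ∈ V, ∀ b ∈ V, a * b = b * a) : X →* MulAut V :=
  f.liftOfSurjective hf ⟨V.normalizerMonoidHom, by
    rw [hk, normalizerMonoidHom_ker]
    intro x hx
    rw [mem_subgroupOf] at hx ⊢
    rw [mem_centralizer_iff]
    intro v hv
    exact hab v hv _ hx⟩

theorem act_apply (f : normalizer (V : Set G) →* X) (hf : Function.Surjective f)
    (hk : f.ker = V.subgroupOf (normalizer (V : Set G)))
    (hab : ∀ a ∈ V, ∀ b ∈ V, a * b = b * a) (x : normalizer (V : Set G)) (v : V) :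
    ((act f hf hk hab (f x) v : V) : G) = x * v * (x : G)⁻¹ := by
  unfold act
  rw [MonoidHom.liftOfRightInverse_comp_apply]
  rfl

/-- The normaliser of a 2-subgroup of `N(V)` containing `V`. -/
theorem normalizer_le [Finite G] (f : normalizer (V : Set G) →* X) (hf : Function.Surjective f)
    (hk : f.ker = V.subgroupOf (normalizer (V : Set G)))
    (hsq : ∀ v ∈ V, v * v = 1) (hab : ∀ a ∈ V, ∀ b ∈ V, a * b = b * a)
    (hno : ∀ B : Subgroup X, (∀ b ∈ B, b * b = 1) → B ≠ ⊥ → ∀ A0 : Subgroup V,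
      (∀ b ∈ B, ∀ a ∈ A0, act f hf hk hab b a = a) →
      (∀ b ∈ B, ∀ a : V, act f hf hk hab b a * a ∈ A0) →
      Nat.card A0 * Nat.card B < Nat.card V)
    (S : Subgroup G) (hVS : V ≤ S) (hSN : S ≤ normalizer (V : Set G)) :
    normalizer (S : Set G) ≤ normalizer (V : Set G) := by
  intro t ht
  -- the conjugate of `V`
  let W : Subgroup G := V.map (MulAut.conj t).toMonoidHom
  have hW : ∀ x, x ∈ W ↔ t⁻¹ * x * t ∈ V := by
    intro x
    constructor
    · rintro ⟨y, hy, rfl⟩
      have : t⁻¹ * ((MulAut.conj t).toMonoidHom y) * t = y := by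
        show t⁻¹ * (t * y * t⁻¹) * t = y
        group
      rw [this]; exact hy
    · intro hx
      refine ⟨_, hx, ?_⟩
      show t * (t⁻¹ * x * t) * t⁻¹ = x
      group
  have hWS : W ≤ S := by
    rintro _ ⟨y, hy, rfl⟩
    exact (mem_normalizer_iff.1 ht y).1 (hVS hy)
  have hWN : W ≤ normalizer (V : Set G) := hWS.trans hSN
  have hWc : Nat.card W = Nat.card V := Nat.card_congr
    (V.equivMapOfInjective (MulAut.conj t).toMonoidHom (MulAut.conj t).injective).symm.toEquiv
  have hWsq : ∀ w ∈ W, w * w = 1 := by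
    intro w hw
    have h1 := hsq _ ((hW w).1 hw)
    calc w * w = t * ((t⁻¹ * w * t) * (t⁻¹ * w * t)) * t⁻¹ := by group
      _ = 1 := by rw [h1]; group
  have hWab : ∀ a ∈ W, ∀ b ∈ W, a * b = b * a := by
    intro a ha b hb
    have h1 := hab _ ((hW a).1 ha) _ ((hW b).1 hb)
    calc a * b = t * ((t⁻¹ * a * t) * (t⁻¹ * b * t)) * t⁻¹ := by group
      _ = t * ((t⁻¹ * b * t) * (t⁻¹ * a * t)) * t⁻¹ := by rw [h1]
      _ = b * a := by group
  -- `S` normalises `W`
  have hSW : ∀ s ∈ S, ∀ w ∈ W, s * w * s⁻¹ ∈ W := by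
    intro s hs w hw
    rw [hW]
    have h1 : t⁻¹ * s * t ∈ S := by
      have := (mem_normalizer_iff.1 (inv_mem ht) s).1 hs
      rwa [inv_inv] at this
    have h2 := (mem_normalizer_iff.1 (hSN h1) (t⁻¹ * w * t)).1 ((hW w).1 hw)
    have h3 : t⁻¹ * s * t * (t⁻¹ * w * t) * (t⁻¹ * s * t)⁻¹ = t⁻¹ * (s * w * s⁻¹) * t := by group
    rwa [h3] at h2
  let g : W →* X := f.comp (Subgroup.inclusion hWN)
  have hgk : ∀ w : W, g w = 1 ↔ (w : G) ∈ V := by
    intro w
    have h1 : g w = 1 ↔ Subgroup.inclusion hWN w ∈ f.ker := Iff.rfl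
    rw [h1, hk]
    rfl
  have hWV : W ≤ V := by
    by_contra hnle
    have hB : g.range ≠ ⊥ := by
      intro h
      apply hnle
      intro w hw
      have h1 : g ⟨w, hw⟩ ∈ g.range := ⟨_, rfl⟩
      rw [h, mem_bot] at h1
      exact (hgk _).1 h1
    have h1 := hno g.range (by
      rintro _ ⟨w, rfl⟩
      rw [← map_mul]
      have : w * w = 1 := Subtype.ext (hWsq w w.2)
      rw [this, map_one]) hB (W.subgroupOf V) (by
      rintro _ ⟨w, rfl⟩ a ha
      apply Subtype.ext
      have h2 := act_apply f hf hk hab (Subgroup.inclusion hWN w) a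
      have h3 : ((act f hf hk hab (g w) a : V) : G) = w * a * (w : G)⁻¹ := h2
      rw [h3, hWab w w.2 a ha]
      group) (by
      rintro _ ⟨w, rfl⟩ a
      have h2 := act_apply f hf hk hab (Subgroup.inclusion hWN w) a
      have h3 : ((act f hf hk hab (g w) a : V) : G) = w * a * (w : G)⁻¹ := h2
      show ((act f hf hk hab (g w) a * a : V) : G) ∈ W
      rw [Subgroup.coe_mul, h3]
      have h4 := hSW a (hVS a.2) (w : G)⁻¹ (W.inv_mem w.2)
      have h5 : (a : G)⁻¹ = a := inv_eq_of_mul_eq_one_left (hsq a a.2)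
      rw [h5] at h4
      have h6 : (w : G) * a * (w : G)⁻¹ * a = w * (a * (w : G)⁻¹ * a) := by group
      rw [h6]
      exact W.mul_mem w.2 h4)
    have h2 : Nat.card g.ker * Nat.card g.range = Nat.card W := by
      rw [← Subgroup.index_ker, Subgroup.card_mul_index]
    have h3 : Nat.card g.ker = Nat.card (W.subgroupOf V) := by
      refine Nat.card_congr ⟨fun w => ⟨⟨w.1, (hgk _).1 w.2⟩, w.1.2⟩,
        fun v => ⟨⟨v.1, v.2⟩, (hgk _).2 v.1.2⟩, ?_, ?_⟩
      · intro w; rfl
      · intro v; rfl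
    rw [← h3, h2, hWc] at h1
    exact lt_irrefl _ h1
  have hWV' : W = V := Subgroup.eq_of_le_of_card_ge hWV hWc.ge
  rw [mem_normalizer_iff]
  intro x
  constructor
  · intro hx
    rw [← hWV']
    exact ⟨x, hx, rfl⟩
  · intro hx
    rw [← hWV', hW] at hx
    have : t⁻¹ * (t * x * t⁻¹) * t = x := by group
    rwa [this] at hx

/-- A Sylow 2-subgroup `S` of `N` with `N_G(S) ≤ N` has odd index in `G`. -/
theorem not_dvd_index [Finite G] (N S : Subgroup G) {m : ℕ} (hS : Nat.card S = 2 ^ m)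
    (hNm : ¬ 2 ^ (m + 1) ∣ Nat.card N) (hnorm : normalizer (S : Set G) ≤ N) : ¬ 2 ∣ S.index := by
  have : Fact (Nat.Prime 2) := ⟨Nat.prime_two⟩
  intro h2
  have h3 : 2 ^ (m + 1) ∣ Nat.card G := by
    rw [← S.card_mul_index, hS, pow_succ]
    exact Nat.mul_dvd_mul_left _ h2
  have h4 := Sylow.prime_pow_dvd_card_normalizer h3 hS
  exact hNm (h4.trans (Subgroup.card_dvd_of_le hnorm))

/-- Frattini. -/
theorem eq_top [Finite G] (K N S : Subgroup G) (hK : K.Normal) (hNK : N ≤ K) (hSN : S ≤ N)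
    {m : ℕ} (hS : Nat.card S = 2 ^ m) (hi : ¬ 2 ∣ S.index) (hnorm : normalizer (S : Set G) ≤ N) :
    K = ⊤ := by
  have : Fact (Nat.Prime 2) := ⟨Nat.prime_two⟩
  have hSK : S ≤ K := hSN.trans hNK
  have h1 : IsPGroup 2 (S.subgroupOf K) := by
    apply IsPGroup.of_card (n := m)
    rw [Nat.card_congr (Subgroup.subgroupOfEquivOfLe hSK).toEquiv, hS]
  have h2 : ¬ 2 ∣ (S.subgroupOf K).index := by
    intro h
    exact hi (h.trans (Subgroup.relIndex_dvd_index_of_le hSK))
  let P : Sylow 2 K := h1.toSylow h2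
  have h3 := Sylow.normalizer_sup_eq_top P
  have h4 : ((P : Subgroup K).map K.subtype) = S := by
    show (S.subgroupOf K).map K.subtype = S
    rw [subgroupOf_map_subtype, inf_eq_left]
    exact hSK
  rw [h4] at h3
  rw [← h3]
  exact (sup_eq_right.2 (hnorm.trans hNK)).symm

end Cfsg.Agent.H338.LocSyl
end
end

-- part: H338/MkLoc_mg
section
prune_inst 0x420000000000000000000000000000000000000000000000000000000000000000000000000000000000000040010042000000000000000011800000000000000000000000000000000000000000000000000000000000000000000000000000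
set_option linter.all false
open scoped Cfsg.Agent.FastGrp

-- part: H338/MkLoc
section
/-!
# Local recognition: the hypotheses (helper338)
-/

set_option autoImplicit false

namespace Cfsg.Agent.H338.LocSyl

open Subgroup Cfsg.Agent.H338.Reduce

variable {G : Type*} [Group G] {X : Type*} [Group X] {V : Subgroup G}

theorem mk_loc [Finite G] (f : normalizer (V : Set G) →* X) (hf : Function.Surjective f)
    (hk : f.ker = V.subgroupOf (normalizer (V : Set G))) [hX : IsSimpleGroup X]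
    {n p : ℕ} (hsq : ∀ v ∈ V, v * v = 1) (hcard : Nat.card V = 2 ^ n) (hn : 2 ≤ n)
    (hcent : ∀ g : G, (∀ v ∈ V, g * v = v * g) → g ∈ V)
    (hirr : ∀ W : Subgroup G, W ≤ V →
      (∀ g ∈ normalizer (V : Set G), ∀ w ∈ W, g * w * g⁻¹ ∈ W) → W = ⊥ ∨ W = V)
    (hp : p.Prime) (hlt : n < p) (hpX : p ∣ Nat.card X)
    (hO : ∀ T : Sylow 2 (normalizer (V : Set G)), ∀ s : normalizer (V : Set G),
      s ∈ (T : Subgroup (normalizer (V : Set G))) → orderOf s = 2 →
      (∀ y ∈ (T : Subgroup (normalizer (V : Set G))), y * s = s * y) →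
      Cfsg.pPrimeCore 2 (centralizer ({(s : G)} : Set G)) = ⊥) : Loc V n p where
  sq := hsq
  card := hcard
  two_le := hn
  cent := hcent
  irr := hirr
  simple := by
    intro M hVM hMN hM
    have hMn : (M.subgroupOf (normalizer (V : Set G))).Normal := ⟨fun m hm g => hM g g.2 m hm⟩
    have h1 : ((M.subgroupOf (normalizer (V : Set G))).map f).Normal := hMn.map f hf
    have hcm : ((M.subgroupOf (normalizer (V : Set G))).map f).comap f =
        M.subgroupOf (normalizer (V : Set G)) := by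
      rw [Subgroup.comap_map_eq, hk, sup_eq_left]
      intro x hx
      exact hVM hx
    rcases h1.eq_bot_or_eq_top with h | h
    · left
      rw [h, MonoidHom.comap_bot, hk] at hcm
      apply le_antisymm _ hVM
      intro m hm
      have h2 : (⟨m, hMN hm⟩ : normalizer (V : Set G)) ∈ M.subgroupOf (normalizer (V : Set G)) := hm
      rw [← hcm] at h2
      exact h2
    · right
      rw [h, Subgroup.comap_top] at hcm
      apply le_antisymm hMN
      intro m hm
      have h2 : (⟨m, hm⟩ : normalizer (V : Set G)) ∈ (⊤ : Subgroup _) := trivial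
      rw [hcm] at h2
      exact h2
  prime := hp
  lt := hlt
  y := by
    have : Fact p.Prime := ⟨hp⟩
    have h1 : p ∣ Nat.card (normalizer (V : Set G)) :=
      hpX.trans (Subgroup.card_dvd_of_surjective f hf)
    obtain ⟨y, hy⟩ := exists_prime_orderOf_dvd_card' (G := normalizer (V : Set G)) p h1
    exact ⟨y, y.2, by rw [← hy, Subgroup.orderOf_coe]⟩
  core := by
    intro P hPN hP hVP hmax s hs hs1 hss hsc R hR hRn hRc
    have : Fact (Nat.Prime 2) := ⟨Nat.prime_two⟩
    have hP2 : IsPGroup 2 (P.subgroupOf (normalizer (V : Set G))) := by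
      obtain ⟨k, hk'⟩ := IsPGroup.iff_card.1 hP
      apply IsPGroup.of_card (n := k)
      rw [Nat.card_congr (Subgroup.subgroupOfEquivOfLe hPN).toEquiv, hk']
    let T : Sylow 2 (normalizer (V : Set G)) :=
      { P.subgroupOf (normalizer (V : Set G)) with
        isPGroup' := hP2
        is_maximal' := by
          intro Q hQ hPQ
          have h1 := hmax (Q.map (normalizer (V : Set G)).subtype) (map_subtype_le Q)
            (hQ.map _) (by
              intro x hx
              exact ⟨⟨x, hPN hx⟩, hPQ (show (⟨x, hPN hx⟩ : normalizer (V : Set G)) ∈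
                P.subgroupOf (normalizer (V : Set G)) from hx), rfl⟩)
          ext x
          constructor
          · intro hx
            show (x : G) ∈ P
            rw [← h1]
            exact ⟨x, hx, rfl⟩
          · intro hx
            exact hPQ hx }
    have h1 := hO T ⟨s, hPN hs⟩ hs (by
      rw [orderOf_eq_prime_iff]
      exact ⟨Subtype.ext (by show s ^ 2 = 1; rw [pow_two, hss]),
        fun h => hs1 (congrArg Subtype.val h)⟩) (fun y hy => Subtype.ext (hsc y hy))
    have h2 : (R.subgroupOf (centralizer ({s} : Set G))).Normal :=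
      ⟨fun r hr g => hRn g g.2 r hr⟩
    have h3 : R.subgroupOf (centralizer ({s} : Set G)) ≤
        Cfsg.pPrimeCore 2 (centralizer ({s} : Set G)) := by
      apply le_sSup
      refine ⟨h2, ?_⟩
      rw [Nat.card_congr (Subgroup.subgroupOfEquivOfLe hR).toEquiv]
      exact hRc
    have h4 : Cfsg.pPrimeCore 2 (centralizer ({s} : Set G)) = ⊥ := h1
    rw [h4, le_bot_iff, Subgroup.subgroupOf_eq_bot, disjoint_iff, inf_eq_left.2 hR] at h3
    exact h3

end Cfsg.Agent.H338.LocSyl
end

-- part: H338/CharTwoOrd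
section
/-!
# The 2-part of the order of a classical group in characteristic 2 (helper338)
-/

set_option autoImplicit false

namespace Cfsg.Agent.H338.CharTwoOrd

open Cfsg.Agent.OrdDiv

theorem exp_eq {d c k m e : ℕ} (hd : Odd d) (hm : Odd m) (h : d * c = 2 ^ k * m)
    (h1 : 2 ^ e ∣ c) (h2 : ¬ 2 ^ (e + 1) ∣ c) : k = e := by
  have hm2 : Nat.Coprime (2 ^ e) m := Nat.Coprime.pow_left _ ((Nat.coprime_two_left).2 hm)
  have h3 : 2 ^ e ∣ 2 ^ k := by
    have h4 : 2 ^ e ∣ 2 ^ k * m := by rw [← h]; exact Dvd.dvd.mul_left h1 d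
    exact hm2.dvd_of_dvd_mul_right h4
  have h4 : e ≤ k := (Nat.pow_dvd_pow_iff_le_right (by norm_num)).1 h3
  by_contra hne
  have h5 : 2 ^ (e + 1) ∣ d * c := by
    rw [h]
    exact Dvd.dvd.mul_right (pow_dvd_pow 2 (by omega)) m
  have hd2 : Nat.Coprime (2 ^ (e + 1)) d := Nat.Coprime.pow_left _ ((Nat.coprime_two_left).2 hd)
  exact h2 (hd2.dvd_of_dvd_mul_left h5)

theorem odd_sub {q k : ℕ} (hq : Even q) (hq0 : 0 < q) (hk : k ≠ 0) : Odd (q ^ k - 1) := by
  have h1 : Even (q ^ k) := hq.pow_of_ne_zero hk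
  have h2 : 1 ≤ q ^ k := Nat.one_le_pow _ _ hq0
  obtain ⟨m, hm⟩ := h1
  exact ⟨m - 1, by omega⟩

theorem odd_add {q k : ℕ} (hq : Even q) (hk : k ≠ 0) : Odd (q ^ k + 1) :=
  (hq.pow_of_ne_zero hk).add_one

theorem odd_prod (f : ℕ → ℕ) (n : ℕ) (h : ∀ i < n, Odd (f i)) : Odd (((List.range n).map f).prod) := by
  rw [prod_list]
  apply Finset.prod_induction
  · intro a b ha hb; exact ha.mul hb
  · exact odd_one
  · intro i hi; exact h i (Finset.mem_range.1 hi)

theorem odd_prB {q m : ℕ} (hq : Even q) (hq0 : 0 < q) : Odd (prB q m) :=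
  odd_prod _ _ fun i _ => odd_sub hq hq0 (by omega)

theorem odd_prU {q n : ℕ} (hq : Even q) (hq0 : 0 < q) : Odd (prU q n) := by
  apply odd_prod
  intro i _
  split_ifs
  · exact odd_add hq (by omega)
  · exact odd_sub hq hq0 (by omega)

theorem glN_eq {q : ℕ} (n : ℕ) : glN n q =
    q ^ (n * (n - 1) / 2) * ((List.range n).map fun i => q ^ (n - i) - 1).prod := by
  unfold glN
  rw [prod_list, prod_list, ← Finset.sum_range_id, ← Finset.prod_pow_eq_pow_sum,
    ← Finset.prod_mul_distrib]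
  apply Finset.prod_congr rfl
  intro i hi
  rw [Finset.mem_range] at hi
  rw [Nat.mul_sub, mul_one, ← pow_add]
  congr 2
  omega

theorem odd_glN {q n : ℕ} (hq : Even q) (hq0 : 0 < q) :
    Odd (((List.range n).map fun i => q ^ (n - i) - 1).prod) :=
  odd_prod _ _ fun i hi => odd_sub hq hq0 (by omega)

end Cfsg.Agent.H338.CharTwoOrd
end

-- part: H338/Families
section
/-!
# Known simple groups with a given 2-part of the order (helper338)
-/

set_option autoImplicit false

namespace Cfsg.Agent.H338.Families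

open Cfsg Cfsg.Agent.OrdDiv Cfsg.Agent.H338.CharTwoOrd

universe u

/-- A classical group over a field in which `2 ≠ 0`. -/
def OddCl (S : Type u) [Group S] : Prop :=
  ∃ (F : Type) (_ : Field F) (_ : Fintype F), (2 : F) ≠ 0 ∧
    ((∃ n : ℕ, Nonempty (S ≃* Matrix.ProjectiveSpecialLinearGroup (Fin n) F)) ∨
    (∃ m : ℕ, Nonempty (S ≃* PSp m F)) ∨
    (∃ n q : ℕ, (∀ a b : F, (a + b) ^ q = a ^ q + b ^ q) ∧ Nonempty (S ≃* PSU n F q)) ∨
    (∃ m : ℕ, Nonempty (S ≃* POmega F (quadFormOdd m F))) ∨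
    (∃ m : ℕ, Nonempty (S ≃* POmega F (quadFormPlus m F))) ∨
    (∃ (m : ℕ) (s t : F), Nonempty (S ≃* POmega F (quadFormMinus m F s t))))

/-- A linear group over a field in which `2 ≠ 0`. -/
def OddEx (S : Type u) [Group S] (d : ℕ) : Prop :=
  ∃ (F : Type) (_ : Field F) (_ : Fintype F) (ι : Type) (_ : Fintype ι) (_ : DecidableEq ι),
    (2 : F) ≠ 0 ∧ Fintype.card ι = d ∧ ∃ θ : S →* Matrix.GeneralLinearGroup ι F, Function.Injective θ

/-- A classical group in characteristic 2 whose order has 2-part `2 ^ e`. -/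
def EvenCl (S : Type u) [Group S] (e : ℕ) : Prop :=
  ∃ (F : Type) (_ : Field F) (_ : Fintype F) (f : ℕ),
    ((∃ n : ℕ, 2 ≤ n ∧ Fintype.card F = 2 ^ f ∧ f * (n * (n - 1) / 2) = e ∧
      Nonempty (S ≃* Matrix.ProjectiveSpecialLinearGroup (Fin n) F)) ∨
    (∃ m : ℕ, 2 ≤ m ∧ Fintype.card F = 2 ^ f ∧ f * m ^ 2 = e ∧ Nonempty (S ≃* PSp m F)) ∨
    (∃ n : ℕ, 3 ≤ n ∧ Fintype.card F = (2 ^ f) ^ 2 ∧ f * (n * (n - 1) / 2) = e ∧
      Nonempty (S ≃* PSU n F (2 ^ f))) ∨
    (∃ m : ℕ, 4 ≤ m ∧ Fintype.card F = 2 ^ f ∧ f * (m * (m - 1)) = e ∧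
      Nonempty (S ≃* POmega F (quadFormPlus m F))) ∨
    (∃ (m : ℕ) (s t : F), 4 ≤ m ∧ Fintype.card F = 2 ^ f ∧ f * (m * (m - 1)) = e ∧
      (∀ z₁ z₂ : F, z₁ ^ 2 + s * z₁ * z₂ + t * z₂ ^ 2 = 0 → z₁ = 0 ∧ z₂ = 0) ∧
      Nonempty (S ≃* POmega F (quadFormMinus (m - 1) F s t))))

theorem field_cases (F : Type) [Field F] [Fintype F] :
    (2 : F) ≠ 0 ∨ ∃ f, f ≠ 0 ∧ Fintype.card F = 2 ^ f := by
  by_cases h2 : (2 : F) = 0
  · right
    obtain ⟨p, hp⟩ := CharP.exists F
    obtain ⟨n, hpp, hc⟩ := FiniteField.card F p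
    have hp2 : p = 2 := by
      have h3 : ((2 : ℕ) : F) = 0 := by exact_mod_cast h2
      have h4 := (CharP.cast_eq_zero_iff F p 2).1 h3
      exact ((Nat.prime_dvd_prime_iff_eq hpp Nat.prime_two).1 h4)
    subst hp2
    exact ⟨n, n.ne_zero, hc⟩
  · exact Or.inl h2

theorem frob {F : Type} [Field F] [Fintype F] {q r : ℕ} (hr : r ≠ 0) (hq : IsPrimePow q)
    (hF : Fintype.card F = q ^ r) (a b : F) : (a + b) ^ q = a ^ q + b ^ q := by
  obtain ⟨p, k, hp, hk, rfl⟩ := (isPrimePow_nat_iff _).1 hq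
  obtain ⟨p', hp'⟩ := CharP.exists F
  obtain ⟨n, hpp, hc⟩ := FiniteField.card F p'
  have h1 : p' = p := by
    have h2 : p' ∣ p := by
      have h3 : p' ∣ (p ^ k) ^ r := by
        rw [← hF, hc]
        exact dvd_pow_self _ n.ne_zero
      exact hpp.dvd_of_dvd_pow (hpp.dvd_of_dvd_pow h3)
    exact (Nat.prime_dvd_prime_iff_eq hpp hp).1 h2
  subst h1
  have : Fact p'.Prime := ⟨hpp⟩
  exact add_pow_char_pow (R := F) a b p' k

theorem even_pow {q : ℕ} {F : Type} [Field F] [Fintype F] {r : ℕ} (hr : r ≠ 0) (hq : IsPrimePow q)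
    (hF : Fintype.card F = q ^ r) : (2 : F) ≠ 0 ∨ ∃ f, f ≠ 0 ∧ q = 2 ^ f := by
  rcases field_cases F with h | ⟨f, hf, hf2⟩
  · exact Or.inl h
  right
  obtain ⟨p, k, hp, hk, rfl⟩ := (isPrimePow_nat_iff _).1 hq
  have h2 : p = 2 := by
    have h3 : p ∣ 2 ^ f := by
      rw [← hf2, hF]
      exact dvd_pow (dvd_pow_self p hk.ne') hr
    exact (Nat.prime_dvd_prime_iff_eq hp Nat.prime_two).1 (hp.dvd_of_dvd_pow h3)
  exact ⟨k, hk.ne', by rw [h2]⟩

theorem two_pow_even {f : ℕ} (hf : f ≠ 0) : Even (2 ^ f) := (even_two).pow_of_ne_zero hf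

/-- The exceptional groups of characteristic 2 do not occur for these `e`. -/
structure NoEx (e : ℕ) : Prop where
  six : ¬ 6 ∣ e
  sixtythree : ¬ 63 ∣ e
  two : e % 4 ≠ 2
  eleven : e ≠ 11

theorem odd_card {F : Type} [Field F] [Fintype F] (h2 : (2 : F) ≠ 0) : Odd (Fintype.card F) := by
  obtain ⟨p, hp⟩ := CharP.exists F
  obtain ⟨n, hpp, hc⟩ := FiniteField.card F p
  rw [hc]
  apply Odd.pow
  rcases hpp.eq_two_or_odd' with h | h
  · exfalso
    apply h2
    have h3 : ((p : ℕ) : F) = 0 := CharP.cast_eq_zero F p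
    rw [h] at h3
    exact_mod_cast h3
  · exact h

theorem e8_odd {q c : ℕ} (hq : Odd q) (hc : c = q ^ 120 * (q ^ 2 - 1) * (q ^ 8 - 1) *
    (q ^ 12 - 1) * (q ^ 14 - 1) * (q ^ 18 - 1) * (q ^ 20 - 1) * (q ^ 24 - 1) * (q ^ 30 - 1)) :
    2 ^ 24 ∣ c := by
  have h : ∀ k, 8 ∣ q ^ (2 * k) - 1 := by
    intro k
    have := Nat.eight_dvd_sq_sub_one_of_odd (hq.pow (n := k))
    rwa [← pow_mul, mul_comm] at this
  obtain ⟨a1, h1⟩ := h 1
  obtain ⟨a2, h2⟩ := h 4
  obtain ⟨a3, h3⟩ := h 6
  obtain ⟨a4, h4⟩ := h 7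
  obtain ⟨a5, h5⟩ := h 9
  obtain ⟨a6, h6⟩ := h 10
  obtain ⟨a7, h7⟩ := h 12
  obtain ⟨a8, h8⟩ := h 15
  norm_num only [] at h1 h2 h3 h4 h5 h6 h7 h8
  rw [hc, h1, h2, h3, h4, h5, h6, h7, h8]
  exact ⟨q ^ 120 * a1 * a2 * a3 * a4 * a5 * a6 * a7 * a8, by ring⟩

theorem cases0 (T : OrderTable.{u}) {S : Type u} [Group S] (h : IsKnownSimple' S)
    (hna : ¬ ∀ a b : S, Commute a b) {e : ℕ} (he : NoEx e) (h1 : 2 ^ e ∣ Nat.card S)
    (h2 : ¬ 2 ^ (e + 1) ∣ Nat.card S) :
    (∃ n, 5 ≤ n ∧ Nonempty (S ≃* alternatingGroup (Fin n))) ∨ OddCl S ∨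
    (∃ d, ((d = 248 ∧ 2 ^ 24 ∣ Nat.card S) ∨ d ≤ 133) ∧ OddEx S d) ∨ EvenCl S e ∨
    (∃ x ∈ spor, x.1 ≠ .tits ∧ _root_.Cfsg.Agent.OrdDiv.Real x.1 S ∧ Nat.card S = x.2) := by
  have key : ∀ (g : Grp), g ∈ spor.map (fun x => x.1) → g ≠ .tits → Real g S →
      (∃ x ∈ spor, x.1 ≠ .tits ∧ Real x.1 S ∧ Nat.card S = x.2) := fun g hg hne hr => by
    obtain ⟨x, hx, rfl⟩ := List.mem_map.1 hg
    exact ⟨x, hx, hne, hr, T.spor S x hx hr⟩
  rcases h with h | h | h | h | h | h | h | h | h | h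
  · exfalso
    have : Fact (Nat.card S).Prime := ⟨h⟩
    have : IsCyclic S := isCyclic_of_prime_card (p := Nat.card S) rfl
    exact hna fun a b => (IsCyclic.isMulCommutative (α := S)).is_comm.comm a b
  · obtain ⟨n, hn, e⟩ := h
    exact Or.inl ⟨n, hn, e⟩
  · obtain ⟨F, _, _, n, hn, hn2, ⟨i⟩⟩ := h
    rw [Nat.card_congr i.toEquiv] at h1 h2
    rcases field_cases F with hF | ⟨f, hf, hF⟩
    · exact Or.inr (Or.inl ⟨F, inferInstance, inferInstance, hF, Or.inl ⟨n, ⟨i⟩⟩⟩)
    · refine Or.inr (Or.inr (Or.inr (Or.inl ⟨F, inferInstance, inferInstance, f, Or.inl ⟨n, hn, hF, ?_, ⟨i⟩⟩⟩)))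
      have hc := Cfsg.Agent.S0243.result (F := F) rfl n hn
      rw [Fin.prod_univ_eq_prod_range (fun i => Fintype.card F ^ n - Fintype.card F ^ i) n,
        ← prod_list, hF] at hc
      change _ = glN n (2 ^ f) at hc
      rw [glN_eq, ← pow_mul, ← mul_assoc] at hc
      have hev := two_pow_even hf
      have hpos : 0 < 2 ^ f := by positivity
      refine exp_eq ?_ (odd_glN hev hpos) hc h1 h2
      have ho := odd_sub (k := 1) hev hpos (by norm_num)
      rw [pow_one] at ho
      exact (ho.of_dvd_nat (Nat.gcd_dvd_right _ _)).mul ho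
  · obtain ⟨F, _, _, n, hn, hn2, ⟨i⟩⟩ := h
    rw [Nat.card_congr i.toEquiv] at h1 h2
    rcases field_cases F with hF | ⟨f, hf, hF⟩
    · exact Or.inr (Or.inl ⟨F, inferInstance, inferInstance, hF, Or.inr (Or.inl ⟨n, ⟨i⟩⟩)⟩)
    · refine Or.inr (Or.inr (Or.inr (Or.inl ⟨F, inferInstance, inferInstance, f, Or.inr (Or.inl ⟨n, hn, hF, ?_, ⟨i⟩⟩)⟩)))
      have hc1 := Cfsg.Agent.S0245.result (F := F) rfl n
      have hc2 := Cfsg.Agent.S0246.result (F := F) rfl n (by omega)
      have hc3 := Subgroup.card_eq_card_quotient_mul_card_subgroup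
        (Subgroup.center (Matrix.symplecticGroup (Fin n) F))
      rw [← prod_list (fun i => Fintype.card F ^ (2 * (i + 1)) - 1)] at hc1
      rw [hc1, hc2, hF, ← pow_mul] at hc3
      change _ * prB (2 ^ f) n = Nat.card (PSp n F) * _ at hc3
      have hev := two_pow_even hf
      have hpos : 0 < 2 ^ f := by positivity
      refine exp_eq ?_ (odd_prB (m := n) hev hpos) (by rw [mul_comm]; exact hc3.symm) h1 h2
      have ho := odd_sub (k := 1) hev hpos (by norm_num)
      rw [pow_one] at ho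
      exact ho.of_dvd_nat (Nat.gcd_dvd_right _ _)
  · obtain ⟨F, _, _, n, q, hF, hn, hn2, ⟨i⟩⟩ := h
    rw [Nat.card_congr i.toEquiv] at h1 h2
    have hq2 : IsPrimePow (q ^ 2) := hF ▸ Fintype.isPrimePow_card_of_field
    have hqp : IsPrimePow q := (isPrimePow_pow_iff (by norm_num)).1 hq2
    rcases even_pow two_ne_zero hqp hF with h | ⟨f, hf, rfl⟩
    · exact Or.inr (Or.inl ⟨F, inferInstance, inferInstance, h, Or.inr (Or.inr (Or.inl ⟨n, q, frob two_ne_zero hqp hF, ⟨i⟩⟩))⟩)
    · refine Or.inr (Or.inr (Or.inr (Or.inl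
        ⟨F, inferInstance, inferInstance, f, Or.inr (Or.inr (Or.inl ⟨n, hn, hF, ?_, ⟨i⟩⟩))⟩)))
      have hc := Cfsg.Agent.S0280.result hF n (by omega)
      rw [← prod_list] at hc
      have hP : prU (2 ^ f) n = ((List.range n).map fun i =>
          if Even i then (2 ^ f) ^ (i + 1) + 1 else (2 ^ f) ^ (i + 1) - 1).prod := by
        unfold prU
        congr 1
        apply List.map_congr_left
        intro i _
        by_cases h : Even i
        · rw [if_pos h, if_pos]
          rw [Nat.beq_eq]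
          exact Nat.even_iff.1 h
        · rw [if_neg h, if_neg]
          rw [Nat.beq_eq, ← Nat.even_iff]
          exact h
      rw [← hP, ← pow_mul, ← mul_assoc] at hc
      have hev := two_pow_even hf
      have hpos : 0 < 2 ^ f := by positivity
      refine exp_eq ?_ (odd_prU (n := n) hev hpos) hc h1 h2
      have ho := odd_add (k := 1) hev (by norm_num)
      rw [pow_one] at ho
      exact (ho.of_dvd_nat (Nat.gcd_dvd_right _ _)).mul ho
  · obtain ⟨F, _, _, n, hn, ho, ⟨i⟩⟩ := h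
    refine Or.inr (Or.inl ⟨F, inferInstance, inferInstance, ?_, Or.inr (Or.inr (Or.inr (Or.inl ⟨n, ⟨i⟩⟩)))⟩)
    rcases field_cases F with hF | ⟨f, hf, hF⟩
    · exact hF
    · rw [hF] at ho
      exact absurd (two_pow_even hf) (Nat.not_even_iff_odd.2 ho)
  · obtain ⟨F, _, _, n, hn, ⟨i⟩⟩ := h
    rw [Nat.card_congr i.toEquiv] at h1 h2
    rcases field_cases F with hF | ⟨f, hf, hF⟩
    · exact Or.inr (Or.inl ⟨F, inferInstance, inferInstance, hF, Or.inr (Or.inr (Or.inr (Or.inr (Or.inl ⟨n, ⟨i⟩⟩))))⟩)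
    · refine Or.inr (Or.inr (Or.inr (Or.inl
        ⟨F, inferInstance, inferInstance, f, Or.inr (Or.inr (Or.inr (Or.inl ⟨n, hn, hF, ?_, ⟨i⟩⟩)))⟩)))
      have hc := Cfsg.Agent.S0293.result (F := F) rfl n hn
      rw [← prod_list (fun i => Fintype.card F ^ (2 * (i + 1)) - 1), hF, mul_assoc] at hc
      have hev := two_pow_even hf
      have hpos : 0 < 2 ^ f := by positivity
      have hn0 : n ≠ 0 := by omega
      refine exp_eq (k := f * (n * (n - 1))) (m := ((2 ^ f) ^ n - 1) * prB (2 ^ f) (n - 1)) ?_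
        ((odd_sub hev hpos hn0).mul (odd_prB hev hpos)) (by rw [pow_mul]; exact hc) h1 h2
      exact (odd_sub hev hpos hn0).of_dvd_nat (Nat.gcd_dvd_right _ _)
  · obtain ⟨F, _, _, n, a, b, hn, hab, ⟨i⟩⟩ := h
    rw [Nat.card_congr i.toEquiv] at h1 h2
    rcases field_cases F with hF | ⟨f, hf, hF⟩
    · exact Or.inr (Or.inl ⟨F, inferInstance, inferInstance, hF, Or.inr (Or.inr (Or.inr (Or.inr (Or.inr ⟨_, a, b, ⟨i⟩⟩))))⟩)
    · refine Or.inr (Or.inr (Or.inr (Or.inl
        ⟨F, inferInstance, inferInstance, f, Or.inr (Or.inr (Or.inr (Or.inr ⟨n, a, b, hn, hF, ?_, hab, ⟨i⟩⟩)))⟩)))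
      have hc := Cfsg.Agent.S0294.result (F := F) rfl n hn a b hab
      rw [← prod_list (fun i => Fintype.card F ^ (2 * (i + 1)) - 1), hF, mul_assoc] at hc
      have hev := two_pow_even hf
      have hpos : 0 < 2 ^ f := by positivity
      have hn0 : n ≠ 0 := by omega
      refine exp_eq (k := f * (n * (n - 1))) (m := ((2 ^ f) ^ n + 1) * prB (2 ^ f) (n - 1)) ?_
        ((odd_add hev hn0).mul (odd_prB hev hpos)) (by rw [pow_mul]; exact hc) h1 h2
      exact (odd_add hev hn0).of_dvd_nat (Nat.gcd_dvd_right _ _)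
  · rcases h with h | h | h | h | h | h | h | h | h | h | h
    · obtain ⟨F, _, _, hq, ⟨i⟩⟩ := h
      rw [Nat.card_congr i.toEquiv] at h1 h2
      rcases field_cases F with hF | ⟨f, hf, hF⟩
      · exact Or.inr (Or.inr (Or.inl ⟨14, by norm_num, F, inferInstance, inferInstance, Lie.chevG2.Idx, inferInstance, inferInstance, hF, by
          rw [Fintype.card_sum, Fintype.card_fin, Fintype.card_fin]; rfl,
          (Lie.chevG2.group F).subtype.comp i.toMonoidHom,
          (Subgroup.subtype_injective _).comp i.injective⟩))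
      · exfalso
        have hev := two_pow_even hf
        have hpos : 0 < 2 ^ f := by positivity
        have hc := T.g2 F
        rw [hF, mul_assoc] at hc
        have hk := exp_eq (k := f * 6) odd_one ((odd_sub hev hpos two_ne_zero).mul
          (odd_sub hev hpos (by norm_num : 6 ≠ 0))) (by rw [one_mul, pow_mul]; exact hc) h1 h2
        exact he.six (by omega)
    · obtain ⟨F, _, _, ⟨i⟩⟩ := h
      rw [Nat.card_congr i.toEquiv] at h1 h2
      rcases field_cases F with hF | ⟨f, hf, hF⟩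
      · exact Or.inr (Or.inr (Or.inl ⟨52, by norm_num, F, inferInstance, inferInstance, Lie.chevF4.Idx, inferInstance, inferInstance, hF, by
          rw [Fintype.card_sum, Fintype.card_fin, Fintype.card_fin]; rfl,
          (Lie.chevF4.group F).subtype.comp i.toMonoidHom,
          (Subgroup.subtype_injective _).comp i.injective⟩))
      · exfalso
        have hev := two_pow_even hf
        have hpos : 0 < 2 ^ f := by positivity
        have ho : ∀ k, k ≠ 0 → Odd ((2 ^ f) ^ k - 1) := fun k hk => odd_sub hev hpos hk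
        have hc := T.f4 F _ rfl
        rw [hF] at hc
        have hk := exp_eq (k := f * 24) (m := ((2 ^ f) ^ 2 - 1) * ((2 ^ f) ^ 6 - 1) * ((2 ^ f) ^ 8 - 1) *
          ((2 ^ f) ^ 12 - 1)) odd_one ((((ho _ (by norm_num)).mul (ho _ (by norm_num))).mul
          (ho _ (by norm_num))).mul (ho _ (by norm_num))) (by rw [one_mul, hc, pow_mul]; ring) h1 h2
        exact he.six (by omega)
    · obtain ⟨F, _, _, ⟨i⟩⟩ := h
      rw [Nat.card_congr i.toEquiv] at h1 h2
      rcases field_cases F with hF | ⟨f, hf, hF⟩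
      · exact Or.inr (Or.inr (Or.inl ⟨78, by norm_num, F, inferInstance, inferInstance, Lie.chevE6.Idx, inferInstance, inferInstance, hF, by
          rw [Fintype.card_sum, Fintype.card_fin, Fintype.card_fin]; rfl,
          (Lie.chevE6.group F).subtype.comp i.toMonoidHom,
          (Subgroup.subtype_injective _).comp i.injective⟩))
      · exfalso
        have hev := two_pow_even hf
        have hpos : 0 < 2 ^ f := by positivity
        have ho : ∀ k, k ≠ 0 → Odd ((2 ^ f) ^ k - 1) := fun k hk => odd_sub hev hpos hk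
        have hc := T.e6 F _ rfl
        rw [hF] at hc
        have ho1 := ho 1 (by norm_num)
        rw [pow_one] at ho1
        have hk := exp_eq (k := f * 36) (m := ((2 ^ f) ^ 2 - 1) * ((2 ^ f) ^ 5 - 1) * ((2 ^ f) ^ 6 - 1) *
          ((2 ^ f) ^ 8 - 1) * ((2 ^ f) ^ 9 - 1) * ((2 ^ f) ^ 12 - 1))
          (ho1.of_dvd_nat (Nat.gcd_dvd_right _ _)) ((((((ho _ (by norm_num)).mul (ho _ (by norm_num))).mul
          (ho _ (by norm_num))).mul (ho _ (by norm_num))).mul (ho _ (by norm_num))).mul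
          (ho _ (by norm_num))) (by rw [hc, pow_mul]; ring) h1 h2
        exact he.six (by omega)
    · obtain ⟨F, _, _, ⟨i⟩⟩ := h
      rw [Nat.card_congr i.toEquiv] at h1 h2
      rcases field_cases F with hF | ⟨f, hf, hF⟩
      · exact Or.inr (Or.inr (Or.inl ⟨133, by norm_num, F, inferInstance, inferInstance, Lie.chevE7.Idx, inferInstance, inferInstance, hF, by
          rw [Fintype.card_sum, Fintype.card_fin, Fintype.card_fin]; rfl,
          (Lie.chevE7.group F).subtype.comp i.toMonoidHom,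
          (Subgroup.subtype_injective _).comp i.injective⟩))
      · exfalso
        have hev := two_pow_even hf
        have hpos : 0 < 2 ^ f := by positivity
        have ho : ∀ k, k ≠ 0 → Odd ((2 ^ f) ^ k - 1) := fun k hk => odd_sub hev hpos hk
        have hc := T.e7 F _ rfl
        rw [hF] at hc
        have ho1 := ho 1 (by norm_num)
        rw [pow_one] at ho1
        have hk := exp_eq (k := f * 63) (m := ((2 ^ f) ^ 2 - 1) * ((2 ^ f) ^ 6 - 1) * ((2 ^ f) ^ 8 - 1) *
          ((2 ^ f) ^ 10 - 1) * ((2 ^ f) ^ 12 - 1) * ((2 ^ f) ^ 14 - 1) * ((2 ^ f) ^ 18 - 1))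
          (ho1.of_dvd_nat (Nat.gcd_dvd_right _ _)) (((((((ho _ (by norm_num)).mul (ho _ (by norm_num))).mul
          (ho _ (by norm_num))).mul (ho _ (by norm_num))).mul (ho _ (by norm_num))).mul
          (ho _ (by norm_num))).mul (ho _ (by norm_num))) (by rw [hc, pow_mul]; ring) h1 h2
        exact he.sixtythree (by omega)
    · obtain ⟨F, _, _, ⟨i⟩⟩ := h
      rw [Nat.card_congr i.toEquiv] at h1 h2
      rcases field_cases F with hF | ⟨f, hf, hF⟩
      · exact Or.inr (Or.inr (Or.inl ⟨248, Or.inl ⟨rfl, by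
          rw [Nat.card_congr i.toEquiv]
          exact e8_odd (odd_card hF) (T.e8 F _ rfl)⟩, F, inferInstance, inferInstance, Lie.chevE8.Idx, inferInstance, inferInstance, hF, by
          rw [Fintype.card_sum, Fintype.card_fin, Fintype.card_fin]; rfl,
          (Lie.chevE8.group F).subtype.comp i.toMonoidHom,
          (Subgroup.subtype_injective _).comp i.injective⟩))
      · exfalso
        have hev := two_pow_even hf
        have hpos : 0 < 2 ^ f := by positivity
        have ho : ∀ k, k ≠ 0 → Odd ((2 ^ f) ^ k - 1) := fun k hk => odd_sub hev hpos hk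
        have hc := T.e8 F _ rfl
        rw [hF] at hc
        have hk := exp_eq (k := f * 120) (m := ((2 ^ f) ^ 2 - 1) * ((2 ^ f) ^ 8 - 1) * ((2 ^ f) ^ 12 - 1) *
          ((2 ^ f) ^ 14 - 1) * ((2 ^ f) ^ 18 - 1) * ((2 ^ f) ^ 20 - 1) * ((2 ^ f) ^ 24 - 1) *
          ((2 ^ f) ^ 30 - 1))
          odd_one ((((((((ho _ (by norm_num)).mul (ho _ (by norm_num))).mul
          (ho _ (by norm_num))).mul (ho _ (by norm_num))).mul (ho _ (by norm_num))).mul
          (ho _ (by norm_num))).mul (ho _ (by norm_num))).mul (ho _ (by norm_num)))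
          (by rw [one_mul, hc, pow_mul]; ring) h1 h2
        exact he.six (by omega)
    · obtain ⟨F, _, _, q, hq, hF, ⟨i⟩⟩ := h
      rw [Nat.card_congr i.toEquiv] at h1 h2
      rcases even_pow two_ne_zero hq hF with hF2 | ⟨f, hf, rfl⟩
      · exact Or.inr (Or.inr (Or.inl ⟨78, by norm_num, F, inferInstance, inferInstance, Lie.chevE6.Idx, inferInstance, inferInstance, hF2, by
          rw [Fintype.card_sum, Fintype.card_fin, Fintype.card_fin]; rfl,
          (Lie.twistedE6 F q).subtype.comp i.toMonoidHom,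
          (Subgroup.subtype_injective _).comp i.injective⟩))
      · exfalso
        have hev := two_pow_even hf
        have hpos : 0 < 2 ^ f := by positivity
        have ho : ∀ k, k ≠ 0 → Odd ((2 ^ f) ^ k - 1) := fun k hk => odd_sub hev hpos hk
        have ho' : ∀ k, k ≠ 0 → Odd ((2 ^ f) ^ k + 1) := fun k hk => odd_add hev hk
        have hc := T.te6 F _ hq hF
        have ho1 := ho' 1 (by norm_num)
        rw [pow_one] at ho1
        have hk := exp_eq (k := f * 36) (m := ((2 ^ f) ^ 2 - 1) * ((2 ^ f) ^ 5 + 1) * ((2 ^ f) ^ 6 - 1) *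
          ((2 ^ f) ^ 8 - 1) * ((2 ^ f) ^ 9 + 1) * ((2 ^ f) ^ 12 - 1))
          (ho1.of_dvd_nat (Nat.gcd_dvd_right _ _)) ((((((ho _ (by norm_num)).mul (ho' _ (by norm_num))).mul
          (ho _ (by norm_num))).mul (ho _ (by norm_num))).mul (ho' _ (by norm_num))).mul
          (ho _ (by norm_num))) (by rw [hc, pow_mul]; ring) h1 h2
        exact he.six (by omega)
    · obtain ⟨F, _, _, q, hq, hF, ⟨i⟩⟩ := h
      rw [Nat.card_congr i.toEquiv] at h1 h2
      rcases even_pow three_ne_zero hq hF with hF2 | ⟨f, hf, rfl⟩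
      · exact Or.inr (Or.inr (Or.inl ⟨28, by norm_num, F, inferInstance, inferInstance, Lie.chevD4.Idx, inferInstance, inferInstance, hF2, by
          rw [Fintype.card_sum, Fintype.card_fin, Fintype.card_fin]; rfl,
          (Lie.twistedD4 F q).subtype.comp i.toMonoidHom,
          (Subgroup.subtype_injective _).comp i.injective⟩))
      · exfalso
        have hev := two_pow_even hf
        have hpos : 0 < 2 ^ f := by positivity
        have ho : ∀ k, k ≠ 0 → Odd ((2 ^ f) ^ k - 1) := fun k hk => odd_sub hev hpos hk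
        have hc := T.td4 F _ hq hF
        have ho8 : Odd ((2 ^ f) ^ 8 + (2 ^ f) ^ 4 + 1) :=
          ((hev.pow_of_ne_zero (by norm_num)).add (hev.pow_of_ne_zero (by norm_num))).add_one
        have hk := exp_eq (k := f * 12) (m := ((2 ^ f) ^ 2 - 1) * ((2 ^ f) ^ 6 - 1) *
          ((2 ^ f) ^ 8 + (2 ^ f) ^ 4 + 1))
          odd_one (((ho _ (by norm_num)).mul (ho _ (by norm_num))).mul ho8)
          (by rw [one_mul, hc, pow_mul]; ring) h1 h2
        exact he.six (by omega)
    · obtain ⟨F, _, _, m, hm, hF, ⟨i⟩⟩ := h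
      rw [Nat.card_congr i.toEquiv] at h1 h2
      exfalso
      have hf : 2 * m + 1 ≠ 0 := by omega
      have hev := two_pow_even hf
      have hpos : 0 < 2 ^ (2 * m + 1) := by positivity
      have hc := T.sz F m hm hF
      rw [← pow_mul, mul_assoc, pow_mul] at hc
      have ho1 := odd_sub (k := 1) hev hpos (by norm_num)
      rw [pow_one] at ho1
      have hk := exp_eq (k := (2 * m + 1) * 2) (m := (2 ^ (2 * m + 1) - 1) * ((2 ^ (2 * m + 1)) ^ 2 + 1))
        odd_one (ho1.mul (odd_add hev two_ne_zero)) (by rw [one_mul, pow_mul]; exact hc) h1 h2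
      exact he.two (by omega)
    · obtain ⟨F, _, _, m, hm, hF, ⟨i⟩⟩ := h
      refine Or.inr (Or.inr (Or.inl ⟨14, by norm_num, F, inferInstance, inferInstance, Lie.chevG2.Idx, inferInstance, inferInstance, ?_, by
          rw [Fintype.card_sum, Fintype.card_fin, Fintype.card_fin]; rfl,
          (Lie.twistedG2 F (3 ^ m)).subtype.comp i.toMonoidHom,
          (Subgroup.subtype_injective _).comp i.injective⟩))
      rcases field_cases F with h | ⟨f, hf, hF2⟩
      · exact h
      · exfalso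
        rw [hF] at hF2
        have h3 : Odd (3 ^ (2 * m + 1)) := Odd.pow (by decide)
        rw [hF2] at h3
        exact absurd (two_pow_even hf) (Nat.not_even_iff_odd.2 h3)
    · obtain ⟨F, _, _, m, hm, hF, ⟨i⟩⟩ := h
      rw [Nat.card_congr i.toEquiv] at h1 h2
      exfalso
      have hf : 2 * m + 1 ≠ 0 := by omega
      have hev := two_pow_even hf
      have hpos : 0 < 2 ^ (2 * m + 1) := by positivity
      have ho : ∀ k, k ≠ 0 → Odd ((2 ^ (2 * m + 1)) ^ k - 1) := fun k hk => odd_sub hev hpos hk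
      have ho' : ∀ k, k ≠ 0 → Odd ((2 ^ (2 * m + 1)) ^ k + 1) := fun k hk => odd_add hev hk
      have hc := T.tf4 F m hm hF
      have ho1 := ho 1 (by norm_num)
      rw [pow_one] at ho1
      have hk := exp_eq (k := (2 * m + 1) * 12) (m := (2 ^ (2 * m + 1) - 1) *
        ((2 ^ (2 * m + 1)) ^ 3 + 1) * ((2 ^ (2 * m + 1)) ^ 4 - 1) * ((2 ^ (2 * m + 1)) ^ 6 + 1))
        odd_one (((ho1.mul (ho' _ (by norm_num))).mul (ho _ (by norm_num))).mul
        (ho' _ (by norm_num))) (by rw [one_mul, pow_mul, hc]; ring) h1 h2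
      exact he.six (by omega)
    · exfalso
      have hc := T.spor S (.tits, 17971200) (by decide) h
      have hk := exp_eq (k := 11) (m := 8775) odd_one (by decide)
        (by rw [one_mul, hc]; norm_num) h1 h2
      exact he.eleven hk.symm
  · right; right; right; right
    rcases h with h | h | h | h | h | h | h | h | h | h | h | h | h | h | h | h | h | h | h | h | h | h | h | h | h | h
    · exact key .m11 (by decide) (by decide) h
    · exact key .m12 (by decide) (by decide) h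
    · exact key .m22 (by decide) (by decide) h
    · exact key .m23 (by decide) (by decide) h
    · exact key .m24 (by decide) (by decide) h
    · exact key .j1 (by decide) (by decide) h
    · exact key .j2 (by decide) (by decide) h
    · exact key .j3 (by decide) (by decide) h
    · exact key .j4 (by decide) (by decide) h
    · exact key .co1 (by decide) (by decide) h
    · exact key .co2 (by decide) (by decide) h
    · exact key .co3 (by decide) (by decide) h
    · exact key .mcl (by decide) (by decide) h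
    · exact key .hs (by decide) (by decide) h
    · exact key .suz (by decide) (by decide) h
    · exact key .he (by decide) (by decide) h
    · exact key .ru (by decide) (by decide) h
    · exact key .on (by decide) (by decide) h
    · exact key .ly (by decide) (by decide) h
    · exact key .fi22 (by decide) (by decide) h
    · exact key .fi23 (by decide) (by decide) h
    · exact key .fi24 (by decide) (by decide) h
    · exact key .hn (by decide) (by decide) h
    · exact key .th (by decide) (by decide) h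
    · exact key .b (by decide) (by decide) h
    · exact key .m (by decide) (by decide) h

theorem cases (T : OrderTable.{u}) {S : Type u} [Group S] (h : IsKnownSimple' S)
    (hna : ¬ ∀ a b : S, Commute a b) {e : ℕ} (he : NoEx e) (h1 : 2 ^ e ∣ Nat.card S)
    (h2 : ¬ 2 ^ (e + 1) ∣ Nat.card S) :
    (∃ n, 5 ≤ n ∧ Nonempty (S ≃* alternatingGroup (Fin n))) ∨ OddCl S ∨
    (∃ d, (d = 248 ∨ d ≤ 133) ∧ OddEx S d) ∨ EvenCl S e ∨
    (∃ x ∈ spor, x.1 ≠ .tits ∧ Real x.1 S ∧ Nat.card S = x.2) := by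
  rcases cases0 T h hna he h1 h2 with h | h | ⟨d, hd | hd, h⟩ | h | h
  · exact Or.inl h
  · exact Or.inr (Or.inl h)
  · exact Or.inr (Or.inr (Or.inl ⟨d, Or.inl hd.1, h⟩))
  · exact Or.inr (Or.inr (Or.inl ⟨d, Or.inr hd, h⟩))
  · exact Or.inr (Or.inr (Or.inr (Or.inl h)))
  · exact Or.inr (Or.inr (Or.inr (Or.inr h)))

end Cfsg.Agent.H338.Families
end

-- part: H338/CycId
section
/-!
# Idempotents permuted cyclically by a unit (helper338)
-/

set_option autoImplicit false

namespace Cfsg.Agent.H338.CycId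

variable {R : Type*} [Ring R] {p : ℕ} [hp : Fact p.Prime]

/-- Orthogonal non-zero idempotents, `Q i` sent to `Q (i + 1)` by `y`. -/
structure Cyc (Q : ZMod p → R) (y z : R) : Prop where
  same : ∀ i, Q i * Q i = Q i
  ne : ∀ i j, i ≠ j → Q i * Q j = 0
  two : ∀ i, (2 : ℤ) • Q i ≠ 0
  yz : y * z = 1
  zy : z * y = 1
  conj : ∀ i, y * Q i * z = Q (i + 1)

variable {Q : ZMod p → R} {y z : R}

/-- The elements acting by signs. -/
noncomputable def D0 (Q : ZMod p → R) (c : ZMod p → ℤˣ) : R :=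
  1 + ∑ i, (((c i : ℤˣ) : ℤ) - 1) • Q i

theorem D0_mul_Q (H : Cyc Q y z) (c : ZMod p → ℤˣ) (j : ZMod p) :
    D0 Q c * Q j = ((c j : ℤˣ) : ℤ) • Q j := by
  unfold D0
  rw [add_mul, one_mul, Finset.sum_mul, Finset.sum_eq_single j]
  · rw [smul_mul_assoc, H.same, sub_smul, one_smul]
    abel
  · intro i _ hi
    rw [smul_mul_assoc, H.ne i j hi, smul_zero]
  · intro h
    exact absurd (Finset.mem_univ _) h

theorem D0_mul (H : Cyc Q y z) (c d : ZMod p → ℤˣ) : D0 Q c * D0 Q d = D0 Q (c * d) := by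
  conv_lhs => rw [D0.eq_1 Q d]
  rw [mul_add, mul_one, Finset.mul_sum]
  have h1 : ∀ i ∈ (Finset.univ : Finset (ZMod p)), D0 Q c * ((((d i : ℤˣ) : ℤ) - 1) • Q i) =
      ((((c i : ℤˣ) : ℤ)) * (((d i : ℤˣ) : ℤ) - 1)) • Q i := by
    intro i _
    rw [mul_smul_comm, D0_mul_Q H, smul_smul, mul_comm]
  rw [Finset.sum_congr rfl h1]
  unfold D0
  rw [add_assoc, ← Finset.sum_add_distrib]
  congr 1
  apply Finset.sum_congr rfl
  intro i _
  rw [← add_smul]
  congr 1
  rw [Pi.mul_apply, Units.val_mul]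
  ring

theorem D0_one : D0 Q (1 : ZMod p → ℤˣ) = 1 := by
  unfold D0
  simp

theorem D0_inj (H : Cyc Q y z) {c : ZMod p → ℤˣ} (h : D0 Q c = 1) : c = 1 := by
  funext j
  by_contra hj
  have h1 := D0_mul_Q H c j
  rw [h, one_mul, (Int.units_eq_one_or (c j)).resolve_left hj] at h1
  apply H.two j
  have h2 : (((-1 : ℤˣ) : ℤ)) • Q j = - Q j := by simp
  rw [h2] at h1
  rw [two_smul]
  nth_rewrite 1 [h1]
  exact neg_add_cancel _

/-- shift -/
def shift (c : ZMod p → ℤˣ) : ZMod p → ℤˣ := fun i => c (i - 1)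

theorem conj_D0 (H : Cyc Q y z) (c : ZMod p → ℤˣ) : y * D0 Q c * z = D0 Q (shift c) := by
  unfold D0
  rw [mul_add, mul_one, add_mul, H.yz, Finset.mul_sum, Finset.sum_mul]
  congr 1
  refine Fintype.sum_equiv (Equiv.addRight (1 : ZMod p)) _ _ fun i => ?_
  show y * (((((c i : ℤˣ) : ℤ) - 1)) • Q i) * z = ((((c (i + 1 - 1) : ℤˣ) : ℤ) - 1)) • Q (i + 1)
  rw [add_sub_cancel_right, mul_smul_comm, smul_mul_assoc, H.conj]

/-- As a homomorphism to units. -/
noncomputable def D (H : Cyc Q y z) : (ZMod p → ℤˣ) →* Rˣ :=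
  MonoidHom.toHomUnits
    { toFun := D0 Q
      map_one' := D0_one
      map_mul' := fun c d => (D0_mul H c d).symm }

theorem coe_D (H : Cyc Q y z) (c : ZMod p → ℤˣ) : ((D H c : Rˣ) : R) = D0 Q c := rfl

theorem D_injective (H : Cyc Q y z) : Function.Injective (D H) := by
  rw [injective_iff_map_eq_one]
  intro c hc
  apply D0_inj H
  rw [← coe_D H, hc]
  rfl

theorem const_of_shift {c : ZMod p → ℤˣ} (h : shift c = c) (i : ZMod p) : c i = c 0 := by
  have h1 : ∀ n : ℕ, c (n : ZMod p) = c 0 := by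
    intro n
    induction n with
    | zero => simp
    | succ n ih =>
      have h2 := congrFun h ((n : ZMod p) + 1)
      unfold shift at h2
      rw [add_sub_cancel_right] at h2
      push_cast
      rw [← h2, ih]
  have h2 := h1 (ZMod.val i)
  rwa [ZMod.natCast_zmod_val] at h2

theorem eq_one_of_comm (H : Cyc Q y z) (hodd : p ≠ 2) {c : ZMod p → ℤˣ} (h0 : c 0 = 1)
    (h : y * D0 Q (c * (shift c)⁻¹) * z = D0 Q (c * (shift c)⁻¹)) : c = 1 := by
  rw [conj_D0 H] at h
  have h1 : shift (c * (shift c)⁻¹) = c * (shift c)⁻¹ := by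
    apply D_injective H
    apply Units.ext
    rw [coe_D, coe_D]
    exact h
  set u := c * (shift c)⁻¹ with hu
  have h2 : ∀ i, u i = u 0 := const_of_shift h1
  have h3 : ∏ i, u i = 1 := by
    rw [hu]
    simp only [Pi.mul_apply, Pi.inv_apply]
    rw [Finset.prod_mul_distrib, Finset.prod_inv_distrib]
    have h4 : ∏ i, shift c i = ∏ i, c i :=
      Fintype.prod_equiv (Equiv.subRight (1 : ZMod p)) _ _ fun i => rfl
    rw [h4, mul_inv_cancel]
  rw [Finset.prod_congr rfl fun i _ => h2 i, Finset.prod_const, Finset.card_univ, ZMod.card] at h3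
  have h4 : u 0 = 1 := by
    rcases Int.units_eq_one_or (u 0) with h5 | h5
    · exact h5
    · exfalso
      rw [h5, (hp.out.odd_of_ne_two hodd).neg_one_pow] at h3
      exact absurd h3 (by decide)
  have h5 : shift c = c := by
    funext i
    have h6 : u i = 1 := by rw [h2 i, h4]
    rw [hu, Pi.mul_apply, Pi.inv_apply, mul_inv_eq_one] at h6
    exact h6.symm
  funext i
  have h7 := const_of_shift h5 i
  rw [h0] at h7
  exact h7

end Cfsg.Agent.H338.CycId
end

-- part: H338/Dual2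
section
/-!
# Duals of elementary abelian 2-groups (helper338)

`Dl A = (A →* ℤˣ)` with the contragredient action; `perp W`; character sums.
-/

set_option autoImplicit false

namespace Cfsg.Agent.H338.Dual2

/-- The dual group. -/
def Dl (A : Type*) [CommGroup A] : Type _ := A →* ℤˣ

variable {A : Type*} [CommGroup A]

noncomputable instance : CommGroup (Dl A) := inferInstanceAs (CommGroup (A →* ℤˣ))

instance : FunLike (Dl A) A ℤˣ := inferInstanceAs (FunLike (A →* ℤˣ) A ℤˣ)

instance : MonoidHomClass (Dl A) A ℤˣ := inferInstanceAs (MonoidHomClass (A →* ℤˣ) A ℤˣ)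

theorem Dl.ext {χ ψ : Dl A} (h : ∀ a, χ a = ψ a) : χ = ψ := MonoidHom.ext h

theorem dl_mul_apply (χ ψ : Dl A) (a : A) : (χ * ψ) a = χ a * ψ a := rfl

theorem dl_one_apply (a : A) : (1 : Dl A) a = 1 := rfl

instance [Finite A] : Finite (Dl A) :=
  Finite.of_injective (fun χ : Dl A => (fun a => χ a : A → ℤˣ)) fun _ _ h => Dl.ext (congrFun h)

theorem unit_sq (u : ℤˣ) : u * u = 1 := Int.units_mul_self u

theorem Dl.sq (χ : Dl A) : χ * χ = 1 := Dl.ext fun _ => unit_sq _

theorem root2 : HasEnoughRootsOfUnity ℤ 2 where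
  prim := ⟨-1, IsPrimitiveRoot.neg_one 0 (by decide)⟩
  cyc := inferInstance

theorem exponent_dvd (hsq : ∀ a : A, a * a = 1) : Monoid.exponent A ∣ 2 :=
  Monoid.exponent_dvd_of_forall_pow_eq_one fun a => by rw [pow_two, hsq]

theorem rootA (hsq : ∀ a : A, a * a = 1) : HasEnoughRootsOfUnity ℤ (Monoid.exponent A) :=
  root2.of_dvd ℤ (exponent_dvd hsq)

theorem card_dual [Finite A] (hsq : ∀ a : A, a * a = 1) : Nat.card (Dl A) = Nat.card A := by
  have := rootA hsq
  exact CommGroup.card_monoidHom_of_hasEnoughRootsOfUnity A ℤ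

theorem exists_sep [Finite A] (hsq : ∀ a : A, a * a = 1) {a : A} (ha : a ≠ 1) :
    ∃ χ : Dl A, χ a ≠ 1 := by
  have := rootA hsq
  exact CommGroup.exists_apply_ne_one_of_hasEnoughRootsOfUnity A ℤ ha

/-- The annihilator. -/
def perp (W : Subgroup A) : Subgroup (Dl A) where
  carrier := {χ | ∀ w ∈ W, χ w = 1}
  one_mem' := fun _ _ => rfl
  mul_mem' := fun {χ ψ} hχ hψ w hw => by rw [dl_mul_apply, hχ w hw, hψ w hw, one_mul]
  inv_mem' := fun {χ} hχ w hw => by
    have h : χ⁻¹ = χ := inv_eq_of_mul_eq_one_left (Dl.sq χ)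
    rw [h]
    exact hχ w hw

theorem card_perp [Finite A] (hsq : ∀ a : A, a * a = 1) (W : Subgroup A) :
    Nat.card (perp W) * Nat.card W = Nat.card A := by
  have := rootA hsq
  have h1 := CommGroup.card_domRestrictHom_ker (M := ℤ) W
  have h2 : Nat.card (perp W) = Nat.card (MonoidHom.domRestrictHom W ℤˣ).ker := by
    refine Nat.card_congr (Equiv.subtypeEquivRight ?_)
    intro χ
    exact (MonoidHom.domRestrict_eq_one_iff (s := W) (f := (χ : A →* ℤˣ))).symm
  rw [h2, h1]
  exact (Subgroup.card_eq_card_quotient_mul_card_subgroup W).symm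

section action

variable {G : Type*} [Group G] [MulDistribMulAction G A]

/-- The contragredient action. -/
noncomputable instance : MulDistribMulAction G (Dl A) where
  smul g χ := (MonoidHom.comp (χ : A →* ℤˣ) (MulDistribMulAction.toMonoidHom A g⁻¹) : A →* ℤˣ)
  one_smul χ := Dl.ext fun a => by
    show χ ((1 : G)⁻¹ • a) = χ a
    rw [inv_one, one_smul]
  mul_smul g h χ := Dl.ext fun a => by
    show χ ((g * h)⁻¹ • a) = χ (h⁻¹ • g⁻¹ • a)
    rw [mul_inv_rev, mul_smul]
  smul_mul g χ ψ := rfl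
  smul_one g := rfl

theorem dl_smul_apply (g : G) (χ : Dl A) (a : A) : (g • χ) a = χ (g⁻¹ • a) := rfl

end action

/-! ### Character sums -/

theorem sum_dual [Finite A] [Fintype (Dl A)] (hsq : ∀ a : A, a * a = 1) {a : A} (ha : a ≠ 1) :
    ∑ χ : Dl A, ((χ a : ℤˣ) : ℤ) = 0 := by
  obtain ⟨ψ, hψ⟩ := exists_sep hsq ha
  have hψ' : ψ a = -1 := (Int.units_eq_one_or (ψ a)).resolve_left hψ
  have h : ∑ χ : Dl A, ((χ a : ℤˣ) : ℤ) = ∑ χ : Dl A, (((ψ * χ) a : ℤˣ) : ℤ) := by
    exact (Fintype.sum_equiv (Equiv.mulLeft ψ) _ _ fun χ => rfl).symm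
  have h2 : ∑ χ : Dl A, (((ψ * χ) a : ℤˣ) : ℤ) = - ∑ χ : Dl A, ((χ a : ℤˣ) : ℤ) := by
    rw [← Finset.sum_neg_distrib]
    apply Finset.sum_congr rfl
    intro χ _
    rw [dl_mul_apply, hψ']
    simp
  rw [h2] at h
  omega

theorem sum_dual_one [Finite A] [Fintype (Dl A)] (hsq : ∀ a : A, a * a = 1) :
    ∑ χ : Dl A, ((χ 1 : ℤˣ) : ℤ) = Nat.card A := by
  have h : ∀ χ : Dl A, ((χ 1 : ℤˣ) : ℤ) = 1 := fun χ => by rw [map_one]; rfl
  rw [Finset.sum_congr rfl fun χ _ => h χ, Finset.sum_const, Finset.card_univ,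
    ← Nat.card_eq_fintype_card, card_dual hsq]
  simp

/-- The sum of a character over a set. -/
def F (O : Finset A) (χ : Dl A) : ℤ := ∑ a ∈ O, ((χ a : ℤˣ) : ℤ)

theorem F_one (O : Finset A) : F O (1 : Dl A) = O.card := by
  unfold F
  rw [Finset.card_eq_sum_ones]
  push_cast
  exact Finset.sum_congr rfl fun a _ => rfl

theorem sum_F [Finite A] [Fintype (Dl A)] (hsq : ∀ a : A, a * a = 1) (O : Finset A)
    (hO : (1 : A) ∉ O) : ∑ χ : Dl A, F O χ = 0 := by
  unfold F
  rw [Finset.sum_comm]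
  apply Finset.sum_eq_zero
  intro a ha
  apply sum_dual hsq
  rintro rfl
  exact hO ha

theorem sum_F_sq [Finite A] [Fintype (Dl A)] (hsq : ∀ a : A, a * a = 1) (O : Finset A) :
    ∑ χ : Dl A, F O χ * F O χ = Nat.card A * O.card := by
  classical
  have h1 : ∀ χ : Dl A, F O χ * F O χ = ∑ a ∈ O, ∑ b ∈ O, ((χ (a * b) : ℤˣ) : ℤ) := by
    intro χ
    unfold F
    rw [Finset.sum_mul_sum]
    apply Finset.sum_congr rfl
    intro a _
    apply Finset.sum_congr rfl
    intro b _
    rw [map_mul]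
    simp
  rw [Finset.sum_congr rfl fun χ _ => h1 χ, Finset.sum_comm]
  have h2 : ∀ a ∈ O, ∑ χ : Dl A, ∑ b ∈ O, ((χ (a * b) : ℤˣ) : ℤ) = Nat.card A := by
    intro a ha
    rw [Finset.sum_comm, Finset.sum_eq_single a]
    · rw [hsq, sum_dual_one hsq]
    · intro b _ hb
      apply sum_dual hsq
      intro h
      apply hb
      have h3 := hsq a
      exact (mul_left_cancel (h.trans h3.symm))
    · intro h
      exact absurd ha h
  rw [Finset.sum_congr rfl h2, Finset.sum_const]
  simp [mul_comm]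

theorem F_smul {G : Type*} [Group G] [MulDistribMulAction G A] (O : Finset A)
    (hO : ∀ g : G, ∀ a ∈ O, g • a ∈ O) (g : G) (χ : Dl A) : F O (g • χ) = F O χ := by
  unfold F
  refine Finset.sum_bij (fun a _ => g⁻¹ • a) (fun a ha => hO _ a ha) ?_ ?_ ?_
  · intro a _ b _ h
    exact MulAction.injective g⁻¹ h
  · intro b hb
    exact ⟨g • b, hO g b hb, inv_smul_smul g b⟩
  · intro a _
    rw [dl_smul_apply]

end Cfsg.Agent.H338.Dual2
end

-- part: H338/Weights
section
/-!
# Weight idempotents of an elementary abelian 2-group (helper338)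
-/

set_option autoImplicit false

namespace Cfsg.Agent.H338.Weights

open Cfsg.Agent.H338.Dual2

variable {F R E : Type*} [Field F] [Ring R] [Algebra F R] [CommGroup E] [Finite E] [Fintype E]

/-- The idempotent of a weight. -/
noncomputable def P (F : Type*) {R E : Type*} [Field F] [Ring R] [Algebra F R] [CommGroup E]
    [Fintype E] (ρ : E →* R) (l : Dl E) : R :=
  ((Nat.card E : ℕ) : F)⁻¹ • ∑ e : E, ((l e : ℤˣ) : ℤ) • ρ e

omit [Fintype E] in
theorem card_ne_zero (h2 : (2 : F) ≠ 0) (hsq : ∀ e : E, e * e = 1) : ((Nat.card E : ℕ) : F) ≠ 0 := by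
  have : Fact (Nat.Prime 2) := ⟨Nat.prime_two⟩
  have h1 : IsPGroup 2 E := fun e => ⟨1, by rw [pow_one, pow_two, hsq]⟩
  obtain ⟨n, hn⟩ := IsPGroup.iff_card.1 h1
  rw [hn]
  push_cast
  exact pow_ne_zero n h2

theorem unit_sq' (u : ℤˣ) : ((u : ℤˣ) : ℤ) * ((u : ℤˣ) : ℤ) = 1 := by
  rw [← Units.val_mul, unit_sq, Units.val_one]

omit [Finite E] in
theorem rho_mul_P (ρ : E →* R) (l : Dl E) (e : E) :
    ρ e * P F ρ l = ((l e : ℤˣ) : ℤ) • P F ρ l := by
  unfold P
  rw [mul_smul_comm, Finset.mul_sum, smul_comm (((l e : ℤˣ) : ℤ))]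
  congr 1
  rw [Finset.smul_sum]
  refine Fintype.sum_equiv (Equiv.mulLeft e) (fun x => ρ e * (((l x : ℤˣ) : ℤ) • ρ x))
    (fun x => ((l e : ℤˣ) : ℤ) • (((l x : ℤˣ) : ℤ) • ρ x)) fun x => ?_
  show ρ e * (((l x : ℤˣ) : ℤ) • ρ x) = ((l e : ℤˣ) : ℤ) • (((l (e * x) : ℤˣ) : ℤ) • ρ (e * x))
  rw [mul_smul_comm, map_mul, map_mul, smul_smul]
  congr 1
  rw [Units.val_mul, ← mul_assoc, unit_sq', one_mul]

omit [Finite E] in
theorem P_mul_rho (ρ : E →* R) (l : Dl E) (e : E) :
    P F ρ l * ρ e = ((l e : ℤˣ) : ℤ) • P F ρ l := by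
  unfold P
  rw [smul_mul_assoc, Finset.sum_mul, smul_comm (((l e : ℤˣ) : ℤ))]
  congr 1
  rw [Finset.smul_sum]
  refine Fintype.sum_equiv (Equiv.mulRight e) (fun x => (((l x : ℤˣ) : ℤ) • ρ x) * ρ e)
    (fun x => ((l e : ℤˣ) : ℤ) • (((l x : ℤˣ) : ℤ) • ρ x)) fun x => ?_
  show (((l x : ℤˣ) : ℤ) • ρ x) * ρ e = ((l e : ℤˣ) : ℤ) • (((l (x * e) : ℤˣ) : ℤ) • ρ (x * e))
  rw [smul_mul_assoc, map_mul, map_mul, smul_smul]
  congr 1
  rw [Units.val_mul, mul_comm ((l x : ℤˣ) : ℤ), ← mul_assoc, unit_sq', one_mul]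

omit [Finite E] in
theorem sum_char (l : Dl E) (hl : l ≠ 1) :
    ∑ e : E, ((l e : ℤˣ) : ℤ) = 0 := by
  obtain ⟨e0, he0⟩ : ∃ e0, l e0 ≠ 1 := by
    by_contra hcon
    push Not at hcon
    exact hl (Dl.ext hcon)
  have h0 : l e0 = -1 := (Int.units_eq_one_or (l e0)).resolve_left he0
  have h : ∑ e : E, ((l e : ℤˣ) : ℤ) = ∑ e : E, ((l (e0 * e) : ℤˣ) : ℤ) :=
    (Fintype.sum_equiv (Equiv.mulLeft e0) _ _ fun e => rfl).symm
  have h2 : ∑ e : E, ((l (e0 * e) : ℤˣ) : ℤ) = - ∑ e : E, ((l e : ℤˣ) : ℤ) := by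
    rw [← Finset.sum_neg_distrib]
    apply Finset.sum_congr rfl
    intro e _
    rw [map_mul, h0]
    simp
  rw [h2] at h
  omega

theorem P_mul_P_same (h2 : (2 : F) ≠ 0) (hsq : ∀ e : E, e * e = 1) (ρ : E →* R) (l : Dl E) :
    P F ρ l * P F ρ l = P F ρ l := by
  have hc := card_ne_zero (F := F) h2 hsq
  conv_lhs => enter [1]; rw [P]
  rw [smul_mul_assoc, Finset.sum_mul]
  have h1 : ∀ e ∈ (Finset.univ : Finset E), (((l e : ℤˣ) : ℤ) • ρ e) * P F ρ l = P F ρ l := by
    intro e _
    rw [smul_mul_assoc, rho_mul_P, smul_smul, unit_sq', one_smul]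
  rw [Finset.sum_congr rfl h1, Finset.sum_const, Finset.card_univ, ← Nat.card_eq_fintype_card,
    ← Nat.cast_smul_eq_nsmul F, smul_smul, inv_mul_cancel₀ hc, one_smul]

omit [Finite E] in
theorem P_mul_P_ne (ρ : E →* R) {l m : Dl E}
    (hlm : l ≠ m) : P F ρ l * P F ρ m = 0 := by
  conv_lhs => enter [1]; rw [P]
  rw [smul_mul_assoc, Finset.sum_mul]
  have h1 : ∀ e ∈ (Finset.univ : Finset E), (((l e : ℤˣ) : ℤ) • ρ e) * P F ρ m =
      (((l * m) e : ℤˣ) : ℤ) • P F ρ m := by
    intro e _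
    rw [smul_mul_assoc, rho_mul_P, smul_smul, dl_mul_apply, Units.val_mul]
  rw [Finset.sum_congr rfl h1, ← Finset.sum_smul, sum_char (l * m) (by
    intro h
    apply hlm
    exact mul_right_cancel (h.trans (Dl.sq m).symm)), zero_smul, smul_zero]

theorem sum_P (h2 : (2 : F) ≠ 0) (hsq : ∀ e : E, e * e = 1) [Fintype (Dl E)] (ρ : E →* R) :
    ∑ l : Dl E, P F ρ l = 1 := by
  classical
  have hc := card_ne_zero (F := F) h2 hsq
  unfold P
  rw [← Finset.smul_sum, Finset.sum_comm]
  have h1 : ∀ e ∈ (Finset.univ : Finset E), ∑ l : Dl E, (((l e : ℤˣ) : ℤ) • ρ e) =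
      if e = 1 then (Nat.card E : ℤ) • (1 : R) else 0 := by
    intro e _
    rw [← Finset.sum_smul]
    by_cases he : e = 1
    · rw [if_pos he, he, sum_dual_one hsq, map_one]
    · rw [if_neg he, sum_dual hsq he, zero_smul]
  rw [Finset.sum_congr rfl h1, Finset.sum_ite_eq' Finset.univ (1 : E), if_pos (Finset.mem_univ _),
    natCast_zsmul, ← Nat.cast_smul_eq_nsmul F, smul_smul, inv_mul_cancel₀ hc, one_smul]

theorem rho_eq (h2 : (2 : F) ≠ 0) (hsq : ∀ e : E, e * e = 1) [Fintype (Dl E)] (ρ : E →* R)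
    (e : E) : ρ e = ∑ l : Dl E, ((l e : ℤˣ) : ℤ) • P F ρ l := by
  have h1 := sum_P (F := F) h2 hsq ρ
  calc ρ e = ρ e * ∑ l : Dl E, P F ρ l := by rw [h1, mul_one]
    _ = _ := by
      rw [Finset.mul_sum]
      exact Finset.sum_congr rfl fun l _ => rho_mul_P ρ l e

omit [Finite E] in
/-- Conjugation. -/
theorem conj_P (ρ : E →* R) (l : Dl E) (σ : E ≃* E) (y z : R)
    (h : ∀ e, y * ρ e = ρ (σ e) * y) :
    y * P F ρ l * z = P F ρ (MonoidHom.comp (l : E →* ℤˣ) σ.symm.toMonoidHom) * (y * z) := by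
  unfold P
  rw [mul_smul_comm, smul_mul_assoc, smul_mul_assoc, Finset.mul_sum, Finset.sum_mul,
    Finset.sum_mul]
  congr 1
  refine Fintype.sum_equiv σ.toEquiv _ _ fun x => ?_
  show y * (((l x : ℤˣ) : ℤ) • ρ x) * z = (((l (σ.symm (σ x)) : ℤˣ) : ℤ) • ρ (σ x)) * (y * z)
  rw [σ.symm_apply_apply, mul_smul_comm, smul_mul_assoc, smul_mul_assoc, h, mul_assoc]

end Cfsg.Agent.H338.Weights
end

-- part: H338/RingCL
section
/-!
# Elementary abelian 2-subgroups of groups of units (helper338)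

`L ≤ I` groups of units of a ring in which 2 is invertible, `π : L →* K` with central kernel, `V` an
elementary abelian subgroup of `K` with commuting lifts, `y` an element of prime order `p` acting
fixed point freely on `V`.  If `I` is closed (isometry group) then `2^(p-1) ≤ |C(V)|`.
-/

set_option autoImplicit false

namespace Cfsg.Agent.H338.RingCL

open Cfsg.Agent.H338.Dual2 Cfsg.Agent.H338.Weights Cfsg.Agent.H338.CycId

/-- The closure property. -/
def Closed {R : Type*} [Ring R] (I : Subgroup Rˣ) : Prop :=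
  ∀ E : Set Rˣ, (∀ e ∈ E, e ∈ I ∧ e * e = 1) → ∀ u : Rˣ, u * u = 1 →
    (∀ A : AddSubgroup R, (∀ x, x + x ∈ A → x ∈ A) → (∀ e ∈ E, (e : R) ∈ A) → (u : R) ∈ A) → u ∈ I

theorem closed_top {R : Type*} [Ring R] : Closed (⊤ : Subgroup Rˣ) := fun _ _ _ _ _ => trivial

theorem mem_of_two_pow {R : Type*} [Ring R] {A : AddSubgroup R} (hA : ∀ x, x + x ∈ A → x ∈ A)
    (n : ℕ) (x : R) (h : (2 ^ n) • x ∈ A) : x ∈ A := by
  induction n with
  | zero => simpa using h
  | succ n ih =>
    apply ih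
    apply hA
    rw [← two_nsmul, smul_smul, ← pow_succ']
    exact h

theorem main {F R : Type*} [Field F] [Ring R] [Algebra F R] (h2 : (2 : F) ≠ 0)
    (I L : Subgroup Rˣ) [Finite L] (hI : Closed I) (hLI : L ≤ I)
    (hLn : ∀ g ∈ I, ∀ l ∈ L, g * l * g⁻¹ ∈ L)
    {K : Type*} [Group K] [Finite K] (π : L →* K) (hπ : Function.Surjective π)
    (hker : ∀ x : L, π x = 1 → ∀ l : L, x * l = l * x)
    (V : Subgroup K) (hsq : ∀ v ∈ V, v * v = 1) (hV : V ≠ ⊥)
    {p : ℕ} (hp : p.Prime) (hp2 : p ≠ 2) (y : K) (hyp : y ^ p = 1)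
    (hyV : ∀ v ∈ V, y * v * y⁻¹ ∈ V) (hfix : ∀ v ∈ V, y * v = v * y → v = 1)
    (hlift : ∀ a b : L, π a ∈ V → π b ∈ V → a * b = b * a) :
    2 ^ (p - 1) ≤ Nat.card (Subgroup.centralizer (V : Set K)) := by
  classical
  have : Fact p.Prime := ⟨hp⟩
  obtain ⟨yh, hyh⟩ := hπ y
  have hVab : ∀ a ∈ V, ∀ b ∈ V, a * b = b * a := by
    intro a ha b hb
    have h1 := hsq _ (V.mul_mem ha hb)
    calc a * b = (a * b)⁻¹ := eq_inv_of_mul_eq_one_left h1
      _ = b⁻¹ * a⁻¹ := mul_inv_rev _ _
      _ = b * a := by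
        rw [inv_eq_of_mul_eq_one_left (hsq a ha), inv_eq_of_mul_eq_one_left (hsq b hb)]
  -- every element of `V` is a commutator with `y`
  have hcomm : ∀ v ∈ V, ∃ w ∈ V, v = y * w * y⁻¹ * w⁻¹ := by
    let φ : V →* V :=
      { toFun := fun w => ⟨y * w * y⁻¹ * (w : K)⁻¹, V.mul_mem (hyV w w.2) (V.inv_mem w.2)⟩
        map_one' := Subtype.ext (by
          show y * ((1 : V) : K) * y⁻¹ * ((1 : V) : K)⁻¹ = 1
          simp only [_root_.OneMemClass.coe_one, _root_.mul_one, _root_.mul_inv_cancel, _root_.inv_one])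
        map_mul' := fun a b => Subtype.ext (by
          show y * ((a * b : V) : K) * y⁻¹ * ((a * b : V) : K)⁻¹ =
            (y * a * y⁻¹ * (a : K)⁻¹) * (y * b * y⁻¹ * (b : K)⁻¹)
          have h3 := hVab _ (V.inv_mem a.2) _ (hyV b b.2)
          have h4 := hVab _ (V.inv_mem a.2) _ (V.inv_mem b.2)
          calc y * ((a * b : V) : K) * y⁻¹ * ((a * b : V) : K)⁻¹
              = (y * a * y⁻¹) * (y * b * y⁻¹) * ((b : K)⁻¹ * (a : K)⁻¹) := by
                rw [Subgroup.coe_mul]; group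
            _ = (y * a * y⁻¹) * (y * b * y⁻¹) * ((a : K)⁻¹ * (b : K)⁻¹) := by rw [h4]
            _ = (y * a * y⁻¹) * ((y * b * y⁻¹) * (a : K)⁻¹) * (b : K)⁻¹ := by group
            _ = (y * a * y⁻¹) * ((a : K)⁻¹ * (y * b * y⁻¹)) * (b : K)⁻¹ := by rw [h3]
            _ = _ := by group) }
    have hinj : Function.Injective φ := by
      rw [injective_iff_map_eq_one]
      intro w hw
      have h3 : y * w * y⁻¹ * (w : K)⁻¹ = 1 := congrArg Subtype.val hw
      apply Subtype.ext
      apply hfix w w.2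
      rw [mul_inv_eq_one, mul_inv_eq_iff_eq_mul] at h3
      exact h3
    have hsurj := Finite.surjective_of_injective hinj
    intro v hv
    obtain ⟨w, hw⟩ := hsurj ⟨v, hv⟩
    exact ⟨w, w.2, (congrArg Subtype.val hw).symm⟩
  -- the group `E`
  let E : Subgroup L :=
    { carrier := {e | π e ∈ V ∧ e * e = 1}
      one_mem' := ⟨by rw [map_one]; exact one_mem _, by rw [one_mul]⟩
      mul_mem' := by
        rintro a b ⟨ha, ha'⟩ ⟨hb, hb'⟩
        refine ⟨by rw [map_mul]; exact V.mul_mem ha hb, ?_⟩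
        have h3 := hlift b a hb ha
        calc a * b * (a * b) = a * (b * a) * b := by group
          _ = a * (a * b) * b := by rw [h3]
          _ = (a * a) * (b * b) := by group
          _ = 1 := by rw [ha', hb', one_mul]
      inv_mem' := by
        rintro a ⟨ha, ha'⟩
        refine ⟨by rw [map_inv]; exact V.inv_mem ha, ?_⟩
        rw [← mul_inv_rev, ha', inv_one] }
  have hEmem : ∀ e : L, e ∈ E ↔ π e ∈ V ∧ e * e = 1 := fun e => Iff.rfl
  -- `π` maps `E` onto `V`
  have hEV : ∀ v ∈ V, ∃ e ∈ E, π e = v := by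
    intro v hv
    obtain ⟨w, hw, rfl⟩ := hcomm v hv
    obtain ⟨wh, hwh⟩ := hπ w
    have hwV : π wh ∈ V := by rw [hwh]; exact hw
    have hcw : π (yh * wh * yh⁻¹) ∈ V := by
      rw [map_mul, map_mul, map_inv, hyh, hwh]
      exact hyV w hw
    have h3 : π (yh * wh * yh⁻¹ * wh⁻¹) = y * w * y⁻¹ * w⁻¹ := by
      rw [map_mul, map_mul, map_mul, map_inv, map_inv, hyh, hwh]
    refine ⟨yh * wh * yh⁻¹ * wh⁻¹, ⟨by rw [h3]; exact hv, ?_⟩, h3⟩
    have h4 := hlift wh⁻¹ (yh * wh * yh⁻¹) (by rw [map_inv]; exact V.inv_mem hwV) hcw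
    have h5 : π (wh * wh) = 1 := by rw [map_mul, hwh, hsq w hw]
    have h6 := hker _ h5 yh
    calc yh * wh * yh⁻¹ * wh⁻¹ * (yh * wh * yh⁻¹ * wh⁻¹)
        = (yh * wh * yh⁻¹) * (wh⁻¹ * (yh * wh * yh⁻¹)) * wh⁻¹ := by group
      _ = (yh * wh * yh⁻¹) * ((yh * wh * yh⁻¹) * wh⁻¹) * wh⁻¹ := by rw [h4]
      _ = yh * (wh * wh) * yh⁻¹ * (wh * wh)⁻¹ := by group
      _ = (wh * wh) * yh * yh⁻¹ * (wh * wh)⁻¹ := by rw [h6]
      _ = 1 := by group
  let instE : CommGroup E :=
    { (inferInstance : Group E) with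
      mul_comm := fun a b => Subtype.ext (hlift a b a.2.1 b.2.1) }
  have : Fintype E := Fintype.ofFinite E
  have : Fintype (Dl E) := Fintype.ofFinite _
  have hsqE : ∀ e : E, e * e = 1 := fun e => Subtype.ext e.2.2
  let ρ : E →* R := (Units.coeHom R).comp (L.subtype.comp E.subtype)
  have hρ : ∀ e : E, ρ e = (((e : L) : Rˣ) : R) := fun e => rfl
  -- conjugation by `yh`
  have hconjE : ∀ e ∈ E, yh * e * yh⁻¹ ∈ E := by
    rintro e ⟨he, he'⟩
    refine ⟨?_, ?_⟩
    · rw [map_mul, map_mul, map_inv, hyh]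
      exact hyV _ he
    · calc yh * e * yh⁻¹ * (yh * e * yh⁻¹) = yh * (e * e) * yh⁻¹ := by group
        _ = 1 := by rw [he']; group
  have hconjE' : ∀ e ∈ E, yh⁻¹ * e * yh ∈ E := by
    rintro e ⟨he, he'⟩
    refine ⟨?_, ?_⟩
    · obtain ⟨n, hn⟩ : ∃ n : ℕ, y⁻¹ = y ^ n := by
        refine ⟨p - 1, ?_⟩
        rw [inv_eq_iff_mul_eq_one, ← pow_succ', Nat.sub_add_cancel hp.one_le, hyp]
      have h3 : ∀ n : ℕ, ∀ v ∈ V, y ^ n * v * (y ^ n)⁻¹ ∈ V := by
        intro n
        induction n with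
        | zero => intro v hv; simpa using hv
        | succ n ih =>
          intro v hv
          have h4 := ih _ (hyV v hv)
          have h5 : y ^ n * (y * v * y⁻¹) * (y ^ n)⁻¹ = y ^ (n + 1) * v * (y ^ (n + 1))⁻¹ := by
            rw [pow_succ]; group
          rwa [h5] at h4
      rw [map_mul, map_mul, map_inv, hyh]
      have h4 := h3 n _ he
      rw [← hn, inv_inv] at h4
      exact h4
    · calc yh⁻¹ * e * yh * (yh⁻¹ * e * yh) = yh⁻¹ * (e * e) * yh := by group
        _ = 1 := by rw [he']; group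
  let σ : E ≃* E :=
    { toFun := fun e => ⟨yh * e * yh⁻¹, hconjE e e.2⟩
      invFun := fun e => ⟨yh⁻¹ * e * yh, hconjE' e e.2⟩
      left_inv := fun e => Subtype.ext (by
        show yh⁻¹ * (yh * (e : L) * yh⁻¹) * yh = e
        group)
      right_inv := fun e => Subtype.ext (by
        show yh * (yh⁻¹ * (e : L) * yh) * yh⁻¹ = e
        group)
      map_mul' := fun a b => Subtype.ext (by
        show yh * ((a * b : E) : L) * yh⁻¹ = (yh * a * yh⁻¹) * (yh * b * yh⁻¹)
        rw [Subgroup.coe_mul]; group) }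
  let Y : R := ((yh : Rˣ) : R)
  let Z : R := ((yh⁻¹ : L) : Rˣ)
  have hYZ : Y * Z = 1 := by
    show (((yh * yh⁻¹ : L) : Rˣ) : R) = 1
    rw [mul_inv_cancel]; rfl
  have hZY : Z * Y = 1 := by
    show (((yh⁻¹ * yh : L) : Rˣ) : R) = 1
    rw [inv_mul_cancel]; rfl
  have hYρ : ∀ e : E, Y * ρ e = ρ (σ e) * Y := by
    intro e
    show (((yh * e : L) : Rˣ) : R) = (((yh * e * yh⁻¹ * yh : L) : Rˣ) : R)
    rw [inv_mul_cancel_right]
  -- the action on weights
  let τ : Dl E → Dl E := fun l => (MonoidHom.comp (l : E →* ℤˣ) σ.symm.toMonoidHom : E →* ℤˣ)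
  have hτ : ∀ (l : Dl E) (e : E), (τ l) (σ e) = l e := by
    intro l e
    show l (σ.symm (σ e)) = l e
    rw [σ.symm_apply_apply]
  have hPτ : ∀ l : Dl E, Y * P F ρ l * Z = P F ρ (τ l) := by
    intro l
    rw [conj_P (F := F) ρ l σ Y Z hYρ, hYZ, mul_one]
  -- `σ ^ p = 1`
  have hcyc : ∀ e : E, (σ^[p]) e = e := by
    intro e
    have h3 : ∀ n : ℕ, (((σ^[n]) e : E) : L) = yh ^ n * e * (yh ^ n)⁻¹ := by
      intro n
      induction n with
      | zero => simp
      | succ n ih =>
        rw [Function.iterate_succ_apply']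
        show yh * (((σ^[n]) e : E) : L) * yh⁻¹ = _
        rw [ih, pow_succ']
        group
    apply Subtype.ext
    rw [h3]
    have h4 : π (yh ^ p) = 1 := by rw [map_pow, hyh, hyp]
    rw [hker _ h4 e, mul_inv_cancel_right]
  have hτp : ∀ l : Dl E, (τ^[p]) l = l := by
    intro l
    have h3 : ∀ n : ℕ, ∀ e : E, ((τ^[n]) l) ((σ^[n]) e) = l e := by
      intro n
      induction n with
      | zero => intro e; rfl
      | succ n ih =>
        intro e
        rw [Function.iterate_succ_apply', Function.iterate_succ_apply', hτ, ih]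
    apply Dl.ext
    intro e
    have h4 := h3 p e
    rwa [hcyc] at h4
  -- a moved weight
  obtain ⟨l, hl, hlτ⟩ : ∃ l : Dl E, P F ρ l ≠ 0 ∧ τ l ≠ l := by
    by_contra hcon
    push Not at hcon
    apply hV
    rw [eq_bot_iff]
    intro v hv
    rw [Subgroup.mem_bot]
    obtain ⟨e, he, rfl⟩ := hEV v hv
    apply hfix _ hv
    have h3 : ρ (σ ⟨e, he⟩) = ρ ⟨e, he⟩ := by
      rw [rho_eq (F := F) h2 hsqE ρ (σ ⟨e, he⟩), rho_eq (F := F) h2 hsqE ρ ⟨e, he⟩]
      apply Finset.sum_congr rfl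
      intro m _
      by_cases hm : P F ρ m = 0
      · rw [hm, smul_zero, smul_zero]
      · have h4 := hτ m ⟨e, he⟩
        rw [hcon m hm] at h4
        rw [h4]
    have h4 : yh * e * yh⁻¹ = e := by
      apply Subtype.ext
      apply Units.ext
      exact h3
    rw [mul_inv_eq_iff_eq_mul] at h4
    rw [← hyh, ← map_mul, ← map_mul, h4]
  have hper : Function.minimalPeriod τ l = p := by
    have h3 : Function.IsPeriodicPt τ p l := hτp l
    rcases (Nat.dvd_prime hp).1 h3.minimalPeriod_dvd with h4 | h4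
    · exfalso
      apply hlτ
      have h5 := Function.isPeriodicPt_minimalPeriod τ l
      rw [h4] at h5
      exact h5
    · exact h4
  let Q : ZMod p → R := fun i => P F ρ (τ^[i.val] l)
  have hPne : ∀ n : ℕ, P F ρ (τ^[n] l) ≠ 0 := by
    intro n
    induction n with
    | zero => exact hl
    | succ n ih =>
      rw [Function.iterate_succ_apply']
      intro h3
      rw [← hPτ] at h3
      apply ih
      calc P F ρ (τ^[n] l) = (Z * Y) * P F ρ (τ^[n] l) * (Z * Y) := by rw [hZY, one_mul, mul_one]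
        _ = Z * (Y * P F ρ (τ^[n] l) * Z) * Y := by simp only [mul_assoc]
        _ = 0 := by rw [h3, mul_zero, zero_mul]
  have hcy : Cyc Q Y Z := by
    refine ⟨fun i => P_mul_P_same h2 hsqE ρ _, fun i j hij => P_mul_P_ne ρ ?_, ?_, hYZ, hZY, ?_⟩
    · intro h3
      apply hij
      have h4 := Function.iterate_injOn_Iio_minimalPeriod (f := τ) (x := l)
        (Set.mem_Iio.2 (by rw [hper]; exact ZMod.val_lt i))
        (Set.mem_Iio.2 (by rw [hper]; exact ZMod.val_lt j)) h3
      exact ZMod.val_injective p h4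
    · intro i h3
      apply hPne i.val
      have h4 : ((2 : ℤ) : F) • P F ρ (τ^[i.val] l) = 0 := by
        rw [Int.cast_smul_eq_zsmul]; exact h3
      rcases smul_eq_zero.1 h4 with h5 | h5
      · exact absurd (by exact_mod_cast h5) h2
      · exact h5
    · intro i
      show Y * P F ρ (τ^[i.val] l) * Z = P F ρ (τ^[(i + 1).val] l)
      rw [hPτ, ← Function.iterate_succ_apply' τ]
      congr 1
      have h3 : Function.IsPeriodicPt τ p l := hτp l
      have h4 : (i + 1).val = (i.val + 1) % p := by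
        rw [ZMod.val_add, ZMod.val_one_eq_one_mod, Nat.add_mod_mod]
      rw [h4, h3.iterate_mod_apply]
  -- the sign elements
  have hDsq : ∀ c, D hcy c * D hcy c = 1 := by
    intro c
    rw [← map_mul]
    have : c * c = 1 := by
      funext i
      exact Int.units_mul_self (c i)
    rw [this, map_one]
  have hDI : ∀ c, D hcy c ∈ I := by
    intro c
    apply hI {e | ∃ x ∈ E, (x : Rˣ) = e} _ (D hcy c) (hDsq c)
    · intro A hA hEA
      have hE1 : ∀ e : E, ρ e ∈ A := fun e => hEA _ ⟨e, e.2, rfl⟩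
      have h1A : (1 : R) ∈ A := by
        have := hE1 1
        rwa [map_one] at this
      have hPA : ∀ m : Dl E, P F ρ m ∈ A := by
        intro m
        have : Fact (Nat.Prime 2) := ⟨Nat.prime_two⟩
        have h3 : IsPGroup 2 E := fun e => ⟨1, by rw [pow_one, pow_two, hsqE]⟩
        obtain ⟨n, hn⟩ := IsPGroup.iff_card.1 h3
        apply mem_of_two_pow hA n
        have h4 : (2 ^ n : ℕ) • P F ρ m = ∑ e : E, ((m e : ℤˣ) : ℤ) • ρ e := by
          unfold P
          rw [← hn, ← Nat.cast_smul_eq_nsmul F, smul_smul,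
            mul_inv_cancel₀ (card_ne_zero (F := F) h2 hsqE), one_smul]
        rw [h4]
        exact A.sum_mem fun e _ => A.zsmul_mem (hE1 e) _
      show D0 Q c ∈ A
      unfold D0
      exact A.add_mem h1A (A.sum_mem fun i _ => A.zsmul_mem (hPA _) _)
    · rintro _ ⟨x, hx, rfl⟩
      exact ⟨hLI x.2, congrArg Subtype.val hx.2⟩
  have hYu : ∀ c, ((yh : L) : Rˣ) * D hcy c * ((yh : L) : Rˣ)⁻¹ = D hcy (shift c) := by
    intro c
    apply Units.ext
    exact conj_D0 hcy c
  have hDL : ∀ c, D hcy (c * (shift c)⁻¹) ∈ L := by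
    intro c
    have h3 : D hcy (c * (shift c)⁻¹) =
        (D hcy c * ((yh : L) : Rˣ) * (D hcy c)⁻¹) * ((yh⁻¹ : L) : Rˣ) := by
      rw [map_mul, map_inv, ← hYu]
      show D hcy c * (((yh : L) : Rˣ) * D hcy c * ((yh : L) : Rˣ)⁻¹)⁻¹ =
        (D hcy c * ((yh : L) : Rˣ) * (D hcy c)⁻¹) * ((yh : L) : Rˣ)⁻¹
      group
    rw [h3]
    exact L.mul_mem (hLn _ (hDI c) _ yh.2) (yh⁻¹ : L).2
  -- these commute with `E`
  have hQρ : ∀ (i : ZMod p) (e : E), Q i * ρ e = ρ e * Q i := by
    intro i e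
    show P F ρ _ * ρ e = ρ e * P F ρ _
    rw [P_mul_rho, rho_mul_P]
  have hDρ : ∀ c (e : E), D0 Q c * ρ e = ρ e * D0 Q c := by
    intro c e
    unfold D0
    rw [add_mul, mul_add, one_mul, mul_one, Finset.sum_mul, Finset.mul_sum]
    congr 1
    apply Finset.sum_congr rfl
    intro i _
    rw [smul_mul_assoc, mul_smul_comm, hQρ]
  let T := {i : ZMod p // i ≠ 0} → ℤˣ
  let ext : T → (ZMod p → ℤˣ) := fun t i => if h : i = 0 then 1 else t ⟨i, h⟩
  have hext0 : ∀ t, ext t 0 = 1 := fun t => dif_pos rfl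
  have hexti : ∀ (t : T) (i : {i : ZMod p // i ≠ 0}), ext t i = t i := fun t i => dif_neg i.2
  let ψ : T → Subgroup.centralizer (V : Set K) := fun t =>
    ⟨π ⟨D hcy (ext t * (shift (ext t))⁻¹), hDL _⟩, by
      rw [Subgroup.mem_centralizer_iff]
      intro v hv
      obtain ⟨e, he, rfl⟩ := hEV v hv
      rw [← map_mul, ← map_mul]
      congr 1
      apply Subtype.ext
      apply Units.ext
      exact (hDρ _ ⟨e, he⟩).symm⟩
  have hψ : Function.Injective ψ := by
    intro t t' htt
    have h3 : π ⟨D hcy (ext t * (shift (ext t))⁻¹), hDL _⟩ =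
        π ⟨D hcy (ext t' * (shift (ext t'))⁻¹), hDL _⟩ := congrArg Subtype.val htt
    set c := ext t * (ext t')⁻¹ with hc
    have hc0 : c 0 = 1 := by
      rw [hc, Pi.mul_apply, Pi.inv_apply, hext0, hext0]
      rfl
    have h4 : c * (shift c)⁻¹ =
        (ext t * (shift (ext t))⁻¹) * (ext t' * (shift (ext t'))⁻¹)⁻¹ := by
      have h5 : shift c = shift (ext t) * (shift (ext t'))⁻¹ := rfl
      rw [h5, hc]
      funext i
      simp only [Pi.mul_apply, Pi.inv_apply]
      generalize ext t i = a1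
      generalize ext t' i = a2
      generalize shift (ext t) i = a3
      generalize shift (ext t') i = a4
      revert a1 a2 a3 a4
      decide
    have h5 : π ⟨D hcy (c * (shift c)⁻¹), hDL c⟩ = 1 := by
      have h6 : (⟨D hcy (c * (shift c)⁻¹), hDL c⟩ : L) =
          ⟨D hcy (ext t * (shift (ext t))⁻¹), hDL _⟩ *
          (⟨D hcy (ext t' * (shift (ext t'))⁻¹), hDL _⟩ : L)⁻¹ := by
        apply Subtype.ext
        show D hcy (c * (shift c)⁻¹) = D hcy _ * (D hcy _)⁻¹
        rw [h4, map_mul, map_inv]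
      rw [h6, map_mul, map_inv, h3, mul_inv_cancel]
    have h6 := hker _ h5 yh
    have h7 : c = 1 := by
      apply eq_one_of_comm hcy hp2 hc0
      have h8 : D0 Q (c * (shift c)⁻¹) * Y = Y * D0 Q (c * (shift c)⁻¹) :=
        congrArg (fun z : L => ((z : Rˣ) : R)) h6
      rw [← h8, mul_assoc, hYZ, mul_one]
    funext i
    have h8 := congrFun h7 (i : ZMod p)
    rw [hc, Pi.mul_apply, Pi.inv_apply, hexti, hexti, Pi.one_apply, mul_inv_eq_one] at h8
    exact h8
  have h3 := Nat.card_le_card_of_injective ψ hψ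
  have h4 : Nat.card T = 2 ^ (p - 1) := by
    have h5 : Nat.card {i : ZMod p // i ≠ 0} = p - 1 := by
      rw [Nat.card_eq_fintype_card, Fintype.card_subtype_compl, ZMod.card]
      simp
    have h6 : Nat.card ℤˣ = 2 := by rw [Nat.card_eq_fintype_card]; rfl
    show Nat.card ({i : ZMod p // i ≠ 0} → ℤˣ) = 2 ^ (p - 1)
    rw [Nat.card_fun, h6, h5]
  rw [← h4]
  exact h3

end Cfsg.Agent.H338.RingCL
end

-- part: H338/AltLift
section
/-!
# Lifts of elementary abelian 2-subgroups to central extensions (helper338)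
-/

set_option autoImplicit false

namespace Cfsg.Agent.H338.AltLift

open Cfsg.Agent.H338.Dual2 Subgroup

/-- A non-degenerate alternating form: the order is a square. -/
theorem sq_of_alt {A : Type*} [CommGroup A] [Finite A] (hsq : ∀ a : A, a * a = 1) (B : A →* Dl A)
    (hB : Function.Injective B) (halt : ∀ a, B a a = 1) : ∃ m, Nat.card A = m * m := by
  classical
  have hsym : ∀ a b, B a b = B b a := by
    intro a b
    have h1 := halt (a * b)
    rw [map_mul B, dl_mul_apply, map_mul (B a), map_mul (B b), halt, halt, one_mul, mul_one] at h1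
    exact mul_right_cancel (h1.trans (unit_sq (B b a)).symm)
  have hfin : Set.Finite {U : Subgroup A | ∀ a ∈ U, ∀ b ∈ U, B a b = 1} := Set.toFinite _
  obtain ⟨U, hU⟩ := hfin.exists_maximal ⟨⊥, by
    intro a ha b hb
    rw [mem_bot] at ha
    rw [ha, map_one]
    rfl⟩
  obtain ⟨hU1, hU2⟩ := hU
  -- `U` is its own orthogonal
  let W : Subgroup A := (perp U).comap B
  have hW : ∀ a, a ∈ W ↔ ∀ u ∈ U, B a u = 1 := fun a => Iff.rfl
  have hUW : U ≤ W := fun a ha => (hW a).2 (hU1 a ha)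
  have hWU : W ≤ U := by
    intro x hx
    have h1 : U ≤ U ⊔ zpowers x := le_sup_left
    have h2 : U ⊔ zpowers x ≤ U := by
      apply hU2 _ h1
      have key : ∀ a ∈ U ⊔ zpowers x, ∃ u ∈ U, a = u ∨ a = u * x := by
        intro a ha
        obtain ⟨u, hu, z, hz, rfl⟩ := Subgroup.mem_sup.1 ha
        obtain ⟨k, rfl⟩ := mem_zpowers_iff.1 hz
        rcases Int.even_or_odd k with ⟨m, rfl⟩ | ⟨m, rfl⟩
        · refine ⟨u, hu, Or.inl ?_⟩
          rw [zpow_add, ← mul_zpow, hsq, one_zpow, mul_one]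
        · refine ⟨u, hu, Or.inr ?_⟩
          rw [zpow_add, zpow_mul, zpow_one, show (2 : ℤ) = ((2 : ℕ) : ℤ) from rfl, zpow_natCast,
            pow_two, hsq, one_zpow, one_mul]
      intro a ha b hb
      obtain ⟨u, hu, hau⟩ := key a ha
      obtain ⟨v, hv, hbv⟩ := key b hb
      have e1 := hU1 u hu v hv
      have e2 := (hW x).1 hx v hv
      have e3 : B u x = 1 := by rw [hsym]; exact (hW x).1 hx u hu
      have e4 := halt x
      rcases hau with rfl | rfl <;> rcases hbv with rfl | rfl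
      · exact e1
      · rw [map_mul (B a), e1, e3, mul_one]
      · rw [map_mul B, dl_mul_apply, e1, e2, mul_one]
      · rw [map_mul B, dl_mul_apply, map_mul (B u), map_mul (B x), e1, e2, e3, e4]
        rfl
    exact h2 (Subgroup.mem_sup_right (mem_zpowers x))
  have hWU' : W = U := le_antisymm hWU hUW
  have hbij : Function.Bijective B := by
    rw [Nat.bijective_iff_injective_and_card]
    exact ⟨hB, (card_dual hsq).symm⟩
  have h1 : Nat.card W = Nat.card (perp U) := by
    refine Nat.card_congr (Equiv.ofBijective (fun w : W => (⟨B w, w.2⟩ : perp U)) ⟨?_, ?_⟩)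
    · intro w w' h
      exact Subtype.ext (hB (congrArg Subtype.val h))
    · rintro ⟨χ, hχ⟩
      obtain ⟨a, rfl⟩ := hbij.2 χ
      exact ⟨⟨a, hχ⟩, rfl⟩
  refine ⟨Nat.card U, ?_⟩
  rw [← card_perp hsq U, ← h1, hWU']

/-- If the lifts of `V` do not commute, there is a non-degenerate invariant alternating form. -/
theorem exists_form {L K : Type*} [Group L] [Finite L] [Group K] (π : L →* K)
    (hπ : Function.Surjective π) (hker : ∀ x : L, π x = 1 → ∀ l : L, x * l = l * x)
    (V : Subgroup K) (hab : ∀ a ∈ V, ∀ b ∈ V, a * b = b * a) (hsq : ∀ v ∈ V, v * v = 1)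
    (hirr : ∀ W : Subgroup K, W ≤ V → (∀ g ∈ normalizer (V : Set K), ∀ w ∈ W, g * w * g⁻¹ ∈ W) →
      W = ⊥ ∨ W = V) (h : ¬ ∀ a b : L, π a ∈ V → π b ∈ V → a * b = b * a) :
    ∃ β : V → V → ℤˣ, (∀ a b c, β (a * b) c = β a c * β b c) ∧
      (∀ a b c, β a (b * c) = β a b * β a c) ∧ (∀ a, β a a = 1) ∧
      (∀ (g : K) (_ : g ∈ normalizer (V : Set K)) (a b a' b' : V), (a' : K) = g * a * g⁻¹ →
        (b' : K) = g * b * g⁻¹ → β a' b' = β a b) ∧
      (∀ a, (∀ b, β a b = 1) → a = 1) := by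
  classical
  push Not at h
  obtain ⟨a0, b0, ha0, hb0, hne⟩ := h
  -- the group of possible commutators
  let T : Subgroup L :=
    { carrier := {z | π z = 1 ∧ z * z = 1}
      one_mem' := ⟨map_one π, one_mul 1⟩
      mul_mem' := by
        rintro a b ⟨ha, ha'⟩ ⟨hb, hb'⟩
        refine ⟨by rw [map_mul, ha, hb, one_mul], ?_⟩
        calc a * b * (a * b) = a * (b * a) * b := by group
          _ = a * (a * b) * b := by rw [hker a ha b]
          _ = (a * a) * (b * b) := by group
          _ = 1 := by rw [ha', hb', one_mul]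
      inv_mem' := by
        rintro a ⟨ha, ha'⟩
        exact ⟨by rw [map_inv, ha, inv_one], by rw [← mul_inv_rev, ha', inv_one]⟩ }
  let instT : CommGroup T :=
    { (inferInstance : Group T) with
      mul_comm := fun a b => Subtype.ext (hker a a.2.1 b) }
  have hsqT : ∀ t : T, t * t = 1 := fun t => Subtype.ext t.2.2
  have hcm : ∀ a b : L, π a ∈ V → π b ∈ V → a * b * a⁻¹ * b⁻¹ ∈ T := by
    intro a b ha hb
    have h1 : π (a * b * a⁻¹ * b⁻¹) = 1 := by
      rw [map_mul, map_mul, map_mul, map_inv, map_inv, hab _ ha _ hb]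
      group
    refine ⟨h1, ?_⟩
    have h2 : π (a * a) = 1 := by rw [map_mul, hsq _ ha]
    have h3 := hker _ h2 b
    have h4 := hker _ h1 (a)
    calc a * b * a⁻¹ * b⁻¹ * (a * b * a⁻¹ * b⁻¹)
        = ((a * b * a⁻¹ * b⁻¹) * a) * b * a⁻¹ * b⁻¹ := by group
      _ = (a * (a * b * a⁻¹ * b⁻¹)) * b * a⁻¹ * b⁻¹ := by rw [h4]
      _ = (a * a * b) * (a * a)⁻¹ * b⁻¹ := by group
      _ = (b * (a * a)) * (a * a)⁻¹ * b⁻¹ := by rw [h3]
      _ = 1 := by group
  let C : ∀ a b : L, π a ∈ V → π b ∈ V → T := fun a b ha hb => ⟨a * b * a⁻¹ * b⁻¹, hcm a b ha hb⟩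
  obtain ⟨χ, hχ⟩ := exists_sep hsqT (a := C a0 b0 ha0 hb0) (by
    intro h1
    apply hne
    have h2 : a0 * b0 * a0⁻¹ * b0⁻¹ = 1 := congrArg Subtype.val h1
    rw [mul_inv_eq_one, mul_inv_eq_iff_eq_mul] at h2
    exact h2)
  -- commutators depend only on the images
  have hdep1 : ∀ a a' b : L, π a = π a' → a * b * a⁻¹ * b⁻¹ = a' * b * a'⁻¹ * b⁻¹ := by
    intro a a' b haa
    have h1 : π (a'⁻¹ * a) = 1 := by rw [map_mul, map_inv, haa, inv_mul_cancel]
    have h2 := hker _ h1 b
    calc a * b * a⁻¹ * b⁻¹ = a' * ((a'⁻¹ * a) * b) * a⁻¹ * b⁻¹ := by group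
      _ = a' * (b * (a'⁻¹ * a)) * a⁻¹ * b⁻¹ := by rw [h2]
      _ = a' * b * a'⁻¹ * b⁻¹ := by group
  have hdep2 : ∀ a b b' : L, π b = π b' → a * b * a⁻¹ * b⁻¹ = a * b' * a⁻¹ * b'⁻¹ := by
    intro a b b' hbb
    have h1 : π (b'⁻¹ * b) = 1 := by rw [map_mul, map_inv, hbb, inv_mul_cancel]
    have h2 := hker _ h1 a⁻¹
    calc a * b * a⁻¹ * b⁻¹ = a * b' * ((b'⁻¹ * b) * a⁻¹) * b⁻¹ := by group
      _ = a * b' * (a⁻¹ * (b'⁻¹ * b)) * b⁻¹ := by rw [h2]
      _ = a * b' * a⁻¹ * b'⁻¹ := by group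
  have hl : ∀ v : V, π (Classical.choose (hπ v)) = v := fun v => Classical.choose_spec (hπ v)
  have hlV : ∀ v : V, π (Classical.choose (hπ v)) ∈ V := fun v => by rw [hl]; exact v.2
  let β : V → V → ℤˣ := fun v w =>
    χ (C (Classical.choose (hπ v)) (Classical.choose (hπ w)) (hlV v) (hlV w))
  have hβ : ∀ (v w : V) (a b : L) (ha : π a = v) (hb : π b = w),
      β v w = χ (C a b (by rw [ha]; exact v.2) (by rw [hb]; exact w.2)) := by
    intro v w a b ha hb
    have h1 : C (Classical.choose (hπ v)) (Classical.choose (hπ w)) (hlV v) (hlV w) =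
        C a b (by rw [ha]; exact v.2) (by rw [hb]; exact w.2) := by
      apply Subtype.ext
      show _ * _ * _⁻¹ * _⁻¹ = a * b * a⁻¹ * b⁻¹
      rw [hdep1 _ a _ (by rw [hl, ha]), hdep2 a _ b (by rw [hl, hb])]
    show χ _ = χ _
    rw [h1]
  have hmul1 : ∀ a b c, β (a * b) c = β a c * β b c := by
    intro a b c
    have ha := hl a
    have hb := hl b
    have hc := hl c
    set a' := Classical.choose (hπ a)
    set b' := Classical.choose (hπ b)
    set c' := Classical.choose (hπ c)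
    rw [hβ (a * b) c (a' * b') c' (by rw [map_mul, ha, hb]; rfl) hc, hβ a c a' c' ha hc,
      hβ b c b' c' hb hc, ← map_mul χ]
    congr 1
    apply Subtype.ext
    show a' * b' * c' * (a' * b')⁻¹ * c'⁻¹ = (a' * c' * a'⁻¹ * c'⁻¹) * (b' * c' * b'⁻¹ * c'⁻¹)
    have h1 := hker _ (hcm b' c' (by rw [hb]; exact b.2) (by rw [hc]; exact c.2)).1
    calc a' * b' * c' * (a' * b')⁻¹ * c'⁻¹
        = a' * ((b' * c' * b'⁻¹ * c'⁻¹) * (c' * a'⁻¹ * c'⁻¹)) := by group
      _ = a' * ((c' * a'⁻¹ * c'⁻¹) * (b' * c' * b'⁻¹ * c'⁻¹)) := by rw [h1]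
      _ = _ := by group
  have hmul2 : ∀ a b c, β a (b * c) = β a b * β a c := by
    intro a b c
    have ha := hl a
    have hb := hl b
    have hc := hl c
    set a' := Classical.choose (hπ a)
    set b' := Classical.choose (hπ b)
    set c' := Classical.choose (hπ c)
    rw [hβ a (b * c) a' (b' * c') ha (by rw [map_mul, hb, hc]; rfl), hβ a b a' b' ha hb,
      hβ a c a' c' ha hc, ← map_mul χ]
    congr 1
    apply Subtype.ext
    show a' * (b' * c') * a'⁻¹ * (b' * c')⁻¹ = (a' * b' * a'⁻¹ * b'⁻¹) * (a' * c' * a'⁻¹ * c'⁻¹)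
    have h1 := hker _ (hcm a' c' (by rw [ha]; exact a.2) (by rw [hc]; exact c.2)).1
    calc a' * (b' * c') * a'⁻¹ * (b' * c')⁻¹
        = (a' * b' * a'⁻¹) * ((a' * c' * a'⁻¹ * c'⁻¹) * b'⁻¹) := by group
      _ = (a' * b' * a'⁻¹) * (b'⁻¹ * (a' * c' * a'⁻¹ * c'⁻¹)) := by rw [h1]
      _ = _ := by group
  have halt : ∀ a, β a a = 1 := by
    intro a
    have h1 : C (Classical.choose (hπ a)) (Classical.choose (hπ a)) (hlV a) (hlV a) = 1 := by
      apply Subtype.ext
      show _ * _ * _⁻¹ * _⁻¹ = 1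
      group
    show χ _ = 1
    rw [h1, map_one]
  have hinv : ∀ (g : K) (_ : g ∈ normalizer (V : Set K)) (a b a' b' : V),
      (a' : K) = g * a * g⁻¹ → (b' : K) = g * b * g⁻¹ → β a' b' = β a b := by
    intro g hg a b a' b' ha' hb'
    obtain ⟨gh, rfl⟩ := hπ g
    have ha := hl a
    have hb := hl b
    set ah := Classical.choose (hπ a)
    set bh := Classical.choose (hπ b)
    rw [hβ a' b' (gh * ah * gh⁻¹) (gh * bh * gh⁻¹) (by rw [map_mul, map_mul, map_inv, ha, ha'])
      (by rw [map_mul, map_mul, map_inv, hb, hb']), hβ a b ah bh ha hb]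
    congr 1
    apply Subtype.ext
    show (gh * ah * gh⁻¹) * (gh * bh * gh⁻¹) * (gh * ah * gh⁻¹)⁻¹ * (gh * bh * gh⁻¹)⁻¹ =
      ah * bh * ah⁻¹ * bh⁻¹
    have h1 := hker _ (hcm ah bh (by rw [ha]; exact a.2) (by rw [hb]; exact b.2)).1
    calc (gh * ah * gh⁻¹) * (gh * bh * gh⁻¹) * (gh * ah * gh⁻¹)⁻¹ * (gh * bh * gh⁻¹)⁻¹
        = gh * ((ah * bh * ah⁻¹ * bh⁻¹) * gh⁻¹) := by group
      _ = gh * (gh⁻¹ * (ah * bh * ah⁻¹ * bh⁻¹)) := by rw [h1]
      _ = _ := by group
  refine ⟨β, hmul1, hmul2, halt, hinv, ?_⟩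
  -- the radical
  have hone : ∀ b, β 1 b = 1 := by
    intro b
    have h1 := hmul1 1 1 b
    rw [one_mul] at h1
    exact (mul_eq_left.1 h1.symm)
  let Rad : Subgroup K :=
    { carrier := {x | ∃ hx : x ∈ V, ∀ b, β ⟨x, hx⟩ b = 1}
      one_mem' := ⟨one_mem _, hone⟩
      mul_mem' := by
        rintro x y ⟨hx, hx'⟩ ⟨hy, hy'⟩
        refine ⟨V.mul_mem hx hy, fun b => ?_⟩
        have h1 := hmul1 ⟨x, hx⟩ ⟨y, hy⟩ b
        rw [hx', hy', one_mul] at h1
        exact h1
      inv_mem' := by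
        rintro x ⟨hx, hx'⟩
        have h1 : x⁻¹ = x := inv_eq_of_mul_eq_one_left (hsq x hx)
        rw [h1]
        exact ⟨hx, hx'⟩ }
  have hRV : Rad ≤ V := fun x hx => hx.1
  rcases hirr Rad hRV (by
    rintro g hg w ⟨hw, hw'⟩
    have hgw : g * w * g⁻¹ ∈ V := (mem_normalizer_iff.1 hg w).1 hw
    refine ⟨hgw, fun b => ?_⟩
    have hgb : g⁻¹ * b * g ∈ V := by
      have := (mem_normalizer_iff.1 (inv_mem hg) b).1 b.2
      rwa [inv_inv] at this
    rw [hinv g hg ⟨w, hw⟩ ⟨g⁻¹ * b * g, hgb⟩ ⟨g * w * g⁻¹, hgw⟩ b rfl (by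
      show (b : K) = g * (g⁻¹ * b * g) * g⁻¹
      group)]
    exact hw' _) with h1 | h1
  · intro a ha
    have h2 : (a : K) ∈ Rad := ⟨a.2, ha⟩
    rw [h1, mem_bot] at h2
    exact Subtype.ext h2
  · exfalso
    have h2 : π a0 ∈ Rad := by rw [h1]; exact ha0
    obtain ⟨h3, h4⟩ := h2
    have h5 := h4 ⟨π b0, hb0⟩
    rw [hβ ⟨π a0, h3⟩ ⟨π b0, hb0⟩ a0 b0 rfl rfl] at h5
    exact hχ h5

end Cfsg.Agent.H338.AltLift
end

-- part: H338/ClassicalOdd
section
/-!
# Classical groups in odd characteristic: elementary abelian 2-subgroups (helper338)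
-/

set_option autoImplicit false

namespace Cfsg.Agent.H338.ClassicalOdd

open Cfsg.Agent.H338.RingCL Cfsg.Agent.H338.AltLift Subgroup
open scoped Matrix

/-- The hypotheses on a subgroup `V`. -/
structure Hyp {K : Type*} [Group K] (V : Subgroup K) (p : ℕ) (y : K) : Prop where
  sq : ∀ v ∈ V, v * v = 1
  comm : ∀ a ∈ V, ∀ b ∈ V, a * b = b * a
  ne : V ≠ ⊥
  prime : p.Prime
  odd : p ≠ 2
  pow : y ^ p = 1
  norm : ∀ v ∈ V, y * v * y⁻¹ ∈ V
  fix : ∀ v ∈ V, y * v = v * y → v = 1
  irr : ∀ W : Subgroup K, W ≤ V → (∀ g ∈ normalizer (V : Set K), ∀ w ∈ W, g * w * g⁻¹ ∈ W) →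
      W = ⊥ ∨ W = V
  noform : ¬ ∃ β : V → V → ℤˣ, (∀ a b c, β (a * b) c = β a c * β b c) ∧
      (∀ a b c, β a (b * c) = β a b * β a c) ∧ (∀ a, β a a = 1) ∧
      (∀ (g : K) (_ : g ∈ normalizer (V : Set K)) (a b a' b' : V), (a' : K) = g * a * g⁻¹ →
        (b' : K) = g * b * g⁻¹ → β a' b' = β a b) ∧
      (∀ a, (∀ b, β a b = 1) → a = 1)

theorem of_quot {F R : Type*} [Field F] [Ring R] [Algebra F R] (h2 : (2 : F) ≠ 0)
    {H : Type*} [Group H] [Finite H] (θ : H →* Rˣ) (hθ : Function.Injective θ)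
    (I : Subgroup Rˣ) (hI : Closed I) (hHI : ∀ h, θ h ∈ I)
    (hn : ∀ g ∈ I, ∀ h, g * θ h * g⁻¹ ∈ θ.range)
    {K : Type*} [Group K] [Finite K] (e : K ≃* H ⧸ center H) {V : Subgroup K} {p : ℕ} {y : K}
    (hyp : Hyp V p y) : 2 ^ (p - 1) ≤ Nat.card (centralizer (V : Set K)) := by
  let i : H ≃* θ.range := MonoidHom.ofInjective hθ
  have : Finite θ.range := Finite.of_surjective i i.surjective
  let π : θ.range →* K :=
    e.symm.toMonoidHom.comp ((QuotientGroup.mk' (center H)).comp i.symm.toMonoidHom)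
  have hπ : Function.Surjective π :=
    e.symm.surjective.comp ((QuotientGroup.mk'_surjective _).comp i.symm.surjective)
  have hker : ∀ x : θ.range, π x = 1 → ∀ l : θ.range, x * l = l * x := by
    intro x hx l
    have h1 : e.symm (QuotientGroup.mk' (center H) (i.symm x)) = 1 := hx
    rw [MulEquiv.map_eq_one_iff, ← MonoidHom.mem_ker, QuotientGroup.ker_mk'] at h1
    have h3 := (mem_center_iff.1 h1) (i.symm l)
    have h4 : i (i.symm l * i.symm x) = i (i.symm x * i.symm l) := by rw [h3]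
    rw [map_mul, map_mul, i.apply_symm_apply, i.apply_symm_apply] at h4
    exact h4.symm
  have hlift : ∀ a b : θ.range, π a ∈ V → π b ∈ V → a * b = b * a := by
    by_contra hcon
    exact hyp.noform (exists_form π hπ hker V hyp.comm hyp.sq hyp.irr hcon)
  exact main (F := F) h2 I θ.range hI (by rintro _ ⟨h, rfl⟩; exact hHI h)
    (by rintro g hg _ ⟨h, rfl⟩; exact hn g hg h) π hπ hker V hyp.sq hyp.ne hyp.prime hyp.odd y
    hyp.pow hyp.norm hyp.fix hlift

section families

variable {F : Type*} [Field F] [Finite F] (h2 : (2 : F) ≠ 0)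
  {K : Type*} [Group K] [Finite K] {V : Subgroup K} {p : ℕ} {y : K} (hyp : Hyp V p y)

include h2 hyp

theorem psl {n : ℕ} (e : K ≃* Matrix.ProjectiveSpecialLinearGroup (Fin n) F) :
    2 ^ (p - 1) ≤ Nat.card (centralizer (V : Set K)) := by
  have : Finite (Matrix (Fin n) (Fin n) F) := inferInstanceAs (Finite (Fin n → Fin n → F))
  have : Finite (Matrix.SpecialLinearGroup (Fin n) F) := Subtype.finite
  refine of_quot (R := Matrix (Fin n) (Fin n) F) h2
    (Matrix.SpecialLinearGroup.toGL (n := Fin n) (R := F)) ?_ ⊤ closed_top (fun _ => trivial)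
    ?_ e hyp
  · intro a b hab
    exact Subtype.ext (congrArg Units.val hab)
  · intro g _ h
    have h3 : Matrix.det ((g * Matrix.SpecialLinearGroup.toGL h * g⁻¹ :
        (Matrix (Fin n) (Fin n) F)ˣ) : Matrix (Fin n) (Fin n) F) = 1 := by
      rw [Units.val_mul, Units.val_mul, Matrix.det_mul, Matrix.det_mul, mul_right_comm,
        ← Matrix.det_mul, ← Units.val_mul, mul_inv_cancel, Units.val_one, Matrix.det_one, one_mul]
      exact h.2
    exact ⟨⟨_, h3⟩, Units.ext rfl⟩

theorem psp {m : ℕ} (e : K ≃* Cfsg.PSp m F) :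
    2 ^ (p - 1) ≤ Nat.card (centralizer (V : Set K)) := by
  have : Finite (Matrix (Fin m ⊕ Fin m) (Fin m ⊕ Fin m) F) :=
    inferInstanceAs (Finite (Fin m ⊕ Fin m → Fin m ⊕ Fin m → F))
  have : Finite (Matrix.symplecticGroup (Fin m) F) := Subtype.finite
  let θ : Matrix.symplecticGroup (Fin m) F →* (Matrix (Fin m ⊕ Fin m) (Fin m ⊕ Fin m) F)ˣ :=
    MonoidHom.toHomUnits (Matrix.symplecticGroup (Fin m) F).subtype
  let J := Matrix.J (Fin m) F
  let I : Subgroup (Matrix (Fin m ⊕ Fin m) (Fin m ⊕ Fin m) F)ˣ := θ.range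
  have hmem : ∀ g : (Matrix (Fin m ⊕ Fin m) (Fin m ⊕ Fin m) F)ˣ, g ∈ I ↔
      (g : Matrix (Fin m ⊕ Fin m) (Fin m ⊕ Fin m) F) * J * (g : Matrix _ _ F)ᵀ = J := by
    intro g
    constructor
    · rintro ⟨h, rfl⟩
      exact h.2
    · intro h
      exact ⟨⟨g, h⟩, Units.ext rfl⟩
  refine of_quot (R := Matrix (Fin m ⊕ Fin m) (Fin m ⊕ Fin m) F) h2 θ ?_ I ?_ (fun h => ⟨h, rfl⟩)
    ?_ e hyp
  · intro a b hab
    exact Subtype.ext (congrArg Units.val hab)
  · intro E hE u hu hA
    rw [hmem]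
    let A : AddSubgroup (Matrix (Fin m ⊕ Fin m) (Fin m ⊕ Fin m) F) :=
      { carrier := {M | M * J = J * Mᵀ}
        zero_mem' := by
          show (0 : Matrix _ _ F) * J = J * (0 : Matrix _ _ F)ᵀ
          rw [zero_mul, Matrix.transpose_zero, mul_zero]
        add_mem' := by
          intro a b (ha : a * J = J * aᵀ) (hb : b * J = J * bᵀ)
          show (a + b) * J = J * (a + b)ᵀ
          rw [add_mul, Matrix.transpose_add, mul_add, ha, hb]
        neg_mem' := by
          intro a (ha : a * J = J * aᵀ)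
          show (-a) * J = J * (-a)ᵀ
          rw [neg_mul, Matrix.transpose_neg, mul_neg, ha] }
    have huA : (u : Matrix _ _ F) * J = J * (u : Matrix (Fin m ⊕ Fin m) (Fin m ⊕ Fin m) F)ᵀ := by
      apply hA A
      · intro x (hx : (x + x) * J = J * (x + x)ᵀ)
        show x * J = J * xᵀ
        rw [add_mul, Matrix.transpose_add, mul_add, ← two_smul F, ← two_smul F (J * xᵀ)] at hx
        exact smul_right_injective _ h2 hx
      · intro g hg
        show (g : Matrix _ _ F) * J = J * (g : Matrix _ _ F)ᵀ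
        have h3 := (hmem g).1 (hE g hg).1
        have h4 : (g : Matrix (Fin m ⊕ Fin m) (Fin m ⊕ Fin m) F) * g = 1 := by
          rw [← Units.val_mul, (hE g hg).2]; rfl
        generalize (g : Matrix (Fin m ⊕ Fin m) (Fin m ⊕ Fin m) F) = M at h3 h4 ⊢
        calc M * J = M * (M * J * Mᵀ) := by rw [h3]
          _ = (M * M) * J * Mᵀ := by simp only [mul_assoc]
          _ = J * Mᵀ := by rw [h4, one_mul]
    have h4 : (u : Matrix (Fin m ⊕ Fin m) (Fin m ⊕ Fin m) F) * u = 1 := by
      rw [← Units.val_mul, hu]; rfl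
    rw [mul_assoc, ← huA, ← mul_assoc, h4, one_mul]
  · rintro g hg h
    exact I.mul_mem (I.mul_mem hg ⟨h, rfl⟩) (I.inv_mem hg)

omit hyp [Finite F] in
/-- Isometry groups of biadditive forms are closed. -/
theorem closed_preserving {ι : Type} [Fintype ι] [DecidableEq ι] (f : (ι → F) → (ι → F) → F)
    (hf1 : ∀ a b c, f (a + b) c = f a c + f b c) (hf2 : ∀ a b c, f a (b + c) = f a b + f a c) :
    Closed (Cfsg.preserving (Units.coeHom (Matrix ι ι F)) f) := by
  have hz1 : ∀ c, f 0 c = 0 := fun c => by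
    have := hf1 0 0 c
    rw [add_zero] at this
    exact (left_eq_add.1 this)
  have hz2 : ∀ c, f c 0 = 0 := fun c => by
    have := hf2 c 0 0
    rw [add_zero] at this
    exact (left_eq_add.1 this)
  have hn1 : ∀ a c, f (-a) c = - f a c := fun a c => by
    have := hf1 a (-a) c
    rw [add_neg_cancel, hz1] at this
    exact (neg_eq_of_add_eq_zero_right this.symm).symm
  have hn2 : ∀ a c, f a (-c) = - f a c := fun a c => by
    have := hf2 a c (-c)
    rw [add_neg_cancel, hz2] at this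
    exact (neg_eq_of_add_eq_zero_right this.symm).symm
  intro E hE u hu hA
  let A : AddSubgroup (Matrix ι ι F) :=
    { carrier := {M | ∀ a b, f (M *ᵥ a) b = f a (M *ᵥ b)}
      zero_mem' := by
        intro a b
        rw [Matrix.zero_mulVec, Matrix.zero_mulVec, hz1, hz2]
      add_mem' := by
        intro M N hM hN a b
        rw [Matrix.add_mulVec, Matrix.add_mulVec, hf1, hf2, hM, hN]
      neg_mem' := by
        intro M hM a b
        rw [Matrix.neg_mulVec, Matrix.neg_mulVec, hn1, hn2, hM] }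
  have huA : (u : Matrix ι ι F) ∈ A := by
    apply hA A
    · intro x hx a b
      have h3 := hx a b
      rw [Matrix.add_mulVec, Matrix.add_mulVec, hf1, hf2, ← two_mul, ← two_mul] at h3
      exact mul_left_cancel₀ h2 h3
    · intro g hg a b
      have h3 := (hE g hg).1 (a) ((g : Matrix ι ι F) *ᵥ b)
      have h4 : (g : Matrix ι ι F) * g = 1 := by
        rw [← Units.val_mul, (hE g hg).2]; rfl
      rw [Units.coeHom_apply, Matrix.mulVec_mulVec, h4, Matrix.one_mulVec] at h3
      exact h3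
  intro a b
  have h4 : (u : Matrix ι ι F) * u = 1 := by
    rw [← Units.val_mul, hu]; rfl
  rw [Units.coeHom_apply, huA, Matrix.mulVec_mulVec, h4, Matrix.one_mulVec]

theorem psu {n q : ℕ} (hq : ∀ a b : F, (a + b) ^ q = a ^ q + b ^ q) (e : K ≃* Cfsg.PSU n F q) :
    2 ^ (p - 1) ≤ Nat.card (centralizer (V : Set K)) := by
  have : Finite (Matrix (Fin n) (Fin n) F) := inferInstanceAs (Finite (Fin n → Fin n → F))
  have : Finite (Matrix.SpecialLinearGroup (Fin n) F) := Subtype.finite
  have hcl : Closed (Cfsg.preserving (Units.coeHom (Matrix (Fin n) (Fin n) F))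
      (Cfsg.hermForm n F q)) := by
    apply closed_preserving h2
    · intro a b c
      unfold Cfsg.hermForm
      rw [← Finset.sum_add_distrib]
      exact Finset.sum_congr rfl fun i _ => by rw [Pi.add_apply, add_mul]
    · intro a b c
      unfold Cfsg.hermForm
      rw [← Finset.sum_add_distrib]
      exact Finset.sum_congr rfl fun i _ => by rw [Pi.add_apply, hq, mul_add]
  refine of_quot (R := Matrix (Fin n) (Fin n) F) h2
    ((Matrix.SpecialLinearGroup.toGL (n := Fin n) (R := F)).comp (Cfsg.SU n F q).subtype) ?_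
    (Cfsg.preserving (Units.coeHom (Matrix (Fin n) (Fin n) F)) (Cfsg.hermForm n F q)) hcl
    (fun h => h.2) ?_ e hyp
  · intro a b hab
    exact Subtype.ext (Subtype.ext (congrArg Units.val hab))
  · intro g hg h
    have h3 : Matrix.det ((g * Matrix.SpecialLinearGroup.toGL (h : Matrix.SpecialLinearGroup
        (Fin n) F) * g⁻¹ : (Matrix (Fin n) (Fin n) F)ˣ) : Matrix (Fin n) (Fin n) F) = 1 := by
      rw [Units.val_mul, Units.val_mul, Matrix.det_mul, Matrix.det_mul, mul_right_comm,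
        ← Matrix.det_mul, ← Units.val_mul, mul_inv_cancel, Units.val_one, Matrix.det_one, one_mul]
      exact h.1.2
    have h4 : g * Matrix.SpecialLinearGroup.toGL (h : Matrix.SpecialLinearGroup (Fin n) F) * g⁻¹ ∈
        Cfsg.preserving (Units.coeHom (Matrix (Fin n) (Fin n) F)) (Cfsg.hermForm n F q) :=
      mul_mem (mul_mem hg h.2) (inv_mem hg)
    exact ⟨⟨⟨_, h3⟩, h4⟩, Units.ext rfl⟩

theorem pomega {ι : Type} [Fintype ι] [DecidableEq ι] (Q : (ι → F) → F)
    (hf1 : ∀ a b c, Q (a + b + c) - Q (a + b) - Q c = (Q (a + c) - Q a - Q c) + (Q (b + c) - Q b - Q c))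
    (hQ : ∀ a, Q (a + a) = 4 * Q a) (e : K ≃* Cfsg.POmega F Q) :
    2 ^ (p - 1) ≤ Nat.card (centralizer (V : Set K)) := by
  have : Finite (Matrix ι ι F) := inferInstanceAs (Finite (ι → ι → F))
  have : Finite (Matrix.GeneralLinearGroup ι F) := inferInstanceAs (Finite (Matrix ι ι F)ˣ)
  have : Finite (Cfsg.isometryGroup F Q) := Subtype.finite
  have : Finite (Cfsg.Omega F Q) := Subtype.finite
  let f : (ι → F) → (ι → F) → F := fun a b => Q (a + b) - Q a - Q b
  have hsymm : ∀ a b, f a b = f b a := fun a b => by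
    show Q (a + b) - Q a - Q b = Q (b + a) - Q b - Q a
    rw [add_comm]; ring
  have hadd1 : ∀ a b c, f (a + b) c = f a c + f b c := hf1
  have hadd2 : ∀ a b c, f a (b + c) = f a b + f a c := fun a b c => by
    rw [hsymm, hadd1, hsymm b, hsymm c]
  have hcl := closed_preserving h2 f hadd1 hadd2
  have hcl' : Closed (Cfsg.isometryGroup F Q) := by
    intro E hE u hu hA
    have h3 : u ∈ Cfsg.preserving (Units.coeHom (Matrix ι ι F)) f := by
      apply hcl E _ u hu hA
      intro g hg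
      refine ⟨?_, (hE g hg).2⟩
      intro a b
      have h4 := (hE g hg).1
      show Q _ - Q _ - Q _ = Q _ - Q _ - Q _
      rw [← Matrix.mulVec_add]
      have h5 : ∀ a, Q ((Units.coeHom (Matrix ι ι F)) g *ᵥ a) = Q a := fun a => h4 a a
      rw [h5, h5, h5]
    intro a b
    have h4 := h3 a a
    have h5 : ∀ a, f a a = 2 * Q a := fun a => by
      show Q (a + a) - Q a - Q a = _
      rw [hQ]; ring
    rw [h5, h5] at h4
    exact mul_left_cancel₀ h2 h4
  refine of_quot (R := Matrix ι ι F) h2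
    ((Cfsg.isometryGroup F Q).subtype.comp (Cfsg.Omega F Q).subtype) ?_
    (Cfsg.isometryGroup F Q) hcl' (fun h => h.1.2) ?_ e hyp
  · intro a b hab
    exact Subtype.ext (Subtype.ext hab)
  · intro g hg h
    have h3 : (⟨g, hg⟩ : Cfsg.isometryGroup F Q) * h * (⟨g, hg⟩ : Cfsg.isometryGroup F Q)⁻¹ ∈
        Cfsg.Omega F Q := (inferInstance : (_root_.commutator (Cfsg.isometryGroup F Q)).Normal).conj_mem _ h.2 _
    exact ⟨⟨_, h3⟩, rfl⟩

theorem pomegaOdd {m : ℕ} (e : K ≃* Cfsg.POmega F (Cfsg.quadFormOdd m F)) :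
    2 ^ (p - 1) ≤ Nat.card (centralizer (V : Set K)) := by
  apply pomega h2 hyp _ _ _ e
  · intro a b c
    unfold Cfsg.quadFormOdd
    simp only [Pi.add_apply, add_mul, mul_add, Finset.sum_add_distrib]
    ring
  · intro a
    unfold Cfsg.quadFormOdd
    simp only [Pi.add_apply, add_mul, mul_add, Finset.sum_add_distrib]
    ring

theorem pomegaPlus {m : ℕ} (e : K ≃* Cfsg.POmega F (Cfsg.quadFormPlus m F)) :
    2 ^ (p - 1) ≤ Nat.card (centralizer (V : Set K)) := by
  apply pomega h2 hyp _ _ _ e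
  · intro a b c
    unfold Cfsg.quadFormPlus
    simp only [Pi.add_apply, add_mul, mul_add, Finset.sum_add_distrib]
    ring
  · intro a
    unfold Cfsg.quadFormPlus
    simp only [Pi.add_apply, add_mul, mul_add, Finset.sum_add_distrib]
    ring

theorem pomegaMinus {m : ℕ} {s t : F} (e : K ≃* Cfsg.POmega F (Cfsg.quadFormMinus m F s t)) :
    2 ^ (p - 1) ≤ Nat.card (centralizer (V : Set K)) := by
  apply pomega h2 hyp _ _ _ e
  · intro a b c
    unfold Cfsg.quadFormMinus
    simp only [Pi.add_apply, add_mul, mul_add, Finset.sum_add_distrib]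
    ring
  · intro a
    unfold Cfsg.quadFormMinus
    simp only [Pi.add_apply, add_mul, mul_add, Finset.sum_add_distrib]
    ring

end families

end Cfsg.Agent.H338.ClassicalOdd
end

-- part: H338/WeightCount
section
/-!
# Lower bound for the degree from the orbits on weights (helper338)
-/

set_option autoImplicit false
open scoped Matrix

namespace Cfsg.Agent.H338.Weights

open Cfsg.Agent.H338.Dual2

section count

variable {F ι E : Type*} [Field F] [Fintype ι] [DecidableEq ι] [CommGroup E] [Finite E] [Fintype E]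

theorem card_weights_le (h2 : (2 : F) ≠ 0) (hsq : ∀ e : E, e * e = 1)
    (ρ : E →* Matrix ι ι F) : {l : Dl E | P F ρ l ≠ 0}.ncard ≤ Fintype.card ι := by
  classical
  set S := {l : Dl E | P F ρ l ≠ 0} with hS
  have hex : ∀ l : S, ∃ v : ι → F, P F ρ (l : Dl E) *ᵥ v ≠ 0 := by
    intro l
    by_contra hcon
    push Not at hcon
    apply l.2
    apply Matrix.ext_of_mulVec_single
    intro i
    rw [hcon, Matrix.zero_mulVec]
  choose v hv using hex
  let u : S → (ι → F) := fun l => P F ρ (l : Dl E) *ᵥ v l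
  have hu : LinearIndependent F u := by
    have : Fintype S := Fintype.ofFinite S
    rw [Fintype.linearIndependent_iff]
    intro c hc i
    have h1 : P F ρ (i : Dl E) *ᵥ (∑ l : S, c l • u l) = 0 := by rw [hc, Matrix.mulVec_zero]
    rw [Matrix.mulVec_sum, Finset.sum_eq_single i] at h1
    · rw [Matrix.mulVec_smul] at h1
      have h3 : P F ρ (i : Dl E) *ᵥ u i = u i := by
        show P F ρ (i : Dl E) *ᵥ (P F ρ (i : Dl E) *ᵥ v i) = _
        rw [Matrix.mulVec_mulVec, P_mul_P_same h2 hsq]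
      rw [h3] at h1
      rcases smul_eq_zero.1 h1 with h4 | h4
      · exact h4
      · exact absurd h4 (hv i)
    · intro j _ hj
      rw [Matrix.mulVec_smul]
      have h3 : P F ρ (i : Dl E) *ᵥ u j = 0 := by
        show P F ρ (i : Dl E) *ᵥ (P F ρ (j : Dl E) *ᵥ v j) = _
        rw [Matrix.mulVec_mulVec, P_mul_P_ne ρ (fun h => hj (Subtype.ext h.symm)),
          Matrix.zero_mulVec]
      rw [h3, smul_zero]
    · intro h
      exact absurd (Finset.mem_univ _) h
  have : Fintype S := Fintype.ofFinite S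
  have h1 := hu.fintype_card_le_finrank
  rw [Module.finrank_fintype_fun_eq_card, ← Nat.card_eq_fintype_card] at h1
  exact h1

end count

open Subgroup

/-- If `K` is a matrix group in odd characteristic, `V` an elementary abelian subgroup, and the
orbits of `X = N(V)/V` on the non-trivial characters of `V` have length at least `m`, the degree is
at least `m`. -/
theorem le_degree {K : Type*} [Group K] [Finite K] {X : Type*} [Group X] {V : Subgroup K}
    (f : normalizer (V : Set K) →* X) (hf : Function.Surjective f)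
    (hk : f.ker = V.subgroupOf (normalizer (V : Set K)))
    (hab : ∀ a ∈ V, ∀ b ∈ V, a * b = b * a) (hsq : ∀ v ∈ V, v * v = 1) (hV : V ≠ ⊥) {m : ℕ}
    (horb : ∀ χ : V →* ℤˣ, χ ≠ 1 →
      m ≤ Nat.card (Set.range fun g : X => χ.comp (LocSyl.act f hf hk hab g).toMonoidHom))
    {F ι : Type*} [Field F] [Fintype ι] [DecidableEq ι] (h2 : (2 : F) ≠ 0)
    (θ : K →* Matrix.GeneralLinearGroup ι F) (hθ : Function.Injective θ) : m ≤ Fintype.card ι := by
  classical
  let inst : CommGroup V :=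
    { (inferInstance : Group V) with mul_comm := fun a b => Subtype.ext (hab a a.2 b b.2) }
  have : Fintype V := Fintype.ofFinite V
  have : Fintype (Dl V) := Fintype.ofFinite _
  have hsqV : ∀ e : V, e * e = 1 := fun e => Subtype.ext (hsq e e.2)
  let ρ : V →* Matrix ι ι F := (Units.coeHom (Matrix ι ι F)).comp (θ.comp V.subtype)
  -- a non-trivial weight
  obtain ⟨l, hl1, hl⟩ : ∃ l : Dl V, l ≠ 1 ∧ P F ρ l ≠ 0 := by
    by_contra hcon
    push Not at hcon
    have h3 := sum_P (F := F) h2 hsqV ρ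
    rw [Finset.sum_eq_single 1 (fun l _ hl => hcon l hl) (fun h => absurd (Finset.mem_univ _) h)]
      at h3
    apply hV
    rw [eq_bot_iff]
    intro v hv
    rw [mem_bot]
    have h4 : ρ ⟨v, hv⟩ = 1 := by
      have h5 := rho_mul_P (F := F) ρ 1 ⟨v, hv⟩
      rw [h3, mul_one, dl_one_apply] at h5
      simpa only [_root_.Units.val_one, _root_.one_smul] using h5
    apply hθ
    rw [map_one]
    exact Units.ext h4
  have h4 := horb l hl1
  refine le_trans h4 ?_
  have h5 := card_weights_le (F := F) h2 hsqV ρ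
  refine le_trans ?_ h5
  have hsub : (Set.range fun g : X => (MonoidHom.comp (l : V →* ℤˣ)
      (LocSyl.act f hf hk hab g).toMonoidHom : V →* ℤˣ)) ⊆ {l : Dl V | P F ρ l ≠ 0} := by
    rintro _ ⟨g, rfl⟩
    obtain ⟨x, hx⟩ := hf g⁻¹
    show P F ρ _ ≠ 0
    let y : Matrix ι ι F := ((θ (x : K) : Matrix.GeneralLinearGroup ι F) : Matrix ι ι F)
    let z : Matrix ι ι F := ((θ (x : K)⁻¹ : Matrix.GeneralLinearGroup ι F) : Matrix ι ι F)
    have hyz : y * z = 1 := by
      have h6 : θ (x : K) * θ (x : K)⁻¹ = 1 := by rw [← map_mul, mul_inv_cancel, map_one]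
      exact congrArg Units.val h6
    have hzy : z * y = 1 := by
      have h6 : θ (x : K)⁻¹ * θ (x : K) = 1 := by rw [← map_mul, inv_mul_cancel, map_one]
      exact congrArg Units.val h6
    have hconj := conj_P (F := F) ρ l (LocSyl.act f hf hk hab g⁻¹ : V ≃* V) y z (by
      intro e
      have h6 : ((LocSyl.act f hf hk hab g⁻¹ e : V) : K) = x * e * (x : K)⁻¹ := by
        rw [← hx]; exact LocSyl.act_apply f hf hk hab x e
      show ((θ (x : K) * θ (e : K) : Matrix.GeneralLinearGroup ι F) : Matrix ι ι F) =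
        ((θ ((LocSyl.act f hf hk hab g⁻¹ e : V) : K) * θ (x : K) :
          Matrix.GeneralLinearGroup ι F) : Matrix ι ι F)
      rw [← map_mul, ← map_mul, h6, inv_mul_cancel_right])
    intro h0
    have h7 : (MonoidHom.comp (l : V →* ℤˣ) (LocSyl.act f hf hk hab g⁻¹ : V ≃* V).symm.toMonoidHom :
        V →* ℤˣ) = (MonoidHom.comp (l : V →* ℤˣ) (LocSyl.act f hf hk hab g).toMonoidHom) := by
      ext e
      show ((l ((LocSyl.act f hf hk hab g⁻¹ : V ≃* V).symm e) : ℤˣ) : ℤ) =
        ((l (LocSyl.act f hf hk hab g e) : ℤˣ) : ℤ)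
      have h8 : (LocSyl.act f hf hk hab g⁻¹ : V ≃* V).symm e = LocSyl.act f hf hk hab g e := by
        rw [MulEquiv.symm_apply_eq, map_inv]
        exact (MulAut.inv_apply_self _ (LocSyl.act f hf hk hab g) e).symm
      rw [h8]
    have h8 : y * P F ρ l * z = 0 := by
      rw [hconj]
      have h9 : P F ρ (MonoidHom.comp (l : V →* ℤˣ)
        (LocSyl.act f hf hk hab g⁻¹ : V ≃* V).symm.toMonoidHom) = 0 := by rw [h7]; exact h0
      rw [h9, zero_mul]
    apply hl
    calc P F ρ l = (z * y) * P F ρ l * (z * y) := by rw [hzy, one_mul, mul_one]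
      _ = z * (y * P F ρ l * z) * y := by simp only [mul_assoc]
      _ = 0 := by rw [h8, mul_zero, zero_mul]
  exact Set.ncard_le_ncard hsub (Set.toFinite _)

end Cfsg.Agent.H338.Weights
end

private theorem dce_cf762132b17a : _root_.True := by
  try have : _root_.True := by simp only [_root_.Cfsg.Agent.H338.Weights.P.eq_1]
  try have : _root_.True := by simp only [_root_.Cfsg.Agent.H338.CycId.D0.eq_1]
  try have : _root_.True := by simp only [_root_.Cfsg.Agent.H338.CycId.D.congr_simp]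
  try have : _root_.True := by simp only [_root_.Cfsg.Agent.H338.CycId.shift.congr_simp]
  exact _root_.True.intro
end
end
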