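import Cfsg.Agent.H338.AltDeg_m3
import Cfsg.Agent.LieClassical.SLGen
import Cfsg.Agent.Lib.PermCode
import Cfsg.Agent.Lib.Refl
import Cfsg.Agent.Lib.DetFast
import Cfsg.Agent.S0242
import Cfsg.Agent.FastGrp
import Cfsg.Agent.Prune
set_option linter.all false

section
prune_inst 0x7ff0bcfbeffcbddfffff7e7ffffddffdfdb8ffffefdfffcbffe1ebff0fdf4be3dbe5fbaf9fecd2feded6e23410f87b53fb7eefffea6fdc7ffffd5ff45ffbff9fffffbd0c5196b8341ffe6ffffbf07fce7f3fffffffffffffffffffffffffffffffbfffffffff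

-- part: H338/L5Norm2
section
prune_inst 0x10000100000000000000000000000024000001020000000000000000000042000000000000001010000802000000000811000000020000000a000000000000000000000000000000000000000000000000000000000000000000000000000004000000000
set_option linter.all false
open scoped Cfsg.Agent.FastGrp

-- part: H338/L5Gen
section
/-!
# Generators of `SL(5,2)` (helper338)
-/

set_option autoImplicit false

namespace Cfsg.Agent.H338.L5

open Matrix

abbrev X := Matrix.SpecialLinearGroup (Fin 5) (ZMod 2)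

theorem det_one {M M' : Matrix (Fin 5) (Fin 5) (ZMod 2)} (h : M * M' = 1) : M.det = 1 := by
  have h1 : M.det * M'.det = 1 := by rw [← Matrix.det_mul, h, Matrix.det_one]
  have h2 : ∀ a b : ZMod 2, a * b = 1 → a = 1 := by decide
  exact h2 _ _ h1

/-- Permutation matrices. -/
def P : Equiv.Perm (Fin 5) →* X where
  toFun s := ⟨AltDeg.permHom 5 (ZMod 2) s, det_one (M' := AltDeg.permHom 5 (ZMod 2) s⁻¹) (by
    rw [← map_mul, mul_inv_cancel, map_one])⟩
  map_one' := Subtype.ext (map_one _)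
  map_mul' a b := Subtype.ext (map_mul _ a b)

theorem P_apply (s : Equiv.Perm (Fin 5)) (i j : Fin 5) :
    (P s : Matrix (Fin 5) (Fin 5) (ZMod 2)) i j = if i = s j then 1 else 0 := rfl

/-- Transvections. -/
def T {i j : Fin 5} (h : i ≠ j) : X := SpecialLinearGroup.transvection h 1

theorem T_val {i j : Fin 5} (h : i ≠ j) : (T h : Matrix (Fin 5) (Fin 5) (ZMod 2)) =
    1 + Matrix.single i j 1 := rfl

theorem P_mul_val (s : Equiv.Perm (Fin 5)) (M : Matrix (Fin 5) (Fin 5) (ZMod 2)) (a b : Fin 5) :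
    ((P s : Matrix (Fin 5) (Fin 5) (ZMod 2)) * M) a b = M (s⁻¹ a) b := by
  rw [Matrix.mul_apply, Finset.sum_eq_single (s⁻¹ a)]
  · rw [P_apply, if_pos (by simp), one_mul]
  · intro k _ hk
    rw [P_apply, if_neg, zero_mul]
    rintro rfl
    exact hk (by simp)
  · intro h; exact absurd (Finset.mem_univ _) h

theorem mul_P_val (s : Equiv.Perm (Fin 5)) (M : Matrix (Fin 5) (Fin 5) (ZMod 2)) (a b : Fin 5) :
    (M * (P s : Matrix (Fin 5) (Fin 5) (ZMod 2))) a b = M a (s b) := by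
  rw [Matrix.mul_apply, Finset.sum_eq_single (s b)]
  · rw [P_apply, if_pos rfl, mul_one]
  · intro k _ hk
    rw [P_apply, if_neg hk, mul_zero]
  · intro h; exact absurd (Finset.mem_univ _) h

theorem P_conj_T (s : Equiv.Perm (Fin 5)) {i j : Fin 5} (h : i ≠ j) :
    P s * T h = T (s.injective.ne h) * P s := by
  apply Subtype.ext
  ext a b
  show ((P s : Matrix (Fin 5) (Fin 5) (ZMod 2)) * (T h : Matrix (Fin 5) (Fin 5) (ZMod 2)) :
      Matrix (Fin 5) (Fin 5) (ZMod 2)) a b =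
    ((T (s.injective.ne h) : Matrix (Fin 5) (Fin 5) (ZMod 2)) *
      (P s : Matrix (Fin 5) (Fin 5) (ZMod 2)) : Matrix (Fin 5) (Fin 5) (ZMod 2)) a b
  rw [P_mul_val, mul_P_val, T_val, T_val, Matrix.add_apply, Matrix.add_apply, Matrix.one_apply,
    Matrix.one_apply, Matrix.single_apply, Matrix.single_apply]
  have e1 : (s⁻¹ a = b) ↔ (a = s b) := Equiv.Perm.inv_eq_iff_eq
  have e2 : (i = s⁻¹ a) ↔ (s i = a) := by
    rw [Equiv.Perm.eq_inv_iff_eq]
  have e3 : (j = b) ↔ (s j = s b) := s.injective.eq_iff.symm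
  simp only [e1, e2, e3]

theorem closure_T : Subgroup.closure {g : X | ∃ (i j : Fin 5) (h : i ≠ j), g = T h} = ⊤ := by
  rw [eq_top_iff, ← LieClassical.SLGen.closure_transvections, Subgroup.closure_le]
  rintro _ ⟨i, j, h, c, rfl⟩
  have hc : c = 0 ∨ c = 1 := by revert c; decide
  rcases hc with rfl | rfl
  · have h1 : SpecialLinearGroup.transvection h (0 : ZMod 2) = 1 := by
      apply Subtype.ext
      show 1 + Matrix.single i j (0 : ZMod 2) = 1
      simp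
    rw [h1]
    exact Subgroup.one_mem _
  · exact Subgroup.subset_closure ⟨i, j, h, rfl⟩

def x (i : Fin 4) : X := T (i := i.castSucc) (j := i.succ) (by simp [Fin.ext_iff])
def y (i : Fin 4) : X := T (i := i.succ) (j := i.castSucc) (by simp [Fin.ext_iff])
def n (i : Fin 4) : X := P (Equiv.swap i.castSucc i.succ)

/-- The relations used for the operators `n i + x i * n i`. -/
structure Rel {Γ : Type*} [Group Γ] (x n : Fin 4 → Γ) : Prop where
  xx : ∀ i, x i * x i = 1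
  nn : ∀ i, n i * n i = 1
  xn : ∀ i, x i * n i * x i = n i * x i * n i
  fx : ∀ i j : Fin 4, (i : ℕ) + 1 < j ∨ (j : ℕ) + 1 < i → x i * x j = x j * x i
  fn : ∀ i j : Fin 4, (i : ℕ) + 1 < j ∨ (j : ℕ) + 1 < i → n i * n j = n j * n i
  fxn : ∀ i j : Fin 4, (i : ℕ) + 1 < j ∨ (j : ℕ) + 1 < i → x i * n j = n j * x i
  a1 : ∀ i j : Fin 4, (i : ℕ) + 1 = j ∨ (j : ℕ) + 1 = i → n i * x j * n i = x i * x j * x i * x j
  a2 : ∀ i j : Fin 4, (i : ℕ) + 1 = j ∨ (j : ℕ) + 1 = i →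
    n i * (x i * x j * x i) * n i = x i * x j * x i
  e1 : ∀ i j : Fin 4, (i : ℕ) + 1 = j ∨ (j : ℕ) + 1 = i → n i * n j * n i = n j * n i * n j
  e2 : ∀ i j : Fin 4, (i : ℕ) + 1 = j ∨ (j : ℕ) + 1 = i →
    x i * n i * n j * n i = n j * n i * x j * n j
  e3 : ∀ i j : Fin 4, (i : ℕ) + 1 = j ∨ (j : ℕ) + 1 = i →
    n i * x j * n j * n i = n j * x i * n i * n j
  e5 : ∀ i j : Fin 4, (i : ℕ) + 1 = j ∨ (j : ℕ) + 1 = i →
    x i * n i * x j * n j * n i = n j * x i * n i * x j * n j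
  e6 : ∀ i j : Fin 4, (i : ℕ) + 1 = j ∨ (j : ℕ) + 1 = i →
    x i * n i * n j * x i * n i = x j * n j * x i * n i * x j * n j

private noncomputable def _root_.Cfsg.Agent.LsF.fb7fa25_0 : {f // @Fin.succ = f} := ⟨_, by first | (delta Fin.succ; (try delta Fin.succ.match_1); (try delta Fin.casesOn); exact rfl) | exact rfl⟩
private noncomputable def _root_.Cfsg.Agent.LsF.fb7fa25_1 : {f // @Cfsg.Agent.H338.L5.n = f} := ⟨_, by first | (delta Cfsg.Agent.H338.L5.n; rewrite [Cfsg.Agent.LsF.fb7fa25_0.2]; exact rfl) | exact rfl⟩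
private def vc40 (c : ℕ) : Fin 5 → ZMod 2 := fun j => Nat.cast (Nat.mod (Nat.shiftRight c j.1) 2)

private def Rp40 (g : X) (f : ℕ → ℕ) : Prop :=
  ∀ c < 32, (g : Matrix (Fin 5) (Fin 5) (ZMod 2)).mulVec (vc40 c) = vc40 (f c) ∧ f c < 32

private theorem Rp40.mul {g h : X} {f k : ℕ → ℕ} (a : Rp40 g f) (b : Rp40 h k) : Rp40 (g * h) fun c => f (k c) := fun c hc =>
  ⟨(Matrix.mulVec_mulVec (vc40 c) g.1 h.1).symm.trans ((congrArg g.1.mulVec (b c hc).1).trans (a _ (b c hc).2).1),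
    (a _ (b c hc).2).2⟩

private theorem Rp40.one : Rp40 1 fun c => c := fun c hc => ⟨Matrix.one_mulVec (vc40 c), hc⟩

private theorem vc_pow40 : ∀ j : Fin 5, vc40 (2 ^ j.1) = Pi.single j 1 ∧ 2 ^ j.1 < 32 := by decide +kernel

private theorem Rp40.eq {g h : X} {f k : ℕ → ℕ} (a : Rp40 g f) (b : Rp40 h k) (e : ∀ j < 5, f (2 ^ j) = k (2 ^ j)) : g = h :=
  Subtype.ext (Matrix.ext fun i j => by
    have h2 := (a _ (vc_pow40 j).2).1
    rw [e j j.2, ← (b _ (vc_pow40 j).2).1, (vc_pow40 j).1, Matrix.mulVec_single_one, Matrix.mulVec_single_one] at h2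
    exact congrFun h2 i)

private def oT40 (a b c : ℕ) : ℕ := Nat.xor c (Nat.shiftLeft (Nat.mod (Nat.shiftRight c b) 2) a)

private def oN40 (a c : ℕ) : ℕ :=
  Nat.xor c (Nat.shiftLeft (Nat.mul 3 (Nat.mod (Nat.xor (Nat.shiftRight c a) (Nat.shiftRight c (Nat.succ a))) 2)) a)

private theorem rT40 {i j : Fin 5} (h : i ≠ j)
    (e : ∀ c < 32, (∀ a, vc40 c a + (if a = i then vc40 c j else 0) = vc40 (oT40 i j c) a) ∧ oT40 i j c < 32) : Rp40 (T h) (oT40 i j) :=
  fun c hc => ⟨funext fun a => by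
    rw [T_val, Matrix.add_mulVec, Matrix.one_mulVec, Matrix.single_mulVec, Pi.add_apply, Function.update_apply, one_mul]
    exact (e c hc).1 a, (e c hc).2⟩

private theorem rx40 (i : Fin 4) : Rp40 (x i) (oT40 i.castSucc i.succ) := rT40 _ (by revert i; decide +kernel)

private theorem ry40 (i : Fin 4) : Rp40 (y i) (oT40 i.succ i.castSucc) := rT40 _ (by revert i; decide +kernel)

private theorem rn40 (i : Fin 4) : Rp40 (n i) (oN40 i) := fun c hc =>
  have e : ∀ i : Fin 4, ∀ c < 32, (∀ a, vc40 c (Equiv.swap i.castSucc i.succ a) = vc40 (oN40 i c) a) ∧ oN40 i c < 32 := by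
    decide +kernel
  ⟨funext fun a => (P_mul_val (Equiv.swap i.castSucc i.succ) (Matrix.of fun k _ => vc40 c k) a 0).trans ((e i c hc).1 a),
    (e i c hc).2⟩

theorem rel_x : Rel x n where
  xx := fun i => ((rx40 i).mul (rx40 i)).eq
    Rp40.one (by revert i; decide +kernel)
  nn := fun i => ((rn40 i).mul (rn40 i)).eq
    Rp40.one (by revert i; decide +kernel)
  xn := fun i => (((rx40 i).mul (rn40 i)).mul (rx40 i)).eq
    (((rn40 i).mul (rx40 i)).mul (rn40 i)) (by revert i; decide +kernel)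
  fx := fun i j h => ((rx40 i).mul (rx40 j)).eq
    ((rx40 j).mul (rx40 i)) (by revert i j; decide +kernel)
  fn := fun i j h => ((rn40 i).mul (rn40 j)).eq
    ((rn40 j).mul (rn40 i)) (by revert i j; decide +kernel)
  fxn := fun i j h => ((rx40 i).mul (rn40 j)).eq
    ((rn40 j).mul (rx40 i)) (by revert i j; decide +kernel)
  a1 := fun i j h => (((rn40 i).mul (rx40 j)).mul (rn40 i)).eq
    ((((rx40 i).mul (rx40 j)).mul (rx40 i)).mul (rx40 j)) (by revert i j; decide +kernel)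
  a2 := fun i j h => (((rn40 i).mul (((rx40 i).mul (rx40 j)).mul (rx40 i))).mul (rn40 i)).eq
    (((rx40 i).mul (rx40 j)).mul (rx40 i)) (by revert i j; decide +kernel)
  e1 := fun i j h => (((rn40 i).mul (rn40 j)).mul (rn40 i)).eq
    (((rn40 j).mul (rn40 i)).mul (rn40 j)) (by revert i j; decide +kernel)
  e2 := fun i j h => ((((rx40 i).mul (rn40 i)).mul (rn40 j)).mul (rn40 i)).eq
    ((((rn40 j).mul (rn40 i)).mul (rx40 j)).mul (rn40 j)) (by revert i j; decide +kernel)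
  e3 := fun i j h => ((((rn40 i).mul (rx40 j)).mul (rn40 j)).mul (rn40 i)).eq
    ((((rn40 j).mul (rx40 i)).mul (rn40 i)).mul (rn40 j)) (by revert i j; decide +kernel)
  e5 := fun i j h => (((((rx40 i).mul (rn40 i)).mul (rx40 j)).mul (rn40 j)).mul (rn40 i)).eq
    (((((rn40 j).mul (rx40 i)).mul (rn40 i)).mul (rx40 j)).mul (rn40 j)) (by revert i j; decide +kernel)
  e6 := fun i j h => (((((rx40 i).mul (rn40 i)).mul (rn40 j)).mul (rx40 i)).mul (rn40 i)).eq
    ((((((rx40 j).mul (rn40 j)).mul (rx40 i)).mul (rn40 i)).mul (rx40 j)).mul (rn40 j)) (by revert i j; decide +kernel)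

theorem rel_y : Rel y n where
  xx := fun i => ((ry40 i).mul (ry40 i)).eq
    Rp40.one (by revert i; decide +kernel)
  nn := rel_x.nn
  xn := fun i => (((ry40 i).mul (rn40 i)).mul (ry40 i)).eq
    (((rn40 i).mul (ry40 i)).mul (rn40 i)) (by revert i; decide +kernel)
  fx := fun i j h => ((ry40 i).mul (ry40 j)).eq
    ((ry40 j).mul (ry40 i)) (by revert i j; decide +kernel)
  fn := rel_x.fn
  fxn := fun i j h => ((ry40 i).mul (rn40 j)).eq
    ((rn40 j).mul (ry40 i)) (by revert i j; decide +kernel)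
  a1 := fun i j h => (((rn40 i).mul (ry40 j)).mul (rn40 i)).eq
    ((((ry40 i).mul (ry40 j)).mul (ry40 i)).mul (ry40 j)) (by revert i j; decide +kernel)
  a2 := fun i j h => (((rn40 i).mul (((ry40 i).mul (ry40 j)).mul (ry40 i))).mul (rn40 i)).eq
    (((ry40 i).mul (ry40 j)).mul (ry40 i)) (by revert i j; decide +kernel)
  e1 := rel_x.e1
  e2 := fun i j h => ((((ry40 i).mul (rn40 i)).mul (rn40 j)).mul (rn40 i)).eq
    ((((rn40 j).mul (rn40 i)).mul (ry40 j)).mul (rn40 j)) (by revert i j; decide +kernel)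
  e3 := fun i j h => ((((rn40 i).mul (ry40 j)).mul (rn40 j)).mul (rn40 i)).eq
    ((((rn40 j).mul (ry40 i)).mul (rn40 i)).mul (rn40 j)) (by revert i j; decide +kernel)
  e5 := fun i j h => (((((ry40 i).mul (rn40 i)).mul (ry40 j)).mul (rn40 j)).mul (rn40 i)).eq
    (((((rn40 j).mul (ry40 i)).mul (rn40 i)).mul (ry40 j)).mul (rn40 j)) (by revert i j; decide +kernel)
  e6 := fun i j h => (((((ry40 i).mul (rn40 i)).mul (rn40 j)).mul (ry40 i)).mul (rn40 i)).eq
    ((((((ry40 j).mul (rn40 j)).mul (ry40 i)).mul (rn40 i)).mul (ry40 j)).mul (rn40 j)) (by revert i j; decide +kernel)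

/-- the twist -/
theorem y_eq (i : Fin 4) : y i = x i * n i * x i := by
  apply Subtype.ext; revert i; (refine of_decide_eq_true ?_; (try (rewrite [Cfsg.Agent.LsF.fb7fa25_1.2, Cfsg.Agent.LsF.instSLMul_eq, Cfsg.Agent.LsF.zdecEq_eq, Cfsg.Agent.LsF.dMat_eq, Cfsg.Agent.LsF.dForallFin_eq, Cfsg.Agent.LsF.decide_eq])); decide +kernel)

end Cfsg.Agent.H338.L5
end

-- part: H338/L5Eigen
section
/-!
# Eigenvectors of the 0-Hecke operators (helper338)
-/

set_option autoImplicit false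

namespace Cfsg.Agent.H338.L5

/-- Idempotent operators with the braid relations of type `A₄` have a common eigenvector. -/
theorem exists_eigen {E : Type*} (z : E) (T : Fin 4 → E → E) (h0 : ∀ i, T i z = z)
    (idem : ∀ i e, T i (T i e) = T i e)
    (comm : ∀ i j : Fin 4, (i : ℕ) + 1 < j ∨ (j : ℕ) + 1 < i → ∀ e, T i (T j e) = T j (T i e))
    (braid : ∀ i j : Fin 4, (i : ℕ) + 1 = j ∨ (j : ℕ) + 1 = i →
      ∀ e, T i (T j (T i e)) = T j (T i (T j e)))
    (e : E) (he : e ≠ z) : ∃ u, u ≠ z ∧ ∀ i, T i u = u ∨ T i u = z := by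
  have c02 := comm 0 2 (by decide)
  have c03 := comm 0 3 (by decide)
  have c13 := comm 1 3 (by decide)
  have b01 := braid 0 1 (by decide)
  have b12 := braid 1 2 (by decide)
  have b23 := braid 2 3 (by decide)
  -- image of an eigenvector
  have ap : ∀ (f : E → E), f z = z → ∀ v w : E, (w = v ∨ w = z) → f w = f v ∨ f w = z := by
    intro f hf v w h
    rcases h with rfl | rfl
    · exact Or.inl rfl
    · exact Or.inr hf
  -- step 1
  obtain ⟨e1, he1, h10⟩ : ∃ u, u ≠ z ∧ (T 0 u = u ∨ T 0 u = z) := by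
    by_cases h : T 0 e = z
    · exact ⟨e, he, Or.inr h⟩
    · exact ⟨T 0 e, h, Or.inl (idem 0 e)⟩
  -- step 2
  obtain ⟨e2, he2, h20, h21⟩ : ∃ u, u ≠ z ∧ (T 0 u = u ∨ T 0 u = z) ∧ (T 1 u = u ∨ T 1 u = z) := by
    by_cases h1 : T 1 e1 = z
    · exact ⟨e1, he1, h10, Or.inr h1⟩
    by_cases h2 : T 0 (T 1 e1) = z
    · exact ⟨T 1 e1, h1, Or.inr h2, Or.inl (idem 1 _)⟩
    · refine ⟨T 0 (T 1 e1), h2, Or.inl (idem 0 _), ?_⟩
      rw [← b01]
      exact ap (fun v => T 0 (T 1 v)) (by simp only [h0]) _ _ h10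
  -- step 3
  obtain ⟨e3, he3, h30, h31, h32⟩ : ∃ u, u ≠ z ∧ (T 0 u = u ∨ T 0 u = z) ∧
      (T 1 u = u ∨ T 1 u = z) ∧ (T 2 u = u ∨ T 2 u = z) := by
    by_cases h1 : T 2 e2 = z
    · exact ⟨e2, he2, h20, h21, Or.inr h1⟩
    by_cases h2 : T 1 (T 2 e2) = z
    · refine ⟨T 2 e2, h1, ?_, Or.inr h2, Or.inl (idem 2 _)⟩
      rw [c02]
      exact ap (T 2) (h0 2) _ _ h20
    by_cases h3 : T 0 (T 1 (T 2 e2)) = z
    · refine ⟨T 1 (T 2 e2), h2, Or.inr h3, Or.inl (idem 1 _), ?_⟩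
      rw [← b12]
      exact ap (fun v => T 1 (T 2 v)) (by simp only [h0]) _ _ h21
    · refine ⟨T 0 (T 1 (T 2 e2)), h3, Or.inl (idem 0 _), ?_, ?_⟩
      · rw [← b01, c02]
        exact ap (fun v => T 0 (T 1 (T 2 v))) (by simp only [h0]) _ _ h20
      · rw [← c02, ← b12]
        exact ap (fun v => T 0 (T 1 (T 2 v))) (by simp only [h0]) _ _ h21
  -- step 4
  by_cases h1 : T 3 e3 = z
  · refine ⟨e3, he3, ?_⟩
    intro i
    fin_cases i
    · exact h30
    · exact h31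
    · exact h32
    · exact Or.inr h1
  by_cases h2 : T 2 (T 3 e3) = z
  · refine ⟨T 3 e3, h1, ?_⟩
    intro i
    fin_cases i
    · show T 0 (T 3 e3) = _ ∨ T 0 (T 3 e3) = _
      rw [c03]
      exact ap (T 3) (h0 3) _ _ h30
    · show T 1 (T 3 e3) = _ ∨ T 1 (T 3 e3) = _
      rw [c13]
      exact ap (T 3) (h0 3) _ _ h31
    · exact Or.inr h2
    · exact Or.inl (idem 3 _)
  by_cases h3 : T 1 (T 2 (T 3 e3)) = z
  · refine ⟨T 2 (T 3 e3), h2, ?_⟩
    intro i
    fin_cases i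
    · show T 0 (T 2 (T 3 e3)) = _ ∨ T 0 (T 2 (T 3 e3)) = _
      rw [c02, c03]
      exact ap (fun v => T 2 (T 3 v)) (by simp only [h0]) _ _ h30
    · exact Or.inr h3
    · exact Or.inl (idem 2 _)
    · show T 3 (T 2 (T 3 e3)) = _ ∨ T 3 (T 2 (T 3 e3)) = _
      rw [← b23]
      exact ap (fun v => T 2 (T 3 v)) (by simp only [h0]) _ _ h32
  by_cases h4 : T 0 (T 1 (T 2 (T 3 e3))) = z
  · refine ⟨T 1 (T 2 (T 3 e3)), h3, ?_⟩
    intro i
    fin_cases i
    · exact Or.inr h4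
    · exact Or.inl (idem 1 _)
    · show T 2 (T 1 (T 2 (T 3 e3))) = _ ∨ T 2 (T 1 (T 2 (T 3 e3))) = _
      rw [← b12, c13]
      exact ap (fun v => T 1 (T 2 (T 3 v))) (by simp only [h0]) _ _ h31
    · show T 3 (T 1 (T 2 (T 3 e3))) = _ ∨ T 3 (T 1 (T 2 (T 3 e3))) = _
      rw [← c13, ← b23]
      exact ap (fun v => T 1 (T 2 (T 3 v))) (by simp only [h0]) _ _ h32
  · refine ⟨T 0 (T 1 (T 2 (T 3 e3))), h4, ?_⟩
    intro i
    fin_cases i
    · exact Or.inl (idem 0 _)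
    · show T 1 (T 0 (T 1 (T 2 (T 3 e3)))) = _ ∨ T 1 (T 0 (T 1 (T 2 (T 3 e3)))) = _
      rw [← b01, c02, c03]
      exact ap (fun v => T 0 (T 1 (T 2 (T 3 v)))) (by simp only [h0]) _ _ h30
    · show T 2 (T 0 (T 1 (T 2 (T 3 e3)))) = _ ∨ T 2 (T 0 (T 1 (T 2 (T 3 e3)))) = _
      rw [← c02, ← b12, c13]
      exact ap (fun v => T 0 (T 1 (T 2 (T 3 v)))) (by simp only [h0]) _ _ h31
    · show T 3 (T 0 (T 1 (T 2 (T 3 e3)))) = _ ∨ T 3 (T 0 (T 1 (T 2 (T 3 e3)))) = _
      rw [← c03, ← c13, ← b23]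
      exact ap (fun v => T 0 (T 1 (T 2 (T 3 v)))) (by simp only [h0]) _ _ h32

variable {M : Type*} [AddCommGroup M] {Γ : Type*} [Group Γ]

/-- Eigenvectors of the operators `n i + x i * n i`. -/
theorem exists_eig (h2 : ∀ m : M, m + m = 0) (φ : Γ →* AddMonoid.End M) {x n : Fin 4 → Γ}
    (R : Rel x n) {v0 : M} (hv0 : v0 ≠ 0) (hx0 : ∀ i, φ (x i) v0 = v0) :
    ∃ v : M, v ≠ 0 ∧ (∀ i, φ (x i) v = v) ∧
      ∀ i, φ (n i) v = v ∨ φ (n i) v + φ (x i * n i) v = v := by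
  let E := {m : M // ∀ i, φ (x i) m = m}
  have mul : ∀ (g h : Γ) (m : M), φ (g * h) m = φ g (φ h m) := fun g h m => by
    rw [map_mul]; rfl
  have tri : ∀ i j : Fin 4, i = j ∨ ((i : ℕ) + 1 < j ∨ (j : ℕ) + 1 < i) ∨
      ((i : ℕ) + 1 = j ∨ (j : ℕ) + 1 = i) := by decide
  let t : Fin 4 → M → M := fun i m => φ (n i) m + φ (x i * n i) m
  have tE : ∀ i (m : M), (∀ j, φ (x j) m = m) → ∀ j, φ (x j) (t i m) = t i m := by
    intro i m hm j
    show φ (x j) (φ (n i) m + φ (x i * n i) m) = φ (n i) m + φ (x i * n i) m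
    rw [map_add, ← mul, ← mul]
    rcases tri i j with rfl | h | h
    · rw [← mul_assoc, R.xx, one_mul, add_comm]
    · have h' : (j : ℕ) + 1 < i ∨ (i : ℕ) + 1 < j := h.symm
      rw [R.fxn j i h', mul (n i), hm, ← mul_assoc, R.fx j i h', mul_assoc, R.fxn j i h', ← mul_assoc,
        mul (x i * n i), hm]
    · congr 1
      · have e1 : x j * n i = n i * (x i * x j * x i * x j) := by
          rw [← R.a1 i j h, ← mul_assoc, ← mul_assoc, R.nn, one_mul]
        rw [e1]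
        simp only [mul, hm]
      · have e1 : x j * (x i * n i) = x i * n i * (x i * x j * x i) := by
          have := R.a2 i j h
          have h3 : (x i * x j * x i) * n i = n i * (x i * x j * x i) := by
            calc (x i * x j * x i) * n i = n i * (x i * x j * x i) * n i * n i := by rw [this]
              _ = n i * (x i * x j * x i) := by rw [mul_assoc (n i * (x i * x j * x i)), R.nn, mul_one]
          calc x j * (x i * n i) = x i * (x i * x j * x i * n i) := by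
                simp only [← mul_assoc]; rw [R.xx, one_mul]
            _ = _ := by rw [h3]; simp only [← mul_assoc]
        rw [e1]
        simp only [mul, hm]
  let TT : Fin 4 → E → E := fun i e => ⟨t i e.1, tE i e.1 e.2⟩
  have hadd : ∀ a b : M, a + b = 0 → a = b := fun a b h => by
    have : a + b = b + b := by rw [h, h2]
    exact add_right_cancel this
  have hidem : ∀ i (m : M), (∀ j, φ (x j) m = m) → t i (t i m) = t i m := by
    intro i m hm
    show φ (n i) (φ (n i) m + φ (x i * n i) m) + φ (x i * n i) (φ (n i) m + φ (x i * n i) m) =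
      φ (n i) m + φ (x i * n i) m
    rw [map_add, map_add, ← mul, ← mul, ← mul, ← mul, R.nn, map_one]
    have e1 : n i * (x i * n i) = x i * n i * x i := by rw [R.xn, mul_assoc]
    have e2 : x i * n i * n i = x i := by rw [mul_assoc, R.nn, mul_one]
    have e3 : x i * n i * (x i * n i) = n i * x i := by
      rw [mul_assoc, e1, ← mul_assoc, ← mul_assoc, R.xx, one_mul]
    rw [e1, e2, e3, mul (x i * n i), mul (n i), hm]
    show m + φ (x i * n i) m + (m + φ (n i) m) = _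
    have := h2 m
    calc m + φ (x i * n i) m + (m + φ (n i) m) = (m + m) + (φ (n i) m + φ (x i * n i) m) := by abel
      _ = _ := by rw [this, zero_add]
  obtain ⟨u, hu, hu2⟩ := exists_eigen (⟨0, fun i => map_zero _⟩ : E) TT
    (fun i => Subtype.ext (by
      show φ (n i) 0 + φ (x i * n i) 0 = 0
      rw [map_zero, map_zero, add_zero]))
    (fun i e => Subtype.ext (hidem i e.1 e.2))
    (fun i j h e => Subtype.ext (by
      show φ (n i) (φ (n j) e.1 + φ (x j * n j) e.1) + φ (x i * n i) (φ (n j) e.1 + φ (x j * n j) e.1)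
        = φ (n j) (φ (n i) e.1 + φ (x i * n i) e.1) + φ (x j * n j) (φ (n i) e.1 + φ (x i * n i) e.1)
      simp only [map_add, ← mul]
      have e1 := R.fn i j h
      have e2 : n i * (x j * n j) = x j * n j * n i := by
        rw [← mul_assoc, ← R.fxn j i h.symm, mul_assoc, e1, ← mul_assoc]
      have e3 : x i * n i * n j = n j * (x i * n i) := by
        rw [mul_assoc, e1, ← mul_assoc, R.fxn i j h, mul_assoc]
      have e4 : x i * n i * (x j * n j) = x j * n j * (x i * n i) := by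
        rw [mul_assoc, e2, ← mul_assoc, ← mul_assoc, R.fx i j h, mul_assoc (x j), R.fxn i j h]
        simp only [mul_assoc]
      rw [e1, e2, e3, e4]
      abel))
    (fun i j h e => Subtype.ext (by
      show φ (n i) (φ (n j) (φ (n i) e.1 + φ (x i * n i) e.1) +
          φ (x j * n j) (φ (n i) e.1 + φ (x i * n i) e.1)) +
        φ (x i * n i) (φ (n j) (φ (n i) e.1 + φ (x i * n i) e.1) +
          φ (x j * n j) (φ (n i) e.1 + φ (x i * n i) e.1)) =
        φ (n j) (φ (n i) (φ (n j) e.1 + φ (x j * n j) e.1) +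
          φ (x i * n i) (φ (n j) e.1 + φ (x j * n j) e.1)) +
        φ (x j * n j) (φ (n i) (φ (n j) e.1 + φ (x j * n j) e.1) +
          φ (x i * n i) (φ (n j) e.1 + φ (x j * n j) e.1))
      simp only [map_add, ← mul, ← mul_assoc]
      rw [R.e1 i j h, R.e2 i j h, R.e3 i j h, R.e5 i j h, R.e6 i j h, R.e2 j i h.symm,
        R.e5 j i h.symm, R.e6 j i h.symm]
      abel))
    ⟨v0, hx0⟩ (fun h => hv0 (congrArg Subtype.val h))
  refine ⟨u.1, fun h => hu (Subtype.ext h), u.2, ?_⟩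
  intro i
  rcases hu2 i with h | h
  · right
    exact congrArg Subtype.val h
  · left
    have h3 : φ (n i) u.1 + φ (x i * n i) u.1 = 0 := congrArg Subtype.val h
    have h4 := hadd _ _ h3
    have h5 := congrArg (φ (n i)) h4
    rw [← mul, ← mul, R.nn, map_one] at h5
    have e1 : n i * (x i * n i) = x i * n i * x i := by rw [R.xn, mul_assoc]
    rw [e1, mul (x i * n i), u.2, ← h4] at h5
    exact h5.symm

end Cfsg.Agent.H338.L5
end

-- part: H338/L5Uni
section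
/-!
# Unitriangular subgroups of `SL(5,2)` and their fixed points (helper338)
-/

set_option autoImplicit false

namespace Cfsg.Agent.H338.L5

open Matrix

theorem mem_pow_inv {g : X} {H : Submonoid X} (hg : g ∈ H) : g⁻¹ ∈ H := by
  have h1 : g ^ (orderOf g) = 1 := pow_orderOf_eq_one g
  have h2 : 0 < orderOf g := orderOf_pos g
  have h3 : g⁻¹ = g ^ (orderOf g - 1) := by
    rw [inv_eq_iff_mul_eq_one, ← pow_succ', Nat.sub_add_cancel h2, h1]
  rw [h3]
  exact pow_mem hg _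

/-- Unitriangular matrices with respect to the height `k`. -/
def Um (k : Fin 5 → ℕ) : Submonoid X where
  carrier := {g | ∀ i j, ¬ k j < k i → (g : Matrix (Fin 5) (Fin 5) (ZMod 2)) i j = if i = j then 1 else 0}
  one_mem' := by
    intro i j _
    show (1 : Matrix (Fin 5) (Fin 5) (ZMod 2)) i j = _
    rw [Matrix.one_apply]
  mul_mem' := by
    intro g h hg hh i j hij
    show ((g : Matrix (Fin 5) (Fin 5) (ZMod 2)) * (h : Matrix (Fin 5) (Fin 5) (ZMod 2))) i j = _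
    rw [Matrix.mul_apply, Finset.sum_eq_single i]
    · rw [hg i i (lt_irrefl _), if_pos rfl, one_mul, hh i j hij]
    · intro l _ hl
      by_cases hli : k l < k i
      · have h1 : ¬ k j < k l := fun h => hij (h.trans hli)
        rw [hh l j h1, if_neg, mul_zero]
        rintro rfl
        exact hij hli
      · rw [hg i l hli, if_neg (Ne.symm hl), zero_mul]
    · intro h; exact absurd (Finset.mem_univ _) h

def U (k : Fin 5 → ℕ) : Subgroup X := { Um k with inv_mem' := fun h => mem_pow_inv (H := Um k) h }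

theorem mem_U {k : Fin 5 → ℕ} {g : X} : g ∈ U k ↔ ∀ i j, ¬ k j < k i →
    (g : Matrix (Fin 5) (Fin 5) (ZMod 2)) i j = if i = j then 1 else 0 := Iff.rfl

theorem isPGroup_U (k : Fin 5 → ℕ) (hk : ∀ i, k i ≤ 4) : IsPGroup 2 (U k) := by
  rintro ⟨g, hg⟩
  refine ⟨3, Subtype.ext (Subtype.ext ?_)⟩
  show (g : Matrix (Fin 5) (Fin 5) (ZMod 2)) ^ (2 ^ 3) = 1
  let N : Matrix (Fin 5) (Fin 5) (ZMod 2) := (g : Matrix (Fin 5) (Fin 5) (ZMod 2)) - 1
  have hN : ∀ m : ℕ, ∀ i j, k i < k j + m → (N ^ m) i j = 0 := by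
    intro m
    induction m with
    | zero =>
      intro i j h
      rw [pow_zero, Matrix.one_apply, if_neg]
      rintro rfl
      omega
    | succ m ih =>
      intro i j h
      rw [pow_succ', Matrix.mul_apply]
      apply Finset.sum_eq_zero
      intro l _
      by_cases hl : k l < k i
      · rw [ih l j (by omega), mul_zero]
      · have h3 : N i l = 0 := by
          show (g : Matrix (Fin 5) (Fin 5) (ZMod 2)) i l - (1 : Matrix (Fin 5) (Fin 5) (ZMod 2)) i l = 0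
          rw [hg i l hl, Matrix.one_apply, sub_self]
        rw [h3, zero_mul]
  have hN8 : N ^ (2 ^ 3) = 0 := by
    ext i j
    rw [Matrix.zero_apply]
    exact hN _ i j (by have := hk i; omega)
  have h1 : (g : Matrix (Fin 5) (Fin 5) (ZMod 2)) = 1 + N := by
    show _ = 1 + ((g : Matrix (Fin 5) (Fin 5) (ZMod 2)) - 1)
    abel
  rw [h1, add_pow_char_pow_of_commute (p := 2) (n := 3) (Commute.one_left N), one_pow, hN8, add_zero]

theorem T_mem_U {k : Fin 5 → ℕ} {i j : Fin 5} (h : i ≠ j) (hij : k j < k i) : T h ∈ U k := by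
  rw [mem_U]
  intro a b hab
  rw [T_val, Matrix.add_apply, Matrix.one_apply, Matrix.single_apply, if_neg (c := i = a ∧ j = b),
    add_zero]
  rintro ⟨rfl, rfl⟩
  exact hab hij

def up : Fin 5 → ℕ := fun i => 4 - i
def lo : Fin 5 → ℕ := fun i => i

theorem x_mem (i : Fin 4) : x i ∈ U up := T_mem_U _ (by revert i; decide)
theorem y_mem (i : Fin 4) : y i ∈ U lo := T_mem_U _ (by revert i; decide)

variable {M : Type*} [AddCommGroup M]

/-- Fixed vectors of 2-groups. -/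
theorem exists_fixed [Finite M] [Nontrivial M] (h2 : ∀ m : M, m + m = 0)
    (φ : X →* AddMonoid.End M) (H : Subgroup X) (hH : IsPGroup 2 H) :
    ∃ v : M, v ≠ 0 ∧ ∀ g ∈ H, φ g v = v := by
  have : Fact (Nat.Prime 2) := ⟨Nat.prime_two⟩
  let act : MulAction H M :=
    { smul := fun g m => φ (g : X) m
      one_smul := fun m => by
        show φ ((1 : H) : X) m = m
        rw [Subgroup.coe_one, map_one]; rfl
      mul_smul := fun g h m => by
        show φ ((g * h : H) : X) m = φ (g : X) (φ (h : X) m)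
        rw [Subgroup.coe_mul, map_mul]; rfl }
  have hcard : 2 ∣ Nat.card M := by
    obtain ⟨m, hm⟩ := exists_ne (0 : M)
    have h1 : addOrderOf m = 2 := by
      apply addOrderOf_eq_prime
      · rw [two_nsmul]; exact h2 m
      · exact hm
    rw [← h1]
    exact addOrderOf_dvd_natCard m
  have h0 : (0 : M) ∈ MulAction.fixedPoints H M := fun g => by
    show φ (g : X) 0 = 0
    exact map_zero _
  obtain ⟨b, hb, hne⟩ := hH.exists_fixed_point_of_prime_dvd_card_of_fixed_point (α := M) hcard h0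
  exact ⟨b, fun h => hne h.symm, fun g hg => hb ⟨g, hg⟩⟩

end Cfsg.Agent.H338.L5
end

-- part: H338/L5Eig
section
/-!
# Eigenfunctionals (helper338)
-/

set_option autoImplicit false

namespace Cfsg.Agent.H338.L5

variable {M : Type*} [AddCommGroup M]

/-- The dual module. -/
def dual (φ : X →* AddMonoid.End M) : X →* AddMonoid.End (M →+ ZMod 2) where
  toFun g :=
    { toFun := fun f => f.comp (φ g⁻¹)
      map_zero' := by ext m; rfl
      map_add' := fun f f' => by ext m; rfl }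
  map_one' := by
    ext f m
    show f (φ (1 : X)⁻¹ m) = f m
    rw [inv_one, map_one]; rfl
  map_mul' := fun g h => by
    ext f m
    show f (φ (g * h)⁻¹ m) = f (φ h⁻¹ (φ g⁻¹ m))
    rw [mul_inv_rev, map_mul]; rfl

theorem dual_apply (φ : X →* AddMonoid.End M) (g : X) (f : M →+ ZMod 2) (m : M) :
    dual φ g f m = f (φ g⁻¹ m) := rfl

theorem mulφ (φ : X →* AddMonoid.End M) (g h : X) (m : M) : φ (g * h) m = φ g (φ h m) := by
  rw [map_mul]; rfl

theorem oneφ (φ : X →* AddMonoid.End M) (m : M) : φ 1 m = m := by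
  rw [map_one]; rfl

/-- Eigenfunctionals. -/
structure Eig (φ : X →* AddMonoid.End M) (f : M →+ ZMod 2) (D : Fin 4 → Prop) : Prop where
  ne : f ≠ 0
  yy : ∀ i m, f (φ (y i) m) = f m
  nn : ∀ i, ¬ D i → ∀ m, f (φ (n i) m) = f m
  xx : ∀ i, D i → ∀ m, f (φ (x i) m) = f m + f (φ (n i) m)

theorem exists_functional (h2 : ∀ m : M, m + m = 0) {m : M} (hm : m ≠ 0) :
    ∃ f : M →+ ZMod 2, f m ≠ 0 := by
  let inst : Module (ZMod 2) M := AddCommGroup.zmodModule (n := 2) (by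
    intro x; rw [two_nsmul]; exact h2 x)
  by_contra hcon
  push Not at hcon
  apply hm
  rw [← Module.forall_dual_apply_eq_zero_iff (ZMod 2)]
  intro f
  exact hcon f.toAddMonoidHom

theorem exists_Eig [Finite M] [Nontrivial M] (h2 : ∀ m : M, m + m = 0)
    (φ : X →* AddMonoid.End M) : ∃ (f : M →+ ZMod 2) (D : Fin 4 → Prop), Eig φ f D := by
  have : Finite (M →+ ZMod 2) := Finite.of_injective _ DFunLike.coe_injective
  have : Nontrivial (M →+ ZMod 2) := by
    obtain ⟨m, hm⟩ := exists_ne (0 : M)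
    obtain ⟨f, hf⟩ := exists_functional h2 hm
    exact ⟨⟨f, 0, fun h => hf (by rw [h]; rfl)⟩⟩
  have h2' : ∀ f : M →+ ZMod 2, f + f = 0 := fun f => by
    ext m
    show f m + f m = 0
    exact CharTwo.add_self_eq_zero _
  obtain ⟨f0, hf0, hf1⟩ := exists_fixed h2' (dual φ) (U lo) (isPGroup_U lo (by decide))
  obtain ⟨f, hf, hfy, hfn⟩ := exists_eig h2' (dual φ) rel_y hf0 (fun i => hf1 _ (y_mem i))
  have hyinv : ∀ i, (y i)⁻¹ = y i := fun i => inv_eq_of_mul_eq_one_left (rel_y.xx i)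
  have hninv : ∀ i, (n i)⁻¹ = n i := fun i => inv_eq_of_mul_eq_one_left (rel_y.nn i)
  refine ⟨f, fun i => ¬ ∀ m, f (φ (n i) m) = f m, hf, ?_, ?_, ?_⟩
  · intro i m
    have h1 := congrArg (fun g : M →+ ZMod 2 => g m) (hfy i)
    simp only [dual_apply, hyinv] at h1
    exact h1
  · intro i hi
    exact not_not.1 hi
  · intro i hi m
    rcases hfn i with h | h
    · exfalso
      apply hi
      intro m
      have h1 := congrArg (fun g : M →+ ZMod 2 => g m) h
      simp only [dual_apply, hninv] at h1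
      exact h1
    · have h1 := congrArg (fun g : M →+ ZMod 2 => g (φ (n i) m)) h
      have h1' : dual φ (n i) f (φ (n i) m) + dual φ (y i * n i) f (φ (n i) m) = f (φ (n i) m) := h1
      rw [dual_apply, dual_apply, mul_inv_rev, hninv, hyinv, ← mulφ, ← mulφ, rel_y.nn, oneφ] at h1'
      have h3 : n i * y i * n i = x i := by
        rw [y_eq]
        have h4 := rel_x.xn i
        rw [h4]
        simp only [← mul_assoc]
        rw [rel_x.nn, one_mul, mul_assoc, rel_x.nn, mul_one]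
      rw [h3] at h1'
      rw [← h1', ← add_assoc, CharTwo.add_self_eq_zero, zero_add]

end Cfsg.Agent.H338.L5
end

-- part: H338/L5One
section
/-!
# The natural module of `SL(5,2)` (helper338)
-/

set_option autoImplicit false

namespace Cfsg.Agent.H338.L5

open Equiv

variable {M : Type*} [AddCommGroup M] {φ : X →* AddMonoid.End M} {f : M →+ ZMod 2}
  {D : Fin 4 → Prop}

/-- Simple reflections. -/
def s (i : Fin 4) : Perm (Fin 5) := Equiv.swap i.castSucc i.succ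

theorem P_s (i : Fin 4) : P (s i) = n i := rfl

theorem Eig.word (E : Eig φ f D) (w : List (Fin 4)) (hw : ∀ i ∈ w, ¬ D i) (m : M) :
    f (φ (P (w.map s).prod) m) = f m := by
  induction w with
  | nil => rw [List.map_nil, List.prod_nil, map_one, oneφ]
  | cons i w ih =>
    rw [List.map_cons, List.prod_cons, map_mul, mulφ, P_s, E.nn i (hw i (List.mem_cons_self ..)),
      ih (fun j hj => hw j (List.mem_cons_of_mem _ hj))]

def words0 : List (List (Fin 4)) :=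
  (([[], [1], [2, 1], [3, 2, 1]] : List (List (Fin 4))).flatMap fun a =>
    ([[], [2], [3, 2]] : List (List (Fin 4))).flatMap fun b =>
      ([[], [3]] : List (List (Fin 4))).map fun c => a ++ b ++ c)

theorem words0_spec : ∀ τ : Perm (Fin 5), τ 0 = 0 → ∃ w ∈ words0, (w.map s).prod = τ := by
  simp only [↓Cfsg.Agent.PermCode.M, Cfsg.Agent.PermCode.P5.R, Cfsg.Agent.PermCode.B]
  decide +kernel

theorem words0_ne : ∀ w ∈ words0, ∀ i ∈ w, i ≠ 0 := by decide

theorem Eig.perm0 (E : Eig φ f D) (h1 : ¬ D 1) (h2 : ¬ D 2) (h3 : ¬ D 3) (τ : Perm (Fin 5))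
    (hτ : τ 0 = 0) (m : M) : f (φ (P τ) m) = f m := by
  obtain ⟨w, hw, rfl⟩ := words0_spec τ hτ
  apply E.word
  intro i hi
  have := words0_ne w hw i hi
  fin_cases i
  · exact absurd rfl this
  · exact h1
  · exact h2
  · exact h3

theorem T_conj (τ : Perm (Fin 5)) {i j r s : Fin 5} (h : i ≠ j) (h' : r ≠ s) (hr : τ i = r)
    (hs : τ j = s) : T h' = P τ * T h * P τ⁻¹ := by
  subst hr; subst hs
  rw [P_conj_T, mul_assoc, ← map_mul, mul_inv_cancel, map_one, mul_one]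

theorem exP_y0 : ∀ r : Fin 5, r ≠ 0 → ∃ τ : Perm (Fin 5), τ 0 = 0 ∧ τ 1 = r := by (simp only [↓Cfsg.Agent.PermCode.M, Cfsg.Agent.PermCode.P5.R, Cfsg.Agent.PermCode.B]; decide +kernel)

theorem exP_y1 : ∀ r s : Fin 5, r ≠ 0 → s ≠ 0 → r ≠ s →
    ∃ τ : Perm (Fin 5), τ 0 = 0 ∧ τ 2 = r ∧ τ 1 = s := by (simp only [↓Cfsg.Agent.PermCode.M, Cfsg.Agent.PermCode.P5.R, Cfsg.Agent.PermCode.B]; decide +kernel)

theorem Eig.T0 (E : Eig φ f D) (h1 : ¬ D 1) (h2 : ¬ D 2) (h3 : ¬ D 3) {r s : Fin 5} (h : r ≠ s)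
    (hr : r ≠ 0) (m : M) : f (φ (T h) m) = f m := by
  have hf := E.perm0 h1 h2 h3
  by_cases hs : s = 0
  · subst hs
    obtain ⟨τ, hτ0, hτ1⟩ := exP_y0 r hr
    have e : T h = P τ * y 0 * P τ⁻¹ := T_conj τ _ h hτ1 hτ0
    rw [e, mulφ, mulφ, hf τ hτ0, E.yy, hf τ⁻¹ (by rw [Perm.inv_eq_iff_eq]; exact hτ0.symm)]
  · obtain ⟨τ, hτ0, hτ2, hτ1⟩ := exP_y1 r s hr hs h
    have e : T h = P τ * y 1 * P τ⁻¹ := T_conj τ _ h hτ2 hτ1
    rw [e, mulφ, mulφ, hf τ hτ0, E.yy, hf τ⁻¹ (by rw [Perm.inv_eq_iff_eq]; exact hτ0.symm)]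

theorem Eig.T0' (E : Eig φ f D) (h0 : D 0) (h1 : ¬ D 1) (h2 : ¬ D 2) (h3 : ¬ D 3) {s : Fin 5}
    (h : 0 ≠ s) (m : M) : f (φ (T h) m) = f m + f (φ (P (swap 0 s)) m) := by
  have hf := E.perm0 h1 h2 h3
  obtain ⟨τ, hτ0, hτ1⟩ := exP_y0 s (Ne.symm h)
  have e : T h = P τ * x 0 * P τ⁻¹ := T_conj τ _ h hτ0 hτ1
  have hi : τ⁻¹ 0 = 0 := by rw [Perm.inv_eq_iff_eq]; exact hτ0.symm
  rw [e, mulφ, mulφ, hf τ hτ0, E.xx 0 h0, hf τ⁻¹ hi]
  congr 1
  have e2 : n 0 * P τ⁻¹ = P τ⁻¹ * P (swap 0 s) := by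
    rw [← P_s, ← map_mul, ← map_mul]
    congr 1
    have h5 : swap 0 s = τ * (Cfsg.Agent.H338.L5.s 0) * τ⁻¹ := by
      show swap 0 s = τ * swap 0 1 * τ⁻¹
      rw [mul_swap_eq_swap_mul, hτ0, hτ1, mul_assoc, mul_inv_cancel, mul_one]
    rw [h5]
    simp only [← mul_assoc, inv_mul_cancel, one_mul]
  rw [← mulφ, e2, mulφ, hf τ⁻¹ hi]

/-- The module is small for `D = {0}`. -/
theorem Eig.card_le [Finite M] (E : Eig φ f D)
    (hirr : ∀ W : AddSubgroup M, (∀ g, ∀ m ∈ W, φ g m ∈ W) → W = ⊥ ∨ W = ⊤)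
    (h0 : D 0) (h1 : ¬ D 1) (h2 : ¬ D 2) (h3 : ¬ D 3) : Nat.card M ≤ 2 ^ 5 := by
  have hf := E.perm0 h1 h2 h3
  let ψ : M →+ (Fin 5 → ZMod 2) :=
    { toFun := fun m a => f (φ (P (swap 0 a)) m)
      map_zero' := by funext a; simp
      map_add' := fun m m' => by funext a; simp }
  have hψ : ∀ m a, ψ m a = f (φ (P (swap 0 a)) m) := fun m a => rfl
  -- any permutation mapping `a` to `0`
  have key : ∀ (τ : Perm (Fin 5)) (a : Fin 5), τ a = 0 → ∀ m, f (φ (P τ) m) = ψ m a := by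
    intro τ a hτ m
    rw [hψ]
    have e : P τ = P (τ * swap 0 a) * P (swap 0 a) := by
      rw [← map_mul, mul_assoc, swap_mul_self, mul_one]
    rw [e, mulφ, hf]
    rw [Perm.mul_apply, swap_apply_left, hτ]
  have hT : ∀ (c d : Fin 5) (h : c ≠ d) (a : Fin 5) (m : M), ψ (φ (T h) m) a =
      ψ m a + if a = c then ψ m d else 0 := by
    intro c d h a m
    rw [hψ, ← mulφ, P_conj_T, mulφ]
    by_cases hac : a = c
    · subst hac
      have h6 : swap 0 a a = 0 := swap_apply_right _ _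
      rw [if_pos rfl]
      have h7 : (0 : Fin 5) ≠ swap 0 a d := fun h8 => h ((swap 0 a).injective (h6.trans h8))
      have h8 : T ((swap 0 a).injective.ne h) = T h7 := by
        congr 1
      rw [h8, E.T0' h0 h1 h2 h3, hψ]
      congr 1
      rw [← mulφ, ← map_mul]
      apply key
      rw [Perm.mul_apply, swap_apply_right]
    · rw [if_neg hac, add_zero, E.T0 h1 h2 h3, hψ]
      intro h6
      apply hac
      have h7 : swap 0 a c = swap 0 a a := by rw [h6, swap_apply_right]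
      exact ((swap 0 a).injective h7).symm
  have hinj : Function.Injective ψ := by
    rw [injective_iff_map_eq_zero']
    have hW : ∀ g, ∀ m ∈ ψ.ker, φ g m ∈ ψ.ker := by
      intro g
      have hg : g ∈ Subgroup.closure {g : X | ∃ (i j : Fin 5) (h : i ≠ j), g = T h} := by
        rw [closure_T]; trivial
      induction hg using Subgroup.closure_induction with
      | mem g hg =>
        obtain ⟨i, j, h, rfl⟩ := hg
        intro m hm
        rw [AddMonoidHom.mem_ker] at hm ⊢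
        funext a
        rw [hT, hm]
        simp
      | one => intro m hm; rw [oneφ]; exact hm
      | mul g h _ _ hg hh => intro m hm; rw [mulφ]; exact hg _ (hh _ hm)
      | inv g _ hg =>
        intro m hm
        -- finite order
        have h1 : ∀ k : ℕ, ∀ m ∈ ψ.ker, φ (g ^ k) m ∈ ψ.ker := by
          intro k
          induction k with
          | zero => intro m hm; rw [pow_zero, oneφ]; exact hm
          | succ k ih => intro m hm; rw [pow_succ, mulφ]; exact ih _ (hg _ hm)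
        have h2 : g⁻¹ = g ^ (orderOf g - 1) := by
          rw [inv_eq_iff_mul_eq_one, ← pow_succ', Nat.sub_add_cancel (orderOf_pos g),
            pow_orderOf_eq_one g]
        rw [h2]
        exact h1 _ m hm
    rcases hirr ψ.ker hW with h | h
    · intro m
      constructor
      · intro hm
        have : m ∈ ψ.ker := hm
        rw [h] at this
        exact this
      · rintro rfl; exact map_zero _
    · exfalso
      apply E.ne
      ext m
      have h5 : m ∈ ψ.ker := by rw [h]; trivial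
      have h6 := congrFun (AddMonoidHom.mem_ker.1 h5) 0
      rw [hψ, swap_self] at h6
      have h7 : P (Equiv.refl (Fin 5)) = 1 := map_one P
      rw [h7, oneφ] at h6
      exact h6
  have h5 := Nat.card_le_card_of_injective ψ hinj
  refine h5.trans ?_
  rw [Nat.card_fun]
  simp

end Cfsg.Agent.H338.L5
end

-- part: H338/L5Two
section
/-!
# The exterior square of the natural module of `SL(5,2)` (helper338)
-/

set_option autoImplicit false

namespace Cfsg.Agent.H338.L5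

open Equiv Matrix

/-- Alternating matrices. -/
def Alt : AddSubgroup (Matrix (Fin 5) (Fin 5) (ZMod 2)) where
  carrier := {B | (∀ a b, B a b = B b a) ∧ ∀ a, B a a = 0}
  zero_mem' := ⟨fun _ _ => rfl, fun _ => rfl⟩
  add_mem' := fun h h' => ⟨fun a b => by rw [Matrix.add_apply, Matrix.add_apply, h.1, h'.1],
    fun a => by rw [Matrix.add_apply, h.2, h'.2, add_zero]⟩
  neg_mem' := fun h => ⟨fun a b => by rw [Matrix.neg_apply, Matrix.neg_apply, h.1],
    fun a => by rw [Matrix.neg_apply, h.2, neg_zero]⟩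

theorem card_Alt_le : Nat.card Alt ≤ 2 ^ 10 := by
  let F : Alt → (Fin 10 → ZMod 2) := fun B =>
    ![B.1 0 1, B.1 0 2, B.1 0 3, B.1 0 4, B.1 1 2, B.1 1 3, B.1 1 4, B.1 2 3, B.1 2 4, B.1 3 4]
  have hF : Function.Injective F := by
    rintro ⟨B, hB⟩ ⟨C, hC⟩ h
    have h0 : B 0 1 = C 0 1 := congrFun h 0
    have h1 : B 0 2 = C 0 2 := congrFun h 1
    have h2 : B 0 3 = C 0 3 := congrFun h 2
    have h3 : B 0 4 = C 0 4 := congrFun h 3
    have h4 : B 1 2 = C 1 2 := congrFun h 4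
    have h5 : B 1 3 = C 1 3 := congrFun h 5
    have h6 : B 1 4 = C 1 4 := congrFun h 6
    have h7 : B 2 3 = C 2 3 := congrFun h 7
    have h8 : B 2 4 = C 2 4 := congrFun h 8
    have h9 : B 3 4 = C 3 4 := congrFun h 9
    have key : ∀ a b : Fin 5, a < b → B a b = C a b := by
      intro a b hab
      fin_cases a <;> fin_cases b <;> first | exact absurd hab (by decide) | assumption
    apply Subtype.ext
    ext a b
    show B a b = C a b
    rcases lt_trichotomy a b with h | h | h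
    · exact key a b h
    · subst h; rw [hB.2, hC.2]
    · rw [hB.1, hC.1]; exact key b a h
  have h5 := Nat.card_le_card_of_injective F hF
  refine h5.trans ?_
  rw [Nat.card_fun]
  simp

variable {M : Type*} [AddCommGroup M] {φ : X →* AddMonoid.End M} {f : M →+ ZMod 2}
  {D : Fin 4 → Prop}

/-- `τ` preserves `{0, 1}`. -/
def Pres (τ : Perm (Fin 5)) : Prop := (τ 0 = 0 ∨ τ 0 = 1) ∧ (τ 1 = 0 ∨ τ 1 = 1)

instance (τ : Perm (Fin 5)) : Decidable (Pres τ) := by unfold Pres; infer_instance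

def words1 : List (List (Fin 4)) :=
  (([[], [0]] : List (List (Fin 4))).flatMap fun a =>
    ([[], [2], [3, 2]] : List (List (Fin 4))).flatMap fun b =>
      ([[], [3]] : List (List (Fin 4))).map fun c => a ++ b ++ c)

theorem words1_spec : ∀ τ : Perm (Fin 5), Pres τ → ∃ w ∈ words1, (w.map s).prod = τ := by
  delta Pres
  simp only [↓Cfsg.Agent.PermCode.M, Cfsg.Agent.PermCode.P5.R, Cfsg.Agent.PermCode.B]
  decide +kernel

theorem words1_ne : ∀ w ∈ words1, ∀ i ∈ w, i ≠ 1 := by decide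

theorem Eig.perm1 (E : Eig φ f D) (h0 : ¬ D 0) (h2 : ¬ D 2) (h3 : ¬ D 3) (τ : Perm (Fin 5))
    (hτ : Pres τ) (m : M) : f (φ (P τ) m) = f m := by
  obtain ⟨w, hw, rfl⟩ := words1_spec τ hτ
  apply E.word
  intro i hi
  have := words1_ne w hw i hi
  fin_cases i
  · exact h0
  · exact absurd rfl this
  · exact h2
  · exact h3

theorem pres_inv : ∀ τ : Perm (Fin 5), Pres τ → Pres τ⁻¹ := by (delta Pres; simp only [↓Cfsg.Agent.PermCode.M, Cfsg.Agent.PermCode.P5.R, Cfsg.Agent.PermCode.B]; decide +kernel)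

theorem exA : ∀ r s : Fin 5, (r ≠ 0 ∧ r ≠ 1) → (s = 0 ∨ s = 1) →
    ∃ τ : Perm (Fin 5), Pres τ ∧ τ 2 = r ∧ τ 1 = s := by (delta Pres; simp only [↓Cfsg.Agent.PermCode.M, Cfsg.Agent.PermCode.P5.R, Cfsg.Agent.PermCode.B]; decide +kernel)
theorem exB : ∀ r s : Fin 5, (r ≠ 0 ∧ r ≠ 1) → (s ≠ 0 ∧ s ≠ 1) → r ≠ s →
    ∃ τ : Perm (Fin 5), Pres τ ∧ τ 3 = r ∧ τ 2 = s := by (delta Pres; simp only [↓Cfsg.Agent.PermCode.M, Cfsg.Agent.PermCode.P5.R, Cfsg.Agent.PermCode.B]; decide +kernel)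
theorem exC : ∀ r s : Fin 5, (r = 0 ∨ r = 1) → (s = 0 ∨ s = 1) → r ≠ s →
    ∃ τ : Perm (Fin 5), Pres τ ∧ τ 1 = r ∧ τ 0 = s := by (delta Pres; simp only [↓Cfsg.Agent.PermCode.M, Cfsg.Agent.PermCode.P5.R, Cfsg.Agent.PermCode.B]; decide +kernel)
theorem exD : ∀ r s : Fin 5, (r = 0 ∨ r = 1) → (s ≠ 0 ∧ s ≠ 1) →
    ∃ τ : Perm (Fin 5), Pres τ ∧ τ 1 = r ∧ τ 2 = s := by (delta Pres; simp only [↓Cfsg.Agent.PermCode.M, Cfsg.Agent.PermCode.P5.R, Cfsg.Agent.PermCode.B]; decide +kernel)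

theorem Eig.T1 (E : Eig φ f D) (h0 : ¬ D 0) (h2 : ¬ D 2) (h3 : ¬ D 3) {r s : Fin 5} (h : r ≠ s)
    (hr : (r ≠ 0 ∧ r ≠ 1) ∨ (s = 0 ∨ s = 1)) (m : M) : f (φ (T h) m) = f m := by
  have hf := E.perm1 h0 h2 h3
  have tri : ∀ s : Fin 5, (s = 0 ∨ s = 1) ∨ (s ≠ 0 ∧ s ≠ 1) := by decide
  rcases tri r with hr' | hr'
  · have hs : s = 0 ∨ s = 1 := by
      rcases hr with hr | hr
      · rcases hr' with h | h
        · exact absurd h hr.1
        · exact absurd h hr.2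
      · exact hr
    obtain ⟨τ, hτ, hτ2, hτ1⟩ := exC r s hr' hs h
    have e : T h = P τ * y 0 * P τ⁻¹ := T_conj τ _ h hτ2 hτ1
    rw [e, mulφ, mulφ, hf τ hτ, E.yy, hf τ⁻¹ (pres_inv τ hτ)]
  · rcases tri s with hs | hs
    · obtain ⟨τ, hτ, hτ2, hτ1⟩ := exA r s hr' hs
      have e : T h = P τ * y 1 * P τ⁻¹ := T_conj τ _ h hτ2 hτ1
      rw [e, mulφ, mulφ, hf τ hτ, E.yy, hf τ⁻¹ (pres_inv τ hτ)]
    · obtain ⟨τ, hτ, hτ2, hτ1⟩ := exB r s hr' hs h
      have e : T h = P τ * y 2 * P τ⁻¹ := T_conj τ _ h hτ2 hτ1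
      rw [e, mulφ, mulφ, hf τ hτ, E.yy, hf τ⁻¹ (pres_inv τ hτ)]

theorem Eig.T1' (E : Eig φ f D) (h0 : ¬ D 0) (h1 : D 1) (h2 : ¬ D 2) (h3 : ¬ D 3) {r s : Fin 5}
    (h : r ≠ s) (hr : r = 0 ∨ r = 1) (hs : s ≠ 0 ∧ s ≠ 1) (m : M) :
    f (φ (T h) m) = f m + f (φ (P (swap r s)) m) := by
  have hf := E.perm1 h0 h2 h3
  obtain ⟨τ, hτ, hτ1, hτ2⟩ := exD r s hr hs
  have e : T h = P τ * x 1 * P τ⁻¹ := T_conj τ _ h hτ1 hτ2
  have hi := pres_inv τ hτ
  rw [e, mulφ, mulφ, hf τ hτ, E.xx 1 h1, hf τ⁻¹ hi]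
  congr 1
  have e2 : n 1 * P τ⁻¹ = P τ⁻¹ * P (swap r s) := by
    rw [← P_s, ← map_mul, ← map_mul]
    congr 1
    have h5 : swap r s = τ * (Cfsg.Agent.H338.L5.s 1) * τ⁻¹ := by
      show swap r s = τ * swap 1 2 * τ⁻¹
      rw [mul_swap_eq_swap_mul, hτ1, hτ2, mul_assoc, mul_inv_cancel, mul_one]
    rw [h5]
    simp only [← mul_assoc, inv_mul_cancel, one_mul]
  rw [← mulφ, e2, mulφ, hf τ⁻¹ hi]

def gg (a b : Fin 5) : Perm (Fin 5) := swap 1 (swap 0 a b) * swap 0 a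

theorem gg_spec : ∀ a b : Fin 5, a ≠ b → gg a b a = 0 ∧ gg a b b = 1 := by decide

theorem TB (B : Matrix (Fin 5) (Fin 5) (ZMod 2)) {c d : Fin 5} (h : c ≠ d) (a b : Fin 5) :
    ((T h : Matrix (Fin 5) (Fin 5) (ZMod 2)) * B) a b = B a b + if a = c then B d b else 0 := by
  rw [T_val, add_mul, one_mul, Matrix.add_apply]
  congr 1
  split_ifs with h1
  · subst h1
    rw [Matrix.single_mul_apply_same, one_mul]
  · rw [Matrix.single_mul_apply_of_ne _ _ _ _ _ h1]

theorem BT (B : Matrix (Fin 5) (Fin 5) (ZMod 2)) {c d : Fin 5} (h : c ≠ d) (a b : Fin 5) :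
    (B * (T h : Matrix (Fin 5) (Fin 5) (ZMod 2))ᵀ) a b = B a b + if b = c then B a d else 0 := by
  have h1 := TB Bᵀ h b a
  rw [← Matrix.transpose_apply ((T h : Matrix (Fin 5) (Fin 5) (ZMod 2)) * Bᵀ),
    Matrix.transpose_mul, Matrix.transpose_transpose] at h1
  exact h1

/-- The conjugated matrix. -/
theorem TBT (B : Matrix (Fin 5) (Fin 5) (ZMod 2)) {c d : Fin 5} (h : c ≠ d) (a b : Fin 5) :
    ((T h : Matrix (Fin 5) (Fin 5) (ZMod 2)) * B * (T h : Matrix (Fin 5) (Fin 5) (ZMod 2))ᵀ) a b =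
      (B a b + if a = c then B d b else 0) +
        if b = c then (B a d + if a = c then B d d else 0) else 0 := by
  rw [BT, TB]
  congr 1
  by_cases h1 : b = c
  · rw [if_pos h1, if_pos h1, TB]
  · rw [if_neg h1, if_neg h1]

/-- The matrix of a vector. -/
def Psi (φ : X →* AddMonoid.End M) (f : M →+ ZMod 2) :
    M →+ Matrix (Fin 5) (Fin 5) (ZMod 2) where
  toFun m := Matrix.of fun a b => if a = b then 0 else f (φ (P (gg a b)) m)
  map_zero' := by
    ext a b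
    rw [Matrix.of_apply]
    simp
  map_add' m m' := by
    ext a b
    rw [Matrix.add_apply, Matrix.of_apply, Matrix.of_apply, Matrix.of_apply]
    split_ifs <;> simp

theorem Psi_same (m : M) (a : Fin 5) : Psi φ f m a a = 0 := by
  show (if a = a then 0 else f (φ (P (gg a a)) m)) = 0
  rw [if_pos rfl]

theorem Psi_ne (m : M) {a b : Fin 5} (h : a ≠ b) : Psi φ f m a b = f (φ (P (gg a b)) m) := by
  show (if a = b then 0 else f (φ (P (gg a b)) m)) = _
  rw [if_neg h]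

theorem Eig.key (E : Eig φ f D) (h0 : ¬ D 0) (h2 : ¬ D 2) (h3 : ¬ D 3) (τ : Perm (Fin 5))
    {a b : Fin 5} (h : a ≠ b) (ha : τ a = 0 ∨ τ a = 1) (hb : τ b = 0 ∨ τ b = 1) (m : M) :
    f (φ (P τ) m) = Psi φ f m a b := by
  rw [Psi_ne m h]
  have e : P τ = P (τ * (gg a b)⁻¹) * P (gg a b) := by
    rw [← map_mul, inv_mul_cancel_right]
  rw [e, mulφ, E.perm1 h0 h2 h3]
  obtain ⟨g0, g1⟩ := gg_spec a b h
  have e0 : (gg a b)⁻¹ 0 = a := by rw [Perm.inv_eq_iff_eq]; exact g0.symm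
  have e1 : (gg a b)⁻¹ 1 = b := by rw [Perm.inv_eq_iff_eq]; exact g1.symm
  refine ⟨?_, ?_⟩
  · rw [Perm.mul_apply, e0]; exact ha
  · rw [Perm.mul_apply, e1]; exact hb

theorem Eig.Psi_symm (E : Eig φ f D) (h0 : ¬ D 0) (h2 : ¬ D 2) (h3 : ¬ D 3) (m : M)
    (a b : Fin 5) : Psi φ f m a b = Psi φ f m b a := by
  by_cases h : a = b
  · rw [h]
  · obtain ⟨g0, g1⟩ := gg_spec a b h
    rw [Psi_ne m h, E.key h0 h2 h3 _ (Ne.symm h) (Or.inr g1) (Or.inl g0)]

theorem Eig.Psi_T (E : Eig φ f D) (h0 : ¬ D 0) (h1 : D 1) (h2 : ¬ D 2) (h3 : ¬ D 3)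
    {c d : Fin 5} (h : c ≠ d) (m : M) : Psi φ f (φ (T h) m) =
      (T h : Matrix (Fin 5) (Fin 5) (ZMod 2)) * Psi φ f m *
        (T h : Matrix (Fin 5) (Fin 5) (ZMod 2))ᵀ := by
  ext a b
  rw [TBT, Psi_same m d]
  by_cases hab : a = b
  · subst hab
    rw [Psi_same, Psi_same]
    by_cases hac : a = c
    · subst hac
      rw [if_pos rfl, if_pos rfl, if_pos rfl, E.Psi_symm h0 h2 h3 m a d, zero_add, add_zero,
        CharTwo.add_self_eq_zero]
    · rw [if_neg hac, if_neg hac, add_zero, add_zero]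
  · obtain ⟨g0, g1⟩ := gg_spec a b hab
    have hT := fun {r s : Fin 5} (h : r ≠ s) => E.T1 h0 h2 h3 h
    have hinj := (gg a b).injective
    rw [Psi_ne _ hab, ← mulφ, P_conj_T, mulφ]
    by_cases hac : a = c
    · subst hac
      have hbc : ¬ b = a := Ne.symm hab
      rw [if_pos rfl, if_neg hbc, add_zero]
      by_cases hdb : d = b
      · subst hdb
        rw [hT _ (Or.inr (Or.inr g1)), Psi_same, add_zero, Psi_ne _ hab]
      · have hd : gg a b d ≠ 0 ∧ gg a b d ≠ 1 :=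
          ⟨fun h5 => h (hinj (g0.trans h5.symm)), fun h5 => hdb (hinj (h5.trans g1.symm))⟩
        rw [E.T1' h0 h1 h2 h3 _ (Or.inl g0) hd, Psi_ne _ hab]
        congr 1
        rw [← mulφ, ← map_mul]
        apply E.key h0 h2 h3 _ hdb
        · left
          rw [Perm.mul_apply, swap_apply_right, g0]
        · right
          rw [Perm.mul_apply, g1, swap_apply_of_ne_of_ne]
          · rw [g0]; decide
          · exact Ne.symm hd.2
    · rw [if_neg hac, add_zero]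
      by_cases hbc : b = c
      · subst hbc
        rw [if_pos rfl, if_neg hab, add_zero]
        by_cases hda : d = a
        · subst hda
          rw [hT _ (Or.inr (Or.inl g0)), Psi_same, add_zero, Psi_ne _ hab]
        · have hd : gg a b d ≠ 0 ∧ gg a b d ≠ 1 :=
            ⟨fun h5 => hda (hinj (h5.trans g0.symm)), fun h5 => h (hinj (g1.trans h5.symm))⟩
          rw [E.T1' h0 h1 h2 h3 _ (Or.inr g1) hd, Psi_ne _ hab]
          congr 1
          rw [← mulφ, ← map_mul]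
          apply E.key h0 h2 h3 _ (Ne.symm hda)
          · left
            rw [Perm.mul_apply, g0, swap_apply_of_ne_of_ne]
            · rw [g1]; decide
            · exact Ne.symm hd.1
          · right
            rw [Perm.mul_apply, swap_apply_right, g1]
      · rw [if_neg hbc, add_zero, Psi_ne _ hab]
        apply hT
        left
        exact ⟨fun h5 => hac (hinj (g0.trans h5.symm)), fun h5 => hbc (hinj (g1.trans h5.symm))⟩

theorem Eig.Psi_g (E : Eig φ f D) (h0 : ¬ D 0) (h1 : D 1) (h2 : ¬ D 2) (h3 : ¬ D 3)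
    (g : X) (m : M) : Psi φ f (φ g m) =
      (g : Matrix (Fin 5) (Fin 5) (ZMod 2)) * Psi φ f m *
        (g : Matrix (Fin 5) (Fin 5) (ZMod 2))ᵀ := by
  have hg : g ∈ Subgroup.closure {g : X | ∃ (i j : Fin 5) (h : i ≠ j), g = T h} := by
    rw [closure_T]; trivial
  induction hg using Subgroup.closure_induction generalizing m with
  | mem g hg =>
    obtain ⟨i, j, h, rfl⟩ := hg
    exact E.Psi_T h0 h1 h2 h3 h m
  | one =>
    rw [oneφ]
    show Psi φ f m = (1 : Matrix (Fin 5) (Fin 5) (ZMod 2)) * Psi φ f m *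
      (1 : Matrix (Fin 5) (Fin 5) (ZMod 2))ᵀ
    rw [one_mul, Matrix.transpose_one, mul_one]
  | mul g h _ _ hg hh =>
    rw [mulφ, hg, hh]
    show _ = ((g : Matrix (Fin 5) (Fin 5) (ZMod 2)) * (h : Matrix (Fin 5) (Fin 5) (ZMod 2))) *
      Psi φ f m * ((g : Matrix (Fin 5) (Fin 5) (ZMod 2)) *
        (h : Matrix (Fin 5) (Fin 5) (ZMod 2)))ᵀ
    rw [Matrix.transpose_mul]
    simp only [mul_assoc]
  | inv g _ hg =>
    have h4 := hg (φ g⁻¹ m)
    rw [← mulφ, mul_inv_cancel, oneφ] at h4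
    rw [h4]
    have h5 : ((g⁻¹ : X) : Matrix (Fin 5) (Fin 5) (ZMod 2)) *
        (g : Matrix (Fin 5) (Fin 5) (ZMod 2)) = 1 :=
      congrArg Subtype.val (inv_mul_cancel g)
    have h6 : (g : Matrix (Fin 5) (Fin 5) (ZMod 2))ᵀ *
        ((g⁻¹ : X) : Matrix (Fin 5) (Fin 5) (ZMod 2))ᵀ = 1 := by
      rw [← Matrix.transpose_mul, h5, Matrix.transpose_one]
    rw [← mul_assoc, ← mul_assoc, h5, one_mul, mul_assoc, h6, mul_one]

theorem Eig.exists_psi [Finite M] (hcard : Nat.card M = 2 ^ 10) (E : Eig φ f D)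
    (hirr : ∀ W : AddSubgroup M, (∀ g, ∀ m ∈ W, φ g m ∈ W) → W = ⊥ ∨ W = ⊤)
    (h0 : ¬ D 0) (h1 : D 1) (h2 : ¬ D 2) (h3 : ¬ D 3) :
    ∃ ψ : M ≃+ Alt, ∀ g m, (ψ (φ g m) : Matrix (Fin 5) (Fin 5) (ZMod 2)) =
      (g : Matrix (Fin 5) (Fin 5) (ZMod 2)) * ψ m * (g : Matrix (Fin 5) (Fin 5) (ZMod 2))ᵀ := by
  let ψ : M →+ Alt := (Psi φ f).codRestrict Alt fun m =>
    ⟨fun a b => E.Psi_symm h0 h2 h3 m a b, fun a => Psi_same m a⟩
  have hψ : ∀ m, (ψ m : Matrix (Fin 5) (Fin 5) (ZMod 2)) = Psi φ f m := fun m => rfl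
  have hker : ψ.ker = ⊥ := by
    rcases hirr ψ.ker (by
      intro g m hm
      rw [AddMonoidHom.mem_ker] at hm ⊢
      apply Subtype.ext
      rw [hψ, E.Psi_g h0 h1 h2 h3, ← hψ, hm]
      simp) with h | h
    · exact h
    · exfalso
      apply E.ne
      ext m
      have h5 : m ∈ ψ.ker := by rw [h]; trivial
      have h6 := congrArg Subtype.val (AddMonoidHom.mem_ker.1 h5)
      rw [hψ] at h6
      have h7 : Psi φ f m 0 1 = 0 := congrFun (congrFun h6 0) 1
      have h8 := E.key h0 h2 h3 1 (show (0 : Fin 5) ≠ 1 by decide) (Or.inl rfl) (Or.inr rfl) m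
      rw [map_one, oneφ] at h8
      show f m = 0
      rw [h8, h7]
  have hinj : Function.Injective ψ := (AddMonoidHom.ker_eq_bot_iff ψ).1 hker
  have : Finite Alt := Subtype.finite
  have hbij : Function.Bijective ψ := by
    rw [Nat.bijective_iff_injective_and_card]
    refine ⟨hinj, le_antisymm (Nat.card_le_card_of_injective ψ hinj) ?_⟩
    rw [hcard]
    exact card_Alt_le
  exact ⟨AddEquiv.ofBijective ψ hbij, fun g m => E.Psi_g h0 h1 h2 h3 g m⟩

end Cfsg.Agent.H338.L5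
end

-- part: H338/L5Many
section
/-!
# Modules of `SL(5,2)` of order `2^10`: at most one special node (helper338)
-/

set_option autoImplicit false

namespace Cfsg.Agent.H338.L5

open Equiv Matrix

variable {M : Type*} [AddCommGroup M] {φ : X →* AddMonoid.End M} {f : M →+ ZMod 2}
  {D : Fin 4 → Prop}

/-- Eigenvectors. -/
structure EigV (φ : X →* AddMonoid.End M) (v : M) : Prop where
  ne : v ≠ 0
  xx : ∀ i, φ (x i) v = v
  nn : ∀ i, φ (n i) v = v ∨ φ (n i) v = v + φ (y i) v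

theorem n_inv (i : Fin 4) : (n i)⁻¹ = n i := inv_eq_of_mul_eq_one_left (rel_y.nn i)
theorem y_inv (i : Fin 4) : (y i)⁻¹ = y i := inv_eq_of_mul_eq_one_left (rel_y.xx i)
theorem x_inv (i : Fin 4) : (x i)⁻¹ = x i := inv_eq_of_mul_eq_one_left (rel_x.xx i)

theorem nxn (i : Fin 4) : n i * x i * n i = y i := by
  rw [y_eq, rel_x.xn]

theorem exists_EigV [Finite M] [Nontrivial M] (h2 : ∀ m : M, m + m = 0)
    (φ : X →* AddMonoid.End M) : ∃ v : M, EigV φ v := by
  obtain ⟨v0, hv0, hv1⟩ := exists_fixed h2 φ (U up) (isPGroup_U up (by decide))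
  obtain ⟨v, hv, hvx, hvn⟩ := exists_eig h2 φ rel_x hv0 (fun i => hv1 _ (x_mem i))
  refine ⟨v, hv, hvx, fun i => ?_⟩
  rcases hvn i with h | h
  · exact Or.inl h
  · right
    have h3 := congrArg (φ (n i)) h
    rw [map_add, ← mulφ, ← mulφ, rel_x.nn, oneφ, ← mul_assoc, nxn] at h3
    exact h3.symm

theorem exP_any : ∀ r s : Fin 5, r ≠ s → ∃ τ : Perm (Fin 5), τ 1 = r ∧ τ 0 = s := by
  simp only [↓Cfsg.Agent.PermCode.M, Cfsg.Agent.PermCode.P5.R, Cfsg.Agent.PermCode.B]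
  decide +kernel

def wordsAll : List (List (Fin 4)) :=
  (([[], [0], [1, 0], [2, 1, 0], [3, 2, 1, 0]] : List (List (Fin 4))).flatMap fun d =>
    ([[], [1], [2, 1], [3, 2, 1]] : List (List (Fin 4))).flatMap fun a =>
    ([[], [2], [3, 2]] : List (List (Fin 4))).flatMap fun b =>
      ([[], [3]] : List (List (Fin 4))).map fun c => d ++ a ++ b ++ c)

private noncomputable def _root_.Cfsg.Agent.LsF.fb7fa25_2 : {f // @Cfsg.Agent.H338.L5.wordsAll = f} := ⟨_, by first | (delta Cfsg.Agent.H338.L5.wordsAll; rewrite [Cfsg.Agent.LsF.lappend_pat, Cfsg.Agent.LsF.map_eq, Cfsg.Agent.LsF.flatMap_eq]; exact rfl) | exact rfl⟩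
private noncomputable def _root_.Cfsg.Agent.LsF.fb7fa25_3 : {f // @Cfsg.Agent.H338.L5.s = f} := ⟨_, by first | (delta Cfsg.Agent.H338.L5.s; rewrite [Cfsg.Agent.LsF.fb7fa25_0.2, Cfsg.Agent.LsF.dFinEq_eq]; exact rfl) | exact rfl⟩
theorem wordsAll_spec : ∀ τ : Perm (Fin 5), ∃ w ∈ wordsAll, (w.map s).prod = τ := by
  simp only [↓Cfsg.Agent.PermCode.M, Cfsg.Agent.PermCode.P5.R, Cfsg.Agent.PermCode.B]
  ((try (rewrite [Cfsg.Agent.LsF.fb7fa25_2.2, Cfsg.Agent.LsF.fb7fa25_3.2, Cfsg.Agent.LsF.map_eq, Cfsg.Agent.LsF.prod_eq])); decide +kernel)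

/-- Invariance under all of `X` from the generators `y` and `n`. -/
theorem invariant_of {p : M → Prop} (hy : ∀ i m, p m → p (φ (y i) m))
    (hn : ∀ i m, p m → p (φ (n i) m)) (g : X) (m : M) (hm : p m) : p (φ g m) := by
  have hP : ∀ τ : Perm (Fin 5), ∀ m, p m → p (φ (P τ) m) := by
    intro τ
    obtain ⟨w, hw, rfl⟩ := wordsAll_spec τ
    clear hw
    induction w with
    | nil => intro m hm; rw [List.map_nil, List.prod_nil, map_one, oneφ]; exact hm
    | cons i w ih =>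
      intro m hm
      rw [List.map_cons, List.prod_cons, map_mul, mulφ]
      exact hn i _ (ih m hm)
  have hT : ∀ {r s : Fin 5} (h : r ≠ s) m, p m → p (φ (T h) m) := by
    intro r s h m hm
    obtain ⟨τ, h1, h0⟩ := exP_any r s h
    have e : T h = P τ * y 0 * P τ⁻¹ := T_conj τ _ h h1 h0
    rw [e, mulφ, mulφ]
    exact hP _ _ (hy _ _ (hP _ _ hm))
  have hg : g ∈ Subgroup.closure {g : X | ∃ (i j : Fin 5) (h : i ≠ j), g = T h} := by
    rw [closure_T]; trivial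
  induction hg using Subgroup.closure_induction'' generalizing m with
  | mem g hg =>
    obtain ⟨i, j, h, rfl⟩ := hg
    exact hT h m hm
  | inv_mem g hg =>
    obtain ⟨i, j, h, rfl⟩ := hg
    have : (T h)⁻¹ = T h := inv_eq_of_mul_eq_one_left (by
      obtain ⟨τ, h1, h0⟩ := exP_any i j h
      have e : T h = P τ * y 0 * P τ⁻¹ := T_conj τ _ h h1 h0
      rw [e]
      simp only [mul_assoc]
      rw [← mul_assoc (P τ⁻¹) (P τ), ← map_mul, inv_mul_cancel, map_one, one_mul, ← mul_assoc (y 0),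
        rel_y.xx, one_mul, ← map_mul, mul_inv_cancel, map_one])
    rw [this]
    exact hT h m hm
  | one => rw [oneφ]; exact hm
  | mul g h _ _ hg hh => rw [mulφ]; exact hg _ (hh _ hm)

/-- The group generated by the `y i`. -/
def H : Subgroup X := Subgroup.closure (Set.range y)

theorem H_split (i : Fin 4) {h : X} (hh : h ∈ H) :
    ∃ h' ∈ H, n i * h' * n i ∈ H ∧ (h = h' ∨ h = h' * y i) := by
  have tri : ∀ i j : Fin 4, i = j ∨ ((i : ℕ) + 1 < j ∨ (j : ℕ) + 1 < i) ∨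
      ((i : ℕ) + 1 = j ∨ (j : ℕ) + 1 = i) := by decide
  have hy : ∀ j, y j ∈ H := fun j => Subgroup.subset_closure ⟨j, rfl⟩
  have hn := rel_y.nn i
  have hyy := rel_y.xx i
  have nmn : ∀ a b : X, n i * (a * b) * n i = (n i * a * n i) * (n i * b * n i) := by
    intro a b
    calc n i * (a * b) * n i = n i * a * 1 * b * n i := by group
      _ = _ := by rw [← hn]; group
  have step : ∀ h' ∈ H, n i * h' * n i ∈ H → ∀ j, ∀ e : X, (e = 1 ∨ e = y i) →
      ∃ h'' ∈ H, n i * h'' * n i ∈ H ∧ (h' * e * y j = h'' ∨ h' * e * y j = h'' * y i) := by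
    intro h' hh' hnh j e he
    rcases tri i j with rfl | h | h
    · refine ⟨h', hh', hnh, ?_⟩
      rcases he with rfl | rfl
      · right; rw [mul_one]
      · left; rw [mul_assoc, hyy, mul_one]
    · -- commuting
      have c1 : n i * y j = y j * n i := (rel_y.fxn j i h.symm).symm
      have c2 : y i * y j = y j * y i := rel_y.fx i j h
      refine ⟨h' * y j, mul_mem hh' (hy j), ?_, ?_⟩
      · rw [nmn]
        refine mul_mem hnh ?_
        rw [c1, mul_assoc, hn, mul_one]; exact hy j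
      · rcases he with rfl | rfl
        · left; rw [mul_one]
        · right; rw [mul_assoc, c2, mul_assoc]
    · rcases he with rfl | rfl
      · refine ⟨h' * y j, mul_mem hh' (hy j), ?_, Or.inl (by rw [mul_one])⟩
        rw [nmn]
        refine mul_mem hnh ?_
        rw [rel_y.a1 i j h]
        exact mul_mem (mul_mem (mul_mem (hy i) (hy j)) (hy i)) (hy j)
      · refine ⟨h' * (y i * y j * y i), mul_mem hh' (mul_mem (mul_mem (hy i) (hy j)) (hy i)), ?_,
          Or.inr ?_⟩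
        · rw [nmn]
          refine mul_mem hnh ?_
          rw [rel_y.a2 i j h]
          exact mul_mem (mul_mem (hy i) (hy j)) (hy i)
        · simp only [mul_assoc]
          rw [hyy, mul_one]
  induction hh using Subgroup.closure_induction_right with
  | one => exact ⟨1, one_mem _, by rw [mul_one, hn]; exact one_mem _, Or.inl rfl⟩
  | mul_right a ha b hb ih =>
    obtain ⟨j, rfl⟩ := hb
    obtain ⟨h', hh', hnh, h | h⟩ := ih
    · have := step h' hh' hnh j 1 (Or.inl rfl)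
      rwa [mul_one, ← h] at this
    · have := step h' hh' hnh j (y i) (Or.inr rfl)
      rwa [← h] at this
  | mul_inv_cancel a ha b hb ih =>
    obtain ⟨j, rfl⟩ := hb
    rw [y_inv]
    obtain ⟨h', hh', hnh, h | h⟩ := ih
    · have := step h' hh' hnh j 1 (Or.inl rfl)
      rwa [mul_one, ← h] at this
    · have := step h' hh' hnh j (y i) (Or.inr rfl)
      rwa [← h] at this

/-- The span of the images of an eigenvector is everything. -/
theorem EigV.span {v : M} (V : EigV φ v) (h2 : ∀ m : M, m + m = 0)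
    (hirr : ∀ W : AddSubgroup M, (∀ g, ∀ m ∈ W, φ g m ∈ W) → W = ⊥ ∨ W = ⊤) :
    AddSubgroup.closure {m | ∃ h ∈ H, m = φ h v} = ⊤ := by
  set W := AddSubgroup.closure {m | ∃ h ∈ H, m = φ h v} with hW
  have hin : ∀ h ∈ H, φ h v ∈ W := fun h hh => AddSubgroup.subset_closure ⟨h, hh, rfl⟩
  have hyH : ∀ j, y j ∈ H := fun j => Subgroup.subset_closure ⟨j, rfl⟩
  have ext : ∀ g : X, (∀ h ∈ H, φ (g * h) v ∈ W) → ∀ m ∈ W, φ g m ∈ W := by
    intro g hg m hm
    induction hm using AddSubgroup.closure_induction with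
    | mem m hm =>
      obtain ⟨h, hh, rfl⟩ := hm
      rw [← mulφ]
      exact hg h hh
    | zero => rw [map_zero]; exact W.zero_mem
    | add a b _ _ ha hb => rw [map_add]; exact W.add_mem ha hb
    | neg a _ ha => rw [map_neg]; exact W.neg_mem ha
  have hWy : ∀ i, ∀ m, m ∈ W → φ (y i) m ∈ W := fun i =>
    ext (y i) fun h hh => hin _ (mul_mem (hyH i) hh)
  have hWn : ∀ i, ∀ m, m ∈ W → φ (n i) m ∈ W := by
    intro i
    apply ext
    intro h hh
    obtain ⟨h', hh', hnh, he⟩ := H_split i hh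
    have key : ∀ e : X, (e = 1 ∨ e = y i) → ∃ w, w ∈ AddSubgroup.closure {v, φ (y i) v} ∧
        φ (n i * e) v = w := by
      intro e he
      refine ⟨_, ?_, rfl⟩
      have hv : v ∈ AddSubgroup.closure {v, φ (y i) v} := AddSubgroup.subset_closure (by simp)
      have hv' : φ (y i) v ∈ AddSubgroup.closure {v, φ (y i) v} :=
        AddSubgroup.subset_closure (by simp)
      rcases he with rfl | rfl
      · rw [mul_one]
        rcases V.nn i with h | h
        · rw [h]; exact hv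
        · rw [h]; exact add_mem hv hv'
      · rcases V.nn i with h | h
        · have h5 : φ (y i) v = v := by
            rw [← nxn, mulφ, h, mulφ, V.xx, h]
          have h6 : φ (n i * y i) v = v := by rw [mulφ, h5, h]
          rw [h6]; exact hv
        · have h5 := congrArg (φ (n i)) h
          rw [← mulφ, rel_y.nn, oneφ, map_add, ← mulφ, h] at h5
          have h6 : φ (n i * y i) v = φ (y i) v := by
            calc φ (n i * y i) v = (v + v) + (φ (y i) v + φ (y i) v) + φ (n i * y i) v := by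
                  rw [h2, h2, zero_add, zero_add]
              _ = v + (v + φ (y i) v + φ (n i * y i) v) + φ (y i) v := by abel
              _ = v + v + φ (y i) v := by rw [← h5]
              _ = _ := by rw [h2, zero_add]
          rw [h6]; exact hv'
    have hall : ∀ w ∈ AddSubgroup.closure {v, φ (y i) v}, φ (n i * h' * n i) w ∈ W := by
      intro w hw
      induction hw using AddSubgroup.closure_induction with
      | mem m hm =>
        rcases hm with rfl | rfl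
        · exact hin _ hnh
        · rw [← mulφ]; exact hin _ (mul_mem hnh (hyH i))
      | zero => rw [map_zero]; exact W.zero_mem
      | add a b _ _ ha hb => rw [map_add]; exact W.add_mem ha hb
      | neg a _ ha => rw [map_neg]; exact W.neg_mem ha
    have e0 : ∀ e : X, n i * (h' * e) = (n i * h' * n i) * (n i * e) := by
      intro e
      simp only [mul_assoc]
      rw [← mul_assoc (n i) (n i) e, rel_y.nn, one_mul]
    rcases he with he | he
    · obtain ⟨w, hw, hw'⟩ := key 1 (Or.inl rfl)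
      have := e0 1
      rw [mul_one] at this
      rw [he, this, mulφ, hw']
      exact hall w hw
    · obtain ⟨w, hw, hw'⟩ := key (y i) (Or.inr rfl)
      rw [he, e0, mulφ, hw']
      exact hall w hw
  rcases hirr W (fun g m hm => invariant_of (p := fun m => m ∈ W) hWy hWn g m hm) with h | h
  · exfalso
    apply V.ne
    have h5 := hin 1 (one_mem _)
    rw [h, oneφ] at h5
    exact h5
  · exact h

theorem Eig.fv (E : Eig φ f D) {v : M} (V : EigV φ v) (h2 : ∀ m : M, m + m = 0)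
    (hirr : ∀ W : AddSubgroup M, (∀ g, ∀ m ∈ W, φ g m ∈ W) → W = ⊥ ∨ W = ⊤) : f v = 1 := by
  have hH : ∀ h ∈ H, ∀ m, f (φ h m) = f m := by
    intro h hh
    induction hh using Subgroup.closure_induction'' with
    | mem g hg => obtain ⟨j, rfl⟩ := hg; exact E.yy j
    | inv_mem g hg => obtain ⟨j, rfl⟩ := hg; rw [y_inv]; exact E.yy j
    | one => intro m; rw [oneφ]
    | mul a b _ _ ha hb => intro m; rw [mulφ, ha, hb]
  by_contra hcon
  have hf0 : f v = 0 := by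
    have : ∀ a : ZMod 2, a ≠ 1 → a = 0 := by decide
    exact this _ hcon
  apply E.ne
  have h3 : AddSubgroup.closure {m | ∃ h ∈ H, m = φ h v} ≤ f.ker := by
    rw [AddSubgroup.closure_le]
    rintro _ ⟨h, hh, rfl⟩
    show f (φ h v) = 0
    rw [hH h hh, hf0]
  rw [V.span h2 hirr] at h3
  ext m
  exact h3 (AddSubgroup.mem_top m)

/-- `D` is nonempty. -/
theorem Eig.D_ne [Finite M] (E : Eig φ f D) (hcard : Nat.card M = 2 ^ 10)
    (hirr : ∀ W : AddSubgroup M, (∀ g, ∀ m ∈ W, φ g m ∈ W) → W = ⊥ ∨ W = ⊤) :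
    ∃ i, D i := by
  by_contra hcon
  push Not at hcon
  have h1 : ∀ g m, f (φ g m) = f m := fun g m =>
    invariant_of (φ := φ) (p := fun m' => f m' = f m) (fun i m' h => by rw [E.yy, h])
      (fun i m' h => by rw [E.nn i (hcon i), h]) g m rfl
  rcases hirr f.ker (fun g m hm => by
    rw [AddMonoidHom.mem_ker] at hm ⊢
    rw [h1, hm]) with h | h
  · have hinj : Function.Injective f := (AddMonoidHom.ker_eq_bot_iff f).1 h
    have := Nat.card_le_card_of_injective f hinj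
    rw [hcard, Nat.card_zmod] at this
    omega
  · apply E.ne
    ext m
    have : m ∈ f.ker := by rw [h]; trivial
    exact this

/-! ### Two special nodes -/

/-- Number of inversions. -/
def inv (w : Perm (Fin 5)) : ℕ :=
  ((Finset.univ : Finset (Fin 5 × Fin 5)).filter fun p => p.1 < p.2 ∧ w p.2 < w p.1).card

theorem inv_s : ∀ (i : Fin 4) (w : Perm (Fin 5)), w⁻¹ i.succ < w⁻¹ i.castSucc →
    inv (s i * w) < inv w := by (delta inv; simp only [↓Cfsg.Agent.PermCode.M, Cfsg.Agent.PermCode.P5.R, Cfsg.Agent.PermCode.B]; ((try (rewrite [Cfsg.Agent.LsF.fb7fa25_0.2, Cfsg.Agent.LsF.fb7fa25_3.2, Cfsg.Agent.LsF.finFintype_eq, Cfsg.Agent.LsF.prodFintype_eq, Cfsg.Agent.LsF.fcard_eq, Cfsg.Agent.LsF.ffilter_eq, Cfsg.Agent.LsF.dBoolEq_eq])); decide +kernel))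

theorem eq_one_of : ∀ w : Perm (Fin 5), (∀ i : Fin 4, ¬ w⁻¹ i.succ < w⁻¹ i.castSucc) → w = 1 := by
  simp only [↓Cfsg.Agent.PermCode.M, Cfsg.Agent.PermCode.P5.R, Cfsg.Agent.PermCode.B]
  decide +kernel

/-- `w` preserves `{0, …, a}`. -/
def Pr (a : Fin 4) (w : Perm (Fin 5)) : Prop := ∀ k : Fin 5, k ≤ a.castSucc → w k ≤ a.castSucc

instance (a : Fin 4) (w : Perm (Fin 5)) : Decidable (Pr a w) := by unfold Pr; infer_instance

theorem Pr_s : ∀ (a i : Fin 4) (w : Perm (Fin 5)), i ≠ a → ¬ Pr a w → ¬ Pr a (s i * w) := by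
  delta Pr
  simp only [↓Cfsg.Agent.PermCode.M, Cfsg.Agent.PermCode.P5.R, Cfsg.Agent.PermCode.B]
  decide +kernel

theorem Pr_one : ∀ a : Fin 4, Pr a 1 := by decide

def wordsU : List (List (Fin 4)) :=
  [[0], [1], [2], [3], [0, 1, 0, 1], [1, 2, 1, 2], [2, 3, 2, 3], [0, 1, 0, 1, 2, 0, 1, 0, 1, 2],
    [1, 2, 1, 2, 3, 1, 2, 1, 2, 3],
    [0, 1, 0, 1, 2, 0, 1, 0, 1, 2, 3, 0, 1, 0, 1, 2, 0, 1, 0, 1, 2, 3],
    [0, 1, 0, 1, 2, 0, 1, 0, 1, 2, 3, 2, 1, 0, 1, 0, 2, 1, 0, 1, 0, 3]]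

theorem wordsU_spec : ∀ (a b : Fin 5) (h : a < b), ∃ w ∈ wordsU,
    ((w.map x).prod : Matrix (Fin 5) (Fin 5) (ZMod 2)) = (T (ne_of_lt h) : Matrix _ _ _) := by
  (refine of_decide_eq_true ?_; (try (rewrite [Cfsg.Agent.LsF.instSLMul_eq, Cfsg.Agent.LsF.instSLOne_eq, Cfsg.Agent.LsF.zdecEq_eq, Cfsg.Agent.LsF.dMat_eq, Cfsg.Agent.LsF.map_eq, Cfsg.Agent.LsF.prod_eq, Cfsg.Agent.LsF.dFinLt_eq, Cfsg.Agent.LsF.dBEx_eq, Cfsg.Agent.LsF.dForallFin_eq, Cfsg.Agent.LsF.dAllP_eq, Cfsg.Agent.LsF.decide_eq])); decide +kernel)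

theorem EigV.T {v : M} (V : EigV φ v) {a b : Fin 5} (h : a < b) : φ (T (ne_of_lt h)) v = v := by
  obtain ⟨w, hw, he⟩ := wordsU_spec a b h
  have h1 : L5.T (ne_of_lt h) = (w.map x).prod := Subtype.ext he.symm
  rw [h1]
  clear he hw h1
  induction w with
  | nil => rw [List.map_nil, List.prod_nil, oneφ]
  | cons i w ih => rw [List.map_cons, List.prod_cons, mulφ, ih, V.xx]

theorem Eig.F_zero (E : Eig φ f D) {v : M} (V : EigV φ v) {i : Fin 4} (hi : D i)
    {w : Perm (Fin 5)} (hw : w⁻¹ i.succ < w⁻¹ i.castSucc) : f (φ (P w) v) = 0 := by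
  -- `w = s i * w'` with `w'⁻¹ i < w'⁻¹ (i+1)`
  have h1 := E.xx i hi (φ (P (s i * w)) v)
  have h2 : s i * s i = 1 := by
    show Equiv.swap _ _ * Equiv.swap _ _ = 1
    rw [Equiv.swap_mul_self]
  have h2' : n i * P (s i * w) = P w := by
    rw [← P_s, ← map_mul, ← mul_assoc, h2, one_mul]
  rw [← mulφ φ (n i), h2', ← mulφ] at h1
  have h3 : (s i * w)⁻¹ i.castSucc = w⁻¹ i.succ := by
    rw [_root_.mul_inv_rev, Perm.mul_apply]
    congr 1
    show (Equiv.swap _ _)⁻¹ _ = _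
    rw [Equiv.swap_inv, Equiv.swap_apply_left]
  have h4 : (s i * w)⁻¹ i.succ = w⁻¹ i.castSucc := by
    rw [_root_.mul_inv_rev, Perm.mul_apply]
    congr 1
    show (Equiv.swap _ _)⁻¹ _ = _
    rw [Equiv.swap_inv, Equiv.swap_apply_right]
  have h5 : (s i * w) (w⁻¹ i.succ) = i.castSucc := by
    rw [← h3]; simp
  have h6 : (s i * w) (w⁻¹ i.castSucc) = i.succ := by
    rw [← h4]; simp
  have h7 : x i * P (s i * w) = P (s i * w) * L5.T (ne_of_lt hw) := by
    rw [P_conj_T]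
    congr 1
    show L5.T _ = L5.T _
    congr 1 <;> first | exact h5.symm | exact h6.symm
  rw [h7, mulφ, V.T hw] at h1
  have h8 : ∀ a b : ZMod 2, a = a + b → b = 0 := by decide
  exact h8 _ _ h1

theorem Eig.F_Pr (E : Eig φ f D) {v : M} (V : EigV φ v) {a : Fin 4} (ha : D a) :
    ∀ (k : ℕ) (w : Perm (Fin 5)), inv w = k → ¬ Pr a w → f (φ (P w) v) = 0 := by
  intro k
  induction k using Nat.strong_induction_on with
  | _ k ih =>
    intro w hk hw
    by_cases h1 : ∀ i : Fin 4, ¬ w⁻¹ i.succ < w⁻¹ i.castSucc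
    · exact absurd (eq_one_of w h1 ▸ Pr_one a) hw
    · push Not at h1
      obtain ⟨i, hi⟩ := h1
      by_cases hD : D i
      · exact E.F_zero V hD hi
      · have hia : i ≠ a := fun h => hD (h ▸ ha)
        have h3 := ih (inv (s i * w)) (hk ▸ inv_s i w hi) (s i * w) rfl (Pr_s a i w hia hw)
        rw [map_mul, mulφ, P_s, E.nn i hD] at h3
        exact h3

def σ (k : Fin 11) : Perm (Fin 5) :=
  (((![[0, 1, 0, 2, 1, 0, 3, 2, 1, 0], [0, 1, 2, 1, 0, 3], [1, 3, 2, 1], [2, 1, 0, 3, 2, 1],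
    [0, 1, 0, 3, 2, 1], [1, 2, 1], [0, 2, 1], [2, 3, 2], [0, 1, 2, 3, 2], [0, 3], [1, 0, 2, 3]] :
    Fin 11 → List (Fin 4)) k).map s).prod

theorem σ_spec : ∀ a b : Fin 4, a < b → ∀ k l : Fin 11, k ≠ l →
    ¬ Pr a ((σ k)⁻¹ * σ l) ∨ ¬ Pr b ((σ k)⁻¹ * σ l) := by
  (delta Cfsg.Agent.H338.L5.Pr; set_option synthInstance.maxSize 100000 in exact Cfsg.Agent.Lib.Refl.of (by decide +kernel))

/-- At most one special node. -/
theorem Eig.D_unique [Finite M] (E : Eig φ f D) (hcard : Nat.card M = 2 ^ 10)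
    (h2 : ∀ m : M, m + m = 0)
    (hirr : ∀ W : AddSubgroup M, (∀ g, ∀ m ∈ W, φ g m ∈ W) → W = ⊥ ∨ W = ⊤)
    {a b : Fin 4} (hab : a < b) (ha : D a) (hb : D b) : False := by
  have : Nontrivial M := by
    rw [← Finite.one_lt_card_iff_nontrivial, hcard]; norm_num
  obtain ⟨v, V⟩ := exists_EigV h2 φ
  have h1 := E.fv V h2 hirr
  have hF : ∀ k l : Fin 11, f (φ (P ((σ k)⁻¹ * σ l)) v) = if k = l then 1 else 0 := by
    intro k l
    split_ifs with h
    · subst h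
      rw [inv_mul_cancel, map_one, oneφ, h1]
    · rcases σ_spec a b hab k l h with h3 | h3
      · exact E.F_Pr V ha _ _ rfl h3
      · exact E.F_Pr V hb _ _ rfl h3
  let g : (Fin 11 → ZMod 2) → M := fun c => ∑ l, if c l = 0 then 0 else φ (P (σ l)) v
  have hg : ∀ c k, f (φ (P (σ k)⁻¹) (g c)) = c k := by
    intro c k
    show f (φ (P (σ k)⁻¹) (∑ l, if c l = 0 then 0 else φ (P (σ l)) v)) = c k
    rw [map_sum, map_sum, Finset.sum_eq_single k]
    · split_ifs with h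
      · rw [map_zero, map_zero, h]
      · rw [← mulφ, ← map_mul, hF, if_pos rfl]
        have : ∀ a : ZMod 2, a ≠ 0 → 1 = a := by decide
        exact this _ h
    · intro l _ hl
      split_ifs with h
      · rw [map_zero, map_zero]
      · rw [← mulφ, ← map_mul, hF, if_neg (Ne.symm hl)]
    · intro h; exact absurd (Finset.mem_univ _) h
  have hinj : Function.Injective g := by
    intro c c' h
    funext k
    rw [← hg c k, h, hg c' k]
  have := Nat.card_le_card_of_injective g hinj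
  rw [hcard, Nat.card_fun, Nat.card_zmod, Nat.card_fin] at this
  norm_num at this

end Cfsg.Agent.H338.L5
end

-- part: H338/L5Ident
section
/-!
# The modules of order `2^10` of `SL(5,2)` (helper338)
-/

set_option autoImplicit false

namespace Cfsg.Agent.H338.L5

open Equiv Matrix

def rv : Perm (Fin 5) := swap 0 4 * swap 1 3

theorem rv_rv : rv * rv = 1 := by decide

/-- The graph automorphism. -/
def tw : X →* X where
  toFun g := P rv * (SpecialLinearGroup.transpose g⁻¹) * P rv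
  map_one' := by
    apply Subtype.ext
    show (P rv : Matrix (Fin 5) (Fin 5) (ZMod 2)) * ((1 : X)⁻¹ : X).1ᵀ * (P rv).1 = 1
    rw [inv_one]
    show (P rv : Matrix (Fin 5) (Fin 5) (ZMod 2)) * (1 : Matrix (Fin 5) (Fin 5) (ZMod 2))ᵀ * (P rv).1 = 1
    rw [Matrix.transpose_one, mul_one]
    exact congrArg Subtype.val (show P rv * P rv = 1 by rw [← map_mul, rv_rv, map_one])
  map_mul' g h := by
    apply Subtype.ext
    show (P rv : Matrix (Fin 5) (Fin 5) (ZMod 2)) * ((g * h)⁻¹ : X).1ᵀ * (P rv).1 =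
      ((P rv).1 * (g⁻¹ : X).1ᵀ * (P rv).1) * ((P rv).1 * (h⁻¹ : X).1ᵀ * (P rv).1)
    have h1 : ((g * h)⁻¹ : X).1ᵀ = (g⁻¹ : X).1ᵀ * (h⁻¹ : X).1ᵀ := by
      have e : (g * h)⁻¹ = h⁻¹ * g⁻¹ := _root_.mul_inv_rev g h
      generalize g⁻¹ = a at e ⊢
      generalize h⁻¹ = b at e ⊢
      rw [e]
      exact Matrix.transpose_mul b.1 a.1
    have h2 : (P rv).1 * (P rv).1 = 1 :=
      congrArg Subtype.val (show P rv * P rv = 1 by rw [← map_mul, rv_rv, map_one])
    rw [h1]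
    calc (P rv).1 * ((g⁻¹ : X).1ᵀ * (h⁻¹ : X).1ᵀ) * (P rv).1 =
        (P rv).1 * (g⁻¹ : X).1ᵀ * 1 * (h⁻¹ : X).1ᵀ * (P rv).1 := by
          simp only [mul_assoc, mul_one]
      _ = _ := by rw [← h2]; simp only [mul_assoc]

theorem tw_tw (g : X) : tw (tw g) = g := by
  have hrv : (P rv)⁻¹ = P rv := inv_eq_of_mul_eq_one_left (by rw [← map_mul, rv_rv, map_one])
  have hP2 : (P rv).1 * (P rv).1 = 1 :=
      congrArg Subtype.val (show P rv * P rv = 1 by rw [← map_mul, rv_rv, map_one])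
  have hPt : ((P rv).1)ᵀ = (P rv).1 := by decide +kernel
  have h1 : (tw g)⁻¹ = tw g⁻¹ := (map_inv tw g).symm
  apply Subtype.ext
  show (P rv).1 * ((tw g)⁻¹ : X).1ᵀ * (P rv).1 = g.1
  rw [h1]
  show (P rv).1 * ((P rv).1 * (g⁻¹⁻¹ : X).1ᵀ * (P rv).1)ᵀ * (P rv).1 = g.1
  rw [inv_inv, Matrix.transpose_mul, Matrix.transpose_mul, Matrix.transpose_transpose, hPt]
  calc (P rv).1 * ((P rv).1 * (g.1 * (P rv).1)) * (P rv).1 =
      ((P rv).1 * (P rv).1) * g.1 * ((P rv).1 * (P rv).1) := by simp only [mul_assoc]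
    _ = g.1 := by rw [hP2, one_mul, mul_one]

noncomputable def twe : X ≃* X := MulEquiv.ofBijective tw
  ⟨fun a b h => by rw [← tw_tw a, h, tw_tw], fun a => ⟨tw a, tw_tw a⟩⟩

theorem tw_of {g : X} (h : g⁻¹ = g) :
    (tw g : Matrix (Fin 5) (Fin 5) (ZMod 2)) = (P rv).1 * (g.1)ᵀ * (P rv).1 := by
  show (P rv).1 * (g⁻¹ : X).1ᵀ * (P rv).1 = _
  rw [h]

theorem tw_x (i : Fin 4) : tw (x i) = x (Fin.rev i) := by
  have : ∀ i, (P rv).1 * ((x i).1)ᵀ * (P rv).1 = (x (Fin.rev i) : X).1 := by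
    decide +kernel
  exact Subtype.ext ((tw_of (x_inv i)).trans (this i))
private noncomputable def _root_.Cfsg.Agent.LsF.fb7fa25_4 : {f // @Cfsg.Agent.H338.L5.rv = f} := ⟨_, by first | (delta Cfsg.Agent.H338.L5.rv; rewrite [Cfsg.Agent.LsF.dFinEq_eq]; exact rfl) | exact rfl⟩
theorem tw_y (i : Fin 4) : tw (y i) = y (Fin.rev i) := by
  have : ∀ i, (P rv).1 * ((y i).1)ᵀ * (P rv).1 = (y (Fin.rev i) : X).1 := by
    (refine of_decide_eq_true ?_; (try (rewrite [Cfsg.Agent.LsF.mmulF_pat, Cfsg.Agent.LsF.fb7fa25_4.2, Cfsg.Agent.LsF.zadd_pat, Cfsg.Agent.LsF.zmul_pat, Cfsg.Agent.LsF.zdecEq_eq, Cfsg.Agent.LsF.dMat_eq, Cfsg.Agent.LsF.transpose_eq, Cfsg.Agent.LsF.zACM_pat, Cfsg.Agent.LsF.dForallFin_eq, Cfsg.Agent.LsF.decide_eq])); decide +kernel)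
  exact Subtype.ext ((tw_of (y_inv i)).trans (this i))
theorem tw_n (i : Fin 4) : tw (n i) = n (Fin.rev i) := by
  have : ∀ i, (P rv).1 * ((n i).1)ᵀ * (P rv).1 = (n (Fin.rev i) : X).1 := by
    decide +kernel
  exact Subtype.ext ((tw_of (n_inv i)).trans (this i))

variable {M : Type*} [AddCommGroup M]

theorem Eig.twist {φ : X →* AddMonoid.End M} {f : M →+ ZMod 2} {D : Fin 4 → Prop}
    (E : Eig φ f D) : Eig (φ.comp tw) f (fun i => D (Fin.rev i)) where
  ne := E.ne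
  yy i m := by
    show f (φ (tw (y i)) m) = f m
    rw [tw_y, E.yy]
  nn i hi m := by
    show f (φ (tw (n i)) m) = f m
    rw [tw_n, E.nn _ hi]
  xx i hi m := by
    show f (φ (tw (x i)) m) = f m + f (φ (tw (n i)) m)
    rw [tw_x, tw_n, E.xx _ hi]

theorem hirr_twist {φ : X →* AddMonoid.End M}
    (hirr : ∀ W : AddSubgroup M, (∀ g, ∀ m ∈ W, φ g m ∈ W) → W = ⊥ ∨ W = ⊤) :
    ∀ W : AddSubgroup M, (∀ g, ∀ m ∈ W, φ.comp tw g m ∈ W) → W = ⊥ ∨ W = ⊤ := by
  intro W hW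
  apply hirr
  intro g m hm
  have := hW (tw g) m hm
  have h3 : φ.comp tw (tw g) = φ g := congrArg φ (tw_tw g)
  rwa [h3] at this

/-- An irreducible module of order `2^10` for `SL(5,2)` is, up to the graph automorphism, the
exterior square. -/
theorem ident [Finite M] (hcard : Nat.card M = 2 ^ 10) (h2 : ∀ m : M, m + m = 0)
    (φ : X →* AddMonoid.End M)
    (hirr : ∀ W : AddSubgroup M, (∀ g, ∀ m ∈ W, φ g m ∈ W) → W = ⊥ ∨ W = ⊤) :
    ∃ (α : X ≃* X) (ψ : M ≃+ Alt), ∀ g m, (ψ (φ (α g) m) : Matrix (Fin 5) (Fin 5) (ZMod 2)) =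
      (g : Matrix (Fin 5) (Fin 5) (ZMod 2)) * ψ m * (g : Matrix (Fin 5) (Fin 5) (ZMod 2))ᵀ := by
  have : Nontrivial M := by
    rw [← Finite.one_lt_card_iff_nontrivial, hcard]; norm_num
  obtain ⟨f, D, E⟩ := exists_Eig h2 φ
  obtain ⟨i, hi⟩ := E.D_ne hcard hirr
  have huniq : ∀ j, j ≠ i → ¬ D j := by
    intro j hj hD
    rcases lt_or_gt_of_ne hj with h | h
    · exact E.D_unique hcard h2 hirr h hD hi
    · exact E.D_unique hcard h2 hirr h hi hD
  fin_cases i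
  · exfalso
    have := E.card_le hirr hi (huniq 1 (by decide)) (huniq 2 (by decide)) (huniq 3 (by decide))
    rw [hcard] at this
    norm_num at this
  · obtain ⟨ψ, hψ⟩ := E.exists_psi hcard hirr (huniq 0 (by decide)) hi (huniq 2 (by decide))
      (huniq 3 (by decide))
    exact ⟨MulEquiv.refl X, ψ, hψ⟩
  · obtain ⟨ψ, hψ⟩ := E.twist.exists_psi hcard (hirr_twist hirr) (huniq 3 (by decide)) hi
      (huniq 1 (by decide)) (huniq 0 (by decide))
    exact ⟨twe, ψ, hψ⟩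
  · exfalso
    have := E.twist.card_le (hirr_twist hirr) hi (huniq 2 (by decide)) (huniq 1 (by decide))
      (huniq 0 (by decide))
    rw [hcard] at this
    norm_num at this

end Cfsg.Agent.H338.L5
end

-- part: H338/L5Dat
section
/-!
# The Sylow 2-subgroup of `2^10 : L₅(2)` (helper338)
-/

set_option autoImplicit false

namespace Cfsg.Agent.H338.L5

open Matrix

abbrev V4 := Fin 4 → ZMod 2
abbrev M4 := Matrix (Fin 4) (Fin 4) (ZMod 2)

/-- Unitriangular matrices. -/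
def UTm (a b c d e f : ZMod 2) : M4 := !![1, a, b, c; 0, 1, d, e; 0, 0, 1, f; 0, 0, 0, 1]

/-- Alternating matrices. -/
def ALm (a b c d e f : ZMod 2) : M4 := !![0, a, b, c; a, 0, d, e; b, d, 0, f; c, e, f, 0]

def om (u v : V4) : M4 := Matrix.of fun i j => u i * v j + u j * v i

theorem om_self : ∀ u, om u u = 0 := by decide +kernel
private noncomputable def _root_.Cfsg.Agent.LsF.fb7fa25_5 : {f // @Cfsg.Agent.H338.L5.om = f} := ⟨_, by first | (delta Cfsg.Agent.H338.L5.om; rewrite [Cfsg.Agent.LsF.mof_pat, Cfsg.Agent.LsF.zadd_pat, Cfsg.Agent.LsF.zmul_pat]; exact rfl) | exact rfl⟩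
private noncomputable def _root_.Cfsg.Agent.LsF.fb7fa25_6 : {f // @Cfsg.Agent.Lib.Refl.dec = f} := ⟨_, by first | (delta Cfsg.Agent.Lib.Refl.dec; rewrite [Cfsg.Agent.LsF.ndiv_pat, Cfsg.Agent.LsF.npow_pat]; exact rfl) | exact rfl⟩
theorem om_comm : ∀ u v, om u v = om v u := by (set_option synthInstance.maxSize 100000 in exact Cfsg.Agent.Lib.Refl.of (by ((try (rewrite [Cfsg.Agent.LsF.fb7fa25_5.2, Cfsg.Agent.LsF.fb7fa25_6.2, Cfsg.Agent.LsF.zval_eq])); decide +kernel)))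
theorem om_zero : ∀ u v, om u v = 0 → u = 0 ∨ v = 0 ∨ u = v := by (set_option synthInstance.maxSize 100000 in exact Cfsg.Agent.Lib.Refl.of (by decide +kernel))
theorem om_add (u u' v : V4) : om (u + u') v = om u v + om u' v := by
  ext i j
  show (u i + u' i) * v j + (u j + u' j) * v i = (u i * v j + u j * v i) + (u' i * v j + u' j * v i)
  ring
theorem om_add' (u v v' : V4) : om u (v + v') = om u v + om u v' := by
  rw [om_comm, om_add, om_comm v, om_comm v']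
theorem om_zero_left (v : V4) : om 0 v = 0 := by
  ext i j
  show 0 * v j + 0 * v i = 0
  ring
theorem om_zero_right (v : V4) : om v 0 = 0 := by rw [om_comm, om_zero_left]

theorem v2 (v : V4) : v + v = 0 := by
  funext i; exact CharTwo.add_self_eq_zero _
theorem m2 (v : M4) : v + v = 0 := by
  ext i j; exact CharTwo.add_self_eq_zero _

/-- The data describing a Sylow 2-subgroup of `2^10 : L₅(2)`. -/
structure Dat {K : Type*} [Group K] (A C J S : Subgroup K) (r : K → M4) (p k : K → V4)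
    (c : K → M4) : Prop where
  CA : C ≤ A
  AJ : A ≤ J
  JS : J ≤ S
  nA : ∀ s ∈ S, ∀ a ∈ A, s * a * s⁻¹ ∈ A
  nC : ∀ s ∈ S, ∀ a ∈ C, s * a * s⁻¹ ∈ C
  A2 : ∀ a ∈ A, a * a = 1
  r_mul : ∀ s ∈ S, ∀ t ∈ S, r (s * t) = r s * r t
  r_one : ∀ s ∈ S, r s = 1 ↔ s ∈ J
  r_ut : ∀ s ∈ S, ∃ a b c d e f, r s = UTm a b c d e f
  r_surj : ∀ a b c d e f, ∃ s ∈ S, r s = UTm a b c d e f
  p_mul : ∀ x ∈ J, ∀ y ∈ J, p (x * y) = p x + p y
  p_zero : ∀ x ∈ J, p x = 0 ↔ x ∈ A
  p_conj : ∀ s ∈ S, ∀ x ∈ J, p (s * x * s⁻¹) = r s *ᵥ p x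
  p_surj : ∀ v, ∃ x ∈ J, p x = v
  k_mul : ∀ x ∈ A, ∀ y ∈ A, k (x * y) = k x + k y
  k_zero : ∀ x ∈ A, k x = 0 ↔ x ∈ C
  k_conj : ∀ s ∈ S, ∀ x ∈ A, k (s * x * s⁻¹) = r s *ᵥ k x
  k_surj : ∀ v, ∃ x ∈ A, k x = v
  c_mul : ∀ x ∈ C, ∀ y ∈ C, c (x * y) = c x + c y
  c_zero : ∀ x ∈ C, c x = 0 ↔ x = 1
  c_alt : ∀ x ∈ C, ∃ a b c' d e f, c x = ALm a b c' d e f
  c_surj : ∀ a b c' d e f, ∃ x ∈ C, c x = ALm a b c' d e f
  c_conj : ∀ s ∈ S, ∀ x ∈ C, c (s * x * s⁻¹) = r s * c x * (r s)ᵀ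
  comm : ∀ x ∈ J, ∀ a ∈ A, x * a * x⁻¹ * a⁻¹ ∈ C ∧ c (x * a * x⁻¹ * a⁻¹) = om (p x) (k a)

/-- Layers. -/
theorem lay {K : Type*} [Group K] [Finite K] {V : Type*} [AddCommGroup V] (E : Subgroup K)
    (v : K → V) (hv : ∀ x ∈ E, ∀ y ∈ E, v (x * y) = v x + v y) :
    ∃ (E0 : Subgroup K) (W : AddSubgroup V), (∀ x, x ∈ E0 ↔ x ∈ E ∧ v x = 0) ∧
      (∀ w, w ∈ W ↔ ∃ x ∈ E, v x = w) ∧ Nat.card E = Nat.card W * Nat.card E0 := by
  have h1 : v 1 = 0 := by
    have := hv 1 E.one_mem 1 E.one_mem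
    rw [mul_one] at this
    exact left_eq_add.1 this
  let h : E →* Multiplicative V :=
    { toFun := fun x => Multiplicative.ofAdd (v x)
      map_one' := by
        show Multiplicative.ofAdd (v 1) = 1
        rw [h1]; rfl
      map_mul' := fun x y => by
        show Multiplicative.ofAdd (v (x * y)) = _
        rw [hv _ x.2 _ y.2]; rfl }
  have hinv : ∀ x ∈ E, v x⁻¹ = - v x := by
    intro x hx
    have := hv x⁻¹ (E.inv_mem hx) x hx
    rw [inv_mul_cancel, h1] at this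
    exact eq_neg_of_add_eq_zero_left this.symm
  let W : AddSubgroup V :=
    { carrier := {w | ∃ x ∈ E, v x = w}
      zero_mem' := ⟨1, E.one_mem, h1⟩
      add_mem' := by
        rintro _ _ ⟨x, hx, rfl⟩ ⟨y, hy, rfl⟩
        exact ⟨x * y, E.mul_mem hx hy, hv x hx y hy⟩
      neg_mem' := by
        rintro _ ⟨x, hx, rfl⟩
        exact ⟨x⁻¹, E.inv_mem hx, hinv x hx⟩ }
  refine ⟨h.ker.map E.subtype, W, ?_, fun w => Iff.rfl, ?_⟩
  · intro x
    constructor
    · rintro ⟨y, hy, rfl⟩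
      exact ⟨y.2, Multiplicative.ofAdd.injective (MonoidHom.mem_ker.1 hy)⟩
    · rintro ⟨hx, h0⟩
      refine ⟨⟨x, hx⟩, ?_, rfl⟩
      show Multiplicative.ofAdd (v x) = 1
      rw [h0]; rfl
  · rw [← Subgroup.card_mul_index h.ker, Subgroup.index_ker, mul_comm]
    congr 1
    · apply Nat.card_congr
      refine Equiv.ofBijective (fun w => ⟨Multiplicative.toAdd w.1, by
        obtain ⟨x, hx⟩ := w.2
        exact ⟨x.1, x.2, by rw [← hx]; rfl⟩⟩) ⟨?_, ?_⟩
      · intro a b hab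
        have h5 := congrArg (fun w : W => (w : V)) hab
        exact Subtype.ext (Multiplicative.toAdd.injective h5)
      · rintro ⟨w, x, hx, rfl⟩
        exact ⟨⟨h ⟨x, hx⟩, ⟨x, hx⟩, rfl⟩, rfl⟩
    · exact (Nat.card_congr (h.ker.equivMapOfInjective _ E.subtype_injective).toEquiv)

theorem card_sub_le {V : Type*} [AddCommGroup V] [Finite V] {W : AddSubgroup V} (hW : W ≠ ⊤) :
    Nat.card W * 2 ≤ Nat.card V := by
  have h1 := W.card_mul_index
  have h2 : W.index ≠ 1 := fun h => hW (AddSubgroup.index_eq_one.1 h)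
  have h3 : W.index ≠ 0 := W.index_ne_zero_of_finite
  rw [← h1]
  exact Nat.mul_le_mul_left _ (by omega)

theorem card_le_two {V : Type*} [AddCommGroup V] [Finite V] {W : AddSubgroup V} {a : V}
    (hW : ∀ w ∈ W, w = 0 ∨ w = a) : Nat.card W ≤ 2 := by
  classical
  have h1 : (W : Set V) ⊆ ({0, a} : Finset V) := by
    intro w hw
    rcases hW w hw with h | h <;> simp [h]
  have h2 : Nat.card W ≤ Nat.card (({0, a} : Finset V) : Set V) := Nat.card_mono (Finset.finite_toSet _) h1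
  refine h2.trans ?_
  rw [Nat.card_eq_card_toFinset, Finset.toFinset_coe]
  exact Finset.card_le_two

theorem card_eq_one {V : Type*} [AddCommGroup V] {W : AddSubgroup V}
    (hW : ∀ w ∈ W, w = 0) : Nat.card W = 1 := by
  have : W = ⊥ := by rw [eq_bot_iff]; intro w hw; exact hW w hw
  rw [this]; simp

end Cfsg.Agent.H338.L5
end

-- part: H338/L5FF
section
/-!
# Normal elementary abelian subgroups (helper338)
-/

set_option autoImplicit false

namespace Cfsg.Agent.H338.L5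

open Matrix

/-- The last column group. -/
def Mv (v : Fin 3 → ZMod 2) : M4 := UTm 0 0 (v 0) 0 (v 1) (v 2)

private noncomputable def _root_.Cfsg.Agent.LsF.fb7fa25_7 : {f // @Cfsg.Agent.H338.L5.UTm = f} := ⟨_, by first | (delta Cfsg.Agent.H338.L5.UTm; rewrite [Cfsg.Agent.LsF.mof_pat, Cfsg.Agent.LsF.vecCons_eq]; exact rfl) | exact rfl⟩
private noncomputable def _root_.Cfsg.Agent.LsF.fb7fa25_8 : {f // @Cfsg.Agent.H338.L5.Mv = f} := ⟨_, by first | (delta Cfsg.Agent.H338.L5.Mv; rewrite [Cfsg.Agent.LsF.fb7fa25_7.2]; exact rfl) | exact rfl⟩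
theorem ff4 : ∀ a b c d e f : ZMod 2, ¬ (a = 0 ∧ b = 0 ∧ d = 0) →
    ∃ v v' : Fin 3 → ZMod 2, v' ≠ 0 ∧ Mv v * UTm a b c d e f * Mv v = Mv v' * UTm a b c d e f := by
  (set_option synthInstance.maxSize 100000 in exact Cfsg.Agent.Lib.Refl.of (by ((try (rewrite [Cfsg.Agent.LsF.fb7fa25_8.2, Cfsg.Agent.LsF.fb7fa25_6.2, Cfsg.Agent.LsF.fb7fa25_7.2, Cfsg.Agent.LsF.zcast_pat, Cfsg.Agent.LsF.zval_eq])); decide +kernel)))

theorem ff4' : ∀ a b c d e f : ZMod 2,
    (∀ v : Fin 3 → ZMod 2, UTm a b c d e f * Mv v = Mv v * UTm a b c d e f) →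
      a = 0 ∧ b = 0 ∧ d = 0 := by
  (set_option synthInstance.maxSize 100000 in exact Cfsg.Agent.Lib.Refl.of (by ((try (rewrite [Cfsg.Agent.LsF.fb7fa25_7.2, Cfsg.Agent.LsF.fb7fa25_8.2, Cfsg.Agent.LsF.fb7fa25_6.2, Cfsg.Agent.LsF.zcast_pat, Cfsg.Agent.LsF.zval_eq])); decide +kernel)))

private noncomputable def _root_.Cfsg.Agent.LsF.fb7fa25_9 : {f // @Cfsg.Agent.H338.L5.ALm = f} := ⟨_, by first | (delta Cfsg.Agent.H338.L5.ALm; rewrite [Cfsg.Agent.LsF.mof_pat, Cfsg.Agent.LsF.vecCons_eq]; exact rfl) | exact rfl⟩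
theorem ff2 : ∀ (v : Fin 3 → ZMod 2) (a b c d e f : ZMod 2),
    Mv v * ALm a b c d e f * (Mv v)ᵀ = ALm a b c d e f →
      v = 0 ∨ ![c, e, f] = 0 ∨ ![c, e, f] = v := by
  (set_option synthInstance.maxSize 100000 in exact Cfsg.Agent.Lib.Refl.of (by ((try (rewrite [Cfsg.Agent.LsF.fb7fa25_8.2, Cfsg.Agent.LsF.fb7fa25_6.2, Cfsg.Agent.LsF.fb7fa25_9.2, Cfsg.Agent.LsF.zcast_pat, Cfsg.Agent.LsF.vecCons_eq, Cfsg.Agent.LsF.zval_eq])); decide +kernel)))

theorem ff5 : ∀ a b c d e f : ZMod 2,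
    (∀ g h k : ZMod 2, UTm a b c d e f * ALm g h 0 k 0 0 * (UTm a b c d e f)ᵀ = ALm g h 0 k 0 0) →
      a = 0 ∧ b = 0 ∧ d = 0 := by
  (set_option synthInstance.maxSize 100000 in exact Cfsg.Agent.Lib.Refl.of (by decide +kernel))

theorem ff6 : ∀ b c e f b' c' e' f' : ZMod 2,
    UTm 1 b c 0 e f * UTm 0 b' c' 1 e' f' ≠ UTm 0 b' c' 1 e' f' * UTm 1 b c 0 e f := by
  (set_option synthInstance.maxSize 100000 in exact Cfsg.Agent.Lib.Refl.of (by decide +kernel))

theorem ut_mul (a b c d e f a' b' c' d' e' f' : ZMod 2) :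
    UTm a b c d e f * UTm a' b' c' d' e' f' =
      UTm (a + a') (b + b' + a * d') (c + c' + a * e' + b * f') (d + d') (e + e' + d * f')
        (f + f') := by
  ext i j
  fin_cases i <;> fin_cases j <;>
    simp [UTm, Matrix.mul_apply, Fin.sum_univ_four] <;> ring

theorem UTm_02 (a b c d e f : ZMod 2) : UTm a b c d e f 0 2 = b := rfl
theorem UTm_03 (a b c d e f : ZMod 2) : UTm a b c d e f 0 3 = c := rfl
theorem UTm_13 (a b c d e f : ZMod 2) : UTm a b c d e f 1 3 = e := rfl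
theorem UTm_23 (a b c d e f : ZMod 2) : UTm a b c d e f 2 3 = f := rfl
theorem UTm_one : UTm 0 0 0 0 0 0 = 1 := by decide
end Cfsg.Agent.H338.L5
end

-- part: H338/L5FF2
section
/-!
# Normal elementary abelian subgroups of a Sylow 2-subgroup of `2^10 : L₅(2)` (helper338)
-/

set_option autoImplicit false

namespace Cfsg.Agent.H338.L5

open Matrix

theorem pair {V : Type*} [AddCommGroup V] [Finite V] {W W' : AddSubgroup V}
    (h : ∀ w ∈ W, ∀ w' ∈ W', w = 0 ∨ w' = 0 ∨ w' = w) {w0 : V} (hw0 : w0 ∈ W) (hne : w0 ≠ 0) :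
    Nat.card W * Nat.card W' ≤ 4 ∨ ∀ w' ∈ W', w' = 0 := by
  by_cases hW' : ∀ w' ∈ W', w' = 0
  · exact Or.inr hW'
  · left
    push Not at hW'
    obtain ⟨w1, hw1, hne1⟩ := hW'
    have h1 : Nat.card W' ≤ 2 := card_le_two (a := w0) fun w' hw' => by
      rcases h w0 hw0 w' hw' with h | h | h
      · exact absurd h hne
      · exact Or.inl h
      · exact Or.inr h
    have h2 : Nat.card W ≤ 2 := card_le_two (a := w1) fun w hw => by
      rcases h w hw w1 hw1 with h | h | h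
      · exact Or.inl h
      · exact absurd h hne1
      · exact Or.inr h.symm
    exact Nat.mul_le_mul h2 h1

theorem card_F {n : ℕ} : Nat.card (Fin n → ZMod 2) = 2 ^ n := by
  rw [Nat.card_fun, Nat.card_zmod, Nat.card_fin]

section

variable {K : Type*} [Group K] {A C J S : Subgroup K} {r : K → M4} {p k : K → V4}
    {c : K → M4}

theorem Dat.A_comm (d : Dat A C J S r p k c) {x y : K} (hx : x ∈ A) (hy : y ∈ A) :
    x * y = y * x := by
  have h1 := d.A2 _ (A.mul_mem hx hy)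
  have h2 := d.A2 _ hx
  have h3 := d.A2 _ hy
  calc x * y = (x * y) * ((x * y) * (x * y))⁻¹ := by rw [h1, inv_one, mul_one]
    _ = (x * y)⁻¹ := by group
    _ = y⁻¹ * x⁻¹ := by group
    _ = y * x := by rw [inv_eq_of_mul_eq_one_left h2, inv_eq_of_mul_eq_one_left h3]

theorem comm_of_two {E : Subgroup K} (h2 : ∀ x ∈ E, x * x = 1) {x y : K} (hx : x ∈ E)
    (hy : y ∈ E) : x * y = y * x := by
  have h1 := h2 _ (E.mul_mem hx hy)
  have h3 := h2 _ hx
  have h4 := h2 _ hy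
  calc x * y = (x * y) * ((x * y) * (x * y))⁻¹ := by rw [h1, inv_one, mul_one]
    _ = (x * y)⁻¹ := by group
    _ = y⁻¹ * x⁻¹ := by group
    _ = y * x := by rw [inv_eq_of_mul_eq_one_left h3, inv_eq_of_mul_eq_one_left h4]

theorem Dat.ut (d : Dat A C J S r p k c) {s : K} (hs : s ∈ S) :
    r s = UTm (r s 0 1) (r s 0 2) (r s 0 3) (r s 1 2) (r s 1 3) (r s 2 3) := by
  obtain ⟨a, b, c', d', e, f, h⟩ := d.r_ut s hs
  rw [h]
  rfl

theorem Dat.al (d : Dat A C J S r p k c) {s : K} (hs : s ∈ C) :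
    c s = ALm (c s 0 1) (c s 0 2) (c s 0 3) (c s 1 2) (c s 1 3) (c s 2 3) := by
  obtain ⟨a, b, c', d', e, f, h⟩ := d.c_alt s hs
  rw [h]
  rfl

theorem Dat.p_fix (d : Dat A C J S r p k c) {x z : K} (hx : x ∈ S) (hz : z ∈ J)
    (h : x * z = z * x) : r x *ᵥ p z = p z := by
  rw [← d.p_conj x hx z hz, h, mul_inv_cancel_right]

theorem Dat.J_le (d : Dat A C J S r p k c) {x : K} (hx : x ∈ S) (h : r x = 1) : x ∈ J :=
  (d.r_one x hx).1 h

theorem Dat.p_inv (d : Dat A C J S r p k c) {x : K} (hx : x ∈ J) : p x⁻¹ = p x := by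
  have h1 := d.p_mul x⁻¹ (J.inv_mem hx) x hx
  rw [inv_mul_cancel, (d.p_zero 1 J.one_mem).2 A.one_mem] at h1
  calc p x⁻¹ = p x⁻¹ + (p x + p x) := by rw [v2, add_zero]
    _ = (p x⁻¹ + p x) + p x := by abel
    _ = p x := by rw [← h1, zero_add]

theorem Dat.nJ (d : Dat A C J S r p k c) {s x : K} (hs : s ∈ S) (hx : x ∈ J) :
    s * x * s⁻¹ ∈ J := by
  apply d.J_le (S.mul_mem (S.mul_mem hs (d.JS hx)) (S.inv_mem hs))
  rw [d.r_mul _ (S.mul_mem hs (d.JS hx)) _ (S.inv_mem hs), d.r_mul _ hs _ (d.JS hx),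
    (d.r_one x (d.JS hx)).2 hx, mul_one, ← d.r_mul _ hs _ (S.inv_mem hs), mul_inv_cancel]
  exact (d.r_one 1 S.one_mem).2 J.one_mem

/-- Bounds for the two layers `p` and `k`. -/
theorem Dat.pk (d : Dat A C J S r p k c) {E : Subgroup K} (h2 : ∀ x ∈ E, x * x = 1)
    {W4 W5 : AddSubgroup V4} (hW4 : ∀ w, w ∈ W4 ↔ ∃ x ∈ E ⊓ J, p x = w)
    (hW5 : ∀ w, w ∈ W5 ↔ ∃ x ∈ E ⊓ A, k x = w) {w0 : V4} (hw0 : w0 ∈ W4) (hne : w0 ≠ 0) :
    Nat.card W4 * Nat.card W5 ≤ 4 ∨ ∀ w' ∈ W5, w' = 0 := by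
  refine pair ?_ hw0 hne
  intro w hw w' hw'
  obtain ⟨x, hx, rfl⟩ := (hW4 w).1 hw
  obtain ⟨a, ha, rfl⟩ := (hW5 w').1 hw'
  obtain ⟨h3, h4⟩ := d.comm x hx.2 a ha.2
  have h5 : x * a * x⁻¹ * a⁻¹ = 1 := by
    rw [comm_of_two h2 hx.1 ha.1]; group
  rw [h5, (d.c_zero 1 C.one_mem).2 rfl] at h4
  rcases om_zero _ _ h4.symm with h | h | h
  · exact Or.inl h
  · exact Or.inr (Or.inl h)
  · exact Or.inr (Or.inr h.symm)

/-- Normal elementary abelian subgroups of `S`. -/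
theorem Dat.ff [Finite K] (d : Dat A C J S r p k c) {E : Subgroup K} (hES : E ≤ S)
    (hn : ∀ s ∈ S, ∀ x ∈ E, s * x * s⁻¹ ∈ E) (h2 : ∀ x ∈ E, x * x = 1) :
    E ≤ A ∨ Nat.card E ≤ 2 ^ 9 ∨ (E ≤ J ∧ Nat.card E ≤ 2 ^ 10 ∧
      (Nat.card E = 2 ^ 10 → (∀ v, ∃ x ∈ E, p x = v) ∧ E ⊓ A = C)) := by
  have hcomm : ∀ {x y : K}, x ∈ E → y ∈ E → x * y = y * x := fun hx hy => comm_of_two h2 hx hy
  have hmul : ∀ x ∈ E, ∀ y ∈ E, r (x * y) =
      UTm (r x 0 1 + r y 0 1) (r x 0 2 + r y 0 2 + r x 0 1 * r y 1 2)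
        (r x 0 3 + r y 0 3 + r x 0 1 * r y 1 3 + r x 0 2 * r y 2 3) (r x 1 2 + r y 1 2)
        (r x 1 3 + r y 1 3 + r x 1 2 * r y 2 3) (r x 2 3 + r y 2 3) := by
    intro x hx y hy
    rw [d.r_mul x (hES hx) y (hES hy), d.ut (hES hx), d.ut (hES hy), ut_mul]
    rfl
  -- layer 1
  obtain ⟨E1, W1, hE1, hW1, hc1⟩ := lay E (fun x => (![r x 0 1, r x 1 2] : Fin 2 → ZMod 2)) (by
    intro x hx y hy
    show (![r (x * y) 0 1, r (x * y) 1 2] : Fin 2 → ZMod 2) = _
    rw [hmul x hx y hy]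
    ext i
    fin_cases i <;> rfl)
  have hE1' : ∀ x, x ∈ E1 ↔ x ∈ E ∧ r x 0 1 = 0 ∧ r x 1 2 = 0 := by
    intro x
    rw [hE1]
    constructor
    · rintro ⟨h, h'⟩; exact ⟨h, congrFun h' 0, congrFun h' 1⟩
    · rintro ⟨h, h', h''⟩; exact ⟨h, by rw [h', h'']; decide⟩
  -- layer 2
  obtain ⟨E2, W2, hE2, hW2, hc2⟩ := lay E1 (fun x => (r x 0 2 : ZMod 2)) (by
    intro x hx y hy
    rw [hE1'] at hx hy
    show r (x * y) 0 2 = _
    rw [hmul x hx.1 y hy.1, hx.2.1, UTm_02, zero_mul, add_zero])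
  have hE2' : ∀ x, x ∈ E2 ↔ x ∈ E ∧ r x 0 1 = 0 ∧ r x 1 2 = 0 ∧ r x 0 2 = 0 := by
    intro x
    rw [hE2, hE1', and_assoc, and_assoc]
  have hrE2 : ∀ x ∈ E2, r x = Mv ![r x 0 3, r x 1 3, r x 2 3] := by
    intro x hx
    rw [hE2'] at hx
    obtain ⟨h, h01, h12, h02⟩ := hx
    conv_lhs => rw [d.ut (hES h), h01, h12, h02]
    rfl
  -- layer 3
  obtain ⟨E3, W3, hE3, hW3, hc3⟩ := lay E2 (fun x => (![r x 0 3, r x 1 3, r x 2 3] : Fin 3 → ZMod 2))
    (by
    intro x hx y hy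
    rw [hE2'] at hx hy
    show (![r (x * y) 0 3, r (x * y) 1 3, r (x * y) 2 3] : Fin 3 → ZMod 2) = _
    rw [hmul x hx.1 y hy.1, hx.2.1, hx.2.2.1, hx.2.2.2, UTm_03, UTm_13, UTm_23]
    ext i
    fin_cases i <;> simp)
  have hE3' : ∀ x, x ∈ E3 ↔ x ∈ E ∧ x ∈ J := by
    intro x
    rw [hE3]
    constructor
    · rintro ⟨h, h'⟩
      have hE := ((hE2' x).1 h).1
      refine ⟨hE, d.J_le (hES hE) ?_⟩
      rw [hrE2 x h]
      have : (![r x 0 3, r x 1 3, r x 2 3] : Fin 3 → ZMod 2) = 0 := h'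
      rw [this]
      decide
    · rintro ⟨h, h'⟩
      have h1 : r x = 1 := (d.r_one x (hES h)).2 h'
      refine ⟨(hE2' x).2 ⟨h, ?_, ?_, ?_⟩, ?_⟩
      · rw [h1]; decide
      · rw [h1]; decide
      · rw [h1]; decide
      · show (![r x 0 3, r x 1 3, r x 2 3] : Fin 3 → ZMod 2) = 0
        rw [h1]; decide
  -- layer 4
  obtain ⟨E4, W4, hE4, hW4, hc4⟩ := lay E3 p (by
    intro x hx y hy
    exact d.p_mul x ((hE3' x).1 hx).2 y ((hE3' y).1 hy).2)
  have hE4' : ∀ x, x ∈ E4 ↔ x ∈ E ∧ x ∈ A := by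
    intro x
    rw [hE4, hE3']
    constructor
    · rintro ⟨⟨h, h'⟩, h3⟩; exact ⟨h, (d.p_zero x h').1 h3⟩
    · rintro ⟨h, h'⟩; exact ⟨⟨h, d.AJ h'⟩, (d.p_zero x (d.AJ h')).2 h'⟩
  -- layer 5
  obtain ⟨E5, W5, hE5, hW5, hc5⟩ := lay E4 k (by
    intro x hx y hy
    exact d.k_mul x ((hE4' x).1 hx).2 y ((hE4' y).1 hy).2)
  have hE5' : ∀ x, x ∈ E5 ↔ x ∈ E ∧ x ∈ C := by
    intro x
    rw [hE5, hE4']
    constructor
    · rintro ⟨⟨h, h'⟩, h3⟩; exact ⟨h, (d.k_zero x h').1 h3⟩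
    · rintro ⟨h, h'⟩; exact ⟨⟨h, d.CA h'⟩, (d.k_zero x (d.CA h')).2 h'⟩
  -- layer 6
  obtain ⟨E6, W6, hE6, hW6, hc6⟩ := lay E5 (fun x => (![c x 0 3, c x 1 3, c x 2 3] : Fin 3 → ZMod 2))
    (by
    intro x hx y hy
    show (![c (x * y) 0 3, c (x * y) 1 3, c (x * y) 2 3] : Fin 3 → ZMod 2) = _
    rw [d.c_mul x ((hE5' x).1 hx).2 y ((hE5' y).1 hy).2]
    ext i
    fin_cases i <;> rfl)
  have hE6' : ∀ x, x ∈ E6 ↔ x ∈ E ∧ x ∈ C ∧ c x = ALm (c x 0 1) (c x 0 2) 0 (c x 1 2) 0 0 := by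
    intro x
    rw [hE6, hE5', and_assoc]
    constructor
    · rintro ⟨h, h', h3⟩
      refine ⟨h, h', ?_⟩
      have e0 : c x 0 3 = 0 := congrFun h3 0
      have e1 : c x 1 3 = 0 := congrFun h3 1
      have e2 : c x 2 3 = 0 := congrFun h3 2
      conv_lhs => rw [d.al h', e0, e1, e2]
    · rintro ⟨h, h', h3⟩
      refine ⟨h, h', ?_⟩
      show (![c x 0 3, c x 1 3, c x 2 3] : Fin 3 → ZMod 2) = 0
      rw [h3]
      funext i; fin_cases i <;> rfl
  -- layer 7
  obtain ⟨E7, W7, hE7, hW7, hc7⟩ := lay E6 (fun x => (![c x 0 1, c x 0 2, c x 1 2] : Fin 3 → ZMod 2))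
    (by
    intro x hx y hy
    show (![c (x * y) 0 1, c (x * y) 0 2, c (x * y) 1 2] : Fin 3 → ZMod 2) = _
    rw [d.c_mul x ((hE6' x).1 hx).2.1 y ((hE6' y).1 hy).2.1]
    ext i
    fin_cases i <;> rfl)
  have hE7' : E7 = ⊥ := by
    rw [eq_bot_iff]
    intro x hx
    rw [hE7] at hx
    obtain ⟨h1, h3⟩ := hx
    have h4 := ((hE6' x).1 h1).2.2
    have e0 : c x 0 1 = 0 := congrFun h3 0
    have e1 : c x 0 2 = 0 := congrFun h3 1
    have e2 : c x 1 2 = 0 := congrFun h3 2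
    rw [e0, e1, e2] at h4
    have h5 : ALm 0 0 0 0 0 0 = 0 := by decide
    rw [h5] at h4
    exact (d.c_zero x ((hE6' x).1 h1).2.1).1 h4
  rw [hE7', Subgroup.card_bot, mul_one] at hc7
  have hcard : Nat.card E = Nat.card W1 * (Nat.card W2 * (Nat.card W3 * (Nat.card W4 *
      (Nat.card W5 * (Nat.card W6 * Nat.card W7))))) := by
    rw [hc1, hc2, hc3, hc4, hc5, hc6, hc7]
  -- bounds
  have b2 : Nat.card W2 ≤ 2 := by
    have h5 := Nat.card_mono (Set.toFinite _) (Set.subset_univ (W2 : Set (ZMod 2)))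
    rw [Nat.card_univ, Nat.card_zmod] at h5
    exact h5
  have b1 : Nat.card W1 ≤ 2 := by
    have h5 : W1 ≠ ⊤ := by
      intro h
      obtain ⟨x, hx, hx'⟩ := (hW1 ![1, 0]).1 (by rw [h]; trivial)
      obtain ⟨y, hy, hy'⟩ := (hW1 ![0, 1]).1 (by rw [h]; trivial)
      have ex0 : r x 0 1 = 1 := congrFun hx' 0
      have ex1 : r x 1 2 = 0 := congrFun hx' 1
      have ey0 : r y 0 1 = 0 := congrFun hy' 0
      have ey1 : r y 1 2 = 1 := congrFun hy' 1
      have h7 : r x * r y = r y * r x := by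
        rw [← d.r_mul x (hES hx) y (hES hy), ← d.r_mul y (hES hy) x (hES hx), hcomm hx hy]
      rw [d.ut (hES hx), d.ut (hES hy), ex0, ex1, ey0, ey1] at h7
      exact ff6 _ _ _ _ _ _ _ _ h7
    have h6 := card_sub_le h5
    rw [card_F] at h6
    omega
  have b7 : Nat.card W7 ≤ 8 := by
    have h5 := Nat.card_mono (Set.toFinite _) (Set.subset_univ (W7 : Set (Fin 3 → ZMod 2)))
    rw [Nat.card_univ, card_F] at h5
    exact h5
  have b6 : Nat.card W6 ≤ 8 := by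
    have h5 := Nat.card_mono (Set.toFinite _) (Set.subset_univ (W6 : Set (Fin 3 → ZMod 2)))
    rw [Nat.card_univ, card_F] at h5
    exact h5
  have b3 : Nat.card W3 ≤ 8 := by
    have h5 := Nat.card_mono (Set.toFinite _) (Set.subset_univ (W3 : Set (Fin 3 → ZMod 2)))
    rw [Nat.card_univ, card_F] at h5
    exact h5
  have b4 : Nat.card W4 ≤ 16 := by
    have h5 := Nat.card_mono (Set.toFinite _) (Set.subset_univ (W4 : Set (Fin 4 → ZMod 2)))
    rw [Nat.card_univ, card_F] at h5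
    exact h5
  have hp45 : ∀ {w0 : V4}, w0 ∈ W4 → w0 ≠ 0 →
      (Nat.card W4 * Nat.card W5 ≤ 4 ∨ ∀ w' ∈ W5, w' = 0) := by
    intro w0
    refine d.pk h2 ?_ ?_
    · intro w
      rw [hW4]
      simp only [hE3', Subgroup.mem_inf]
    · intro w
      rw [hW5]
      simp only [hE4', Subgroup.mem_inf]
  have hp36 : ∀ {w0 : Fin 3 → ZMod 2}, w0 ∈ W3 → w0 ≠ 0 →
      (Nat.card W3 * Nat.card W6 ≤ 4 ∨ ∀ w' ∈ W6, w' = 0) := by
    intro w0 hw0 hne
    refine pair ?_ hw0 hne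
    intro w hw w' hw'
    obtain ⟨x, hx, rfl⟩ := (hW3 w).1 hw
    obtain ⟨a, ha, rfl⟩ := (hW6 w').1 hw'
    have hxE := ((hE2' x).1 hx).1
    have haE := (hE5' a).1 ha
    have h5 := d.c_conj x (hES hxE) a haE.2
    have h6 : x * a * x⁻¹ = a := by rw [hcomm hxE haE.1]; group
    rw [h6, hrE2 x hx] at h5
    have h7 := d.al haE.2
    rw [h7] at h5
    rcases ff2 _ _ _ _ _ _ _ h5.symm with h | h | h
    · exact Or.inl h
    · exact Or.inr (Or.inl h)
    · exact Or.inr (Or.inr h)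
  by_cases hJ : E ≤ J
  · by_cases hA : E ≤ A
    · exact Or.inl hA
    right; right
    obtain ⟨x, hx, hxA⟩ := Set.not_subset.1 hA
    have hxW : p x ∈ W4 := (hW4 _).2 ⟨x, (hE3' x).2 ⟨hx, hJ hx⟩, rfl⟩
    have hx0 : p x ≠ 0 := fun h => hxA ((d.p_zero x (hJ hx)).1 h)
    have hr1 : ∀ x ∈ E, r x = 1 := fun x hx => (d.r_one x (hES hx)).2 (hJ hx)
    have c1 : Nat.card W1 = 1 := card_eq_one fun w hw => by
      obtain ⟨x, hx, rfl⟩ := (hW1 w).1 hw
      show (![r x 0 1, r x 1 2] : Fin 2 → ZMod 2) = 0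
      rw [hr1 x hx]; decide
    have c2 : Nat.card W2 = 1 := card_eq_one fun w hw => by
      obtain ⟨x, hx, rfl⟩ := (hW2 w).1 hw
      show r x 0 2 = 0
      rw [hr1 x ((hE1' x).1 hx).1]; decide
    have c3 : Nat.card W3 = 1 := card_eq_one fun w hw => by
      obtain ⟨x, hx, rfl⟩ := (hW3 w).1 hw
      show (![r x 0 3, r x 1 3, r x 2 3] : Fin 3 → ZMod 2) = 0
      rw [hr1 x ((hE2' x).1 hx).1]; decide
    rw [c1, c2, c3, one_mul, one_mul, one_mul] at hcard
    have h67 : Nat.card W6 * Nat.card W7 ≤ 64 := Nat.mul_le_mul b6 b7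
    refine ⟨hJ, ?_, ?_⟩
    · rcases hp45 hxW hx0 with h | h
      · rw [hcard, ← mul_assoc]
        calc Nat.card W4 * Nat.card W5 * (Nat.card W6 * Nat.card W7) ≤ 4 * 64 :=
              Nat.mul_le_mul h h67
          _ ≤ _ := by norm_num
      · have h8 := card_eq_one h
        rw [hcard, h8, one_mul]
        calc Nat.card W4 * (Nat.card W6 * Nat.card W7) ≤ 16 * 64 :=
              Nat.mul_le_mul b4 h67
          _ ≤ _ := by norm_num
    · intro h10
      rcases hp45 hxW hx0 with h | h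
      · exfalso
        rw [h10, ← mul_assoc] at hcard
        have : Nat.card W4 * Nat.card W5 * (Nat.card W6 * Nat.card W7) ≤ 4 * 64 :=
              Nat.mul_le_mul h h67
        rw [← hcard] at this
        norm_num at this
      · have h8 := card_eq_one h
        have hW4top : W4 = ⊤ := by
          by_contra hne
          have h9 := card_sub_le hne
          rw [card_F] at h9
          rw [h10, h8, one_mul] at hcard
          have : Nat.card W4 * (Nat.card W6 * Nat.card W7) ≤ 8 * 64 :=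
              Nat.mul_le_mul (by omega) h67
          rw [← hcard] at this
          norm_num at this
        constructor
        · intro v
          obtain ⟨x, hx, hxv⟩ := (hW4 v).1 (by rw [hW4top]; trivial)
          exact ⟨x, ((hE3' x).1 hx).1, hxv⟩
        · have hle : E ⊓ A ≤ C := by
            intro x hx
            have h9 : k x ∈ W5 := (hW5 _).2 ⟨x, (hE4' x).2 hx, rfl⟩
            exact (d.k_zero x hx.2).1 (h _ h9)
          have hE5C : E5 ≤ C := fun x hx => ((hE5' x).1 hx).2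
          have hcC : Nat.card C ≤ 64 := by
            let F : C → (Fin 6 → ZMod 2) := fun x => ![c x 0 1, c x 0 2, c x 0 3, c x 1 2, c x 1 3,
              c x 2 3]
            have hF : Function.Injective F := by
              intro x y hxy
              have e0 : c x 0 1 = c y 0 1 := congrFun hxy 0
              have e1 : c x 0 2 = c y 0 2 := congrFun hxy 1
              have e2 : c x 0 3 = c y 0 3 := congrFun hxy 2
              have e3 : c x 1 2 = c y 1 2 := congrFun hxy 3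
              have e4 : c x 1 3 = c y 1 3 := congrFun hxy 4
              have e5 : c x 2 3 = c y 2 3 := congrFun hxy 5
              have h11 : c x = c y := by
                rw [d.al x.2, d.al y.2, e0, e1, e2, e3, e4, e5]
              have h12 : c ((x : K) * (y : K)) = 0 := by
                rw [d.c_mul _ x.2 _ y.2, h11, m2]
              have h13 := (d.c_zero _ (C.mul_mem x.2 y.2)).1 h12
              have h14 := d.A2 _ (d.CA y.2)
              exact Subtype.ext (mul_right_cancel (h13.trans h14.symm))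
            have h11 := Nat.card_le_card_of_injective F hF
            rw [card_F] at h11
            exact h11
          have h11 : Nat.card E5 = 64 := by
            rw [hc6, hc7]
            apply le_antisymm h67
            rw [h10, h8, one_mul] at hcard
            have h12 : Nat.card W4 * (Nat.card W6 * Nat.card W7) ≤
              16 * (Nat.card W6 * Nat.card W7) := Nat.mul_le_mul_right _ b4
            rw [← hcard] at h12
            omega
          have h12 : E5 = C := Subgroup.eq_of_le_of_card_ge hE5C (by rw [h11]; exact hcC)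
          apply le_antisymm hle
          rw [← h12]
          intro x hx
          have := (hE5' x).1 hx
          exact ⟨this.1, d.CA this.2⟩
  · right; left
    -- some element acts nontrivially
    obtain ⟨x, hx, hxJ⟩ := Set.not_subset.1 hJ
    have hrx : r x ≠ 1 := fun h => hxJ (d.J_le (hES hx) h)
    obtain ⟨v, hv⟩ : ∃ v : V4, r x *ᵥ v ≠ v := by
      by_contra hcon
      push Not at hcon
      apply hrx
      apply Matrix.ext_of_mulVec_single
      intro i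
      rw [hcon, Matrix.one_mulVec]
    obtain ⟨y, hyJ, rfl⟩ := d.p_surj v
    -- commutator in layer 4
    have hw4 : p y + r x *ᵥ p y ∈ W4 := by
      rw [hW4]
      refine ⟨y * (x * y⁻¹ * x⁻¹), ?_, ?_⟩
      · rw [hE3']
        refine ⟨?_, J.mul_mem hyJ (d.nJ (hES hx) (J.inv_mem hyJ))⟩
        have : y * (x * y⁻¹ * x⁻¹) = (y * x * y⁻¹) * x⁻¹ := by group
        rw [this]
        exact E.mul_mem (hn y (d.JS hyJ) x hx) (E.inv_mem hx)
      · rw [d.p_mul y hyJ _ (d.nJ (hES hx) (J.inv_mem hyJ)), d.p_conj x (hES hx) _ (J.inv_mem hyJ),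
          d.p_inv hyJ]
    have hne4 : p y + r x *ᵥ p y ≠ 0 := by
      intro h
      apply hv
      calc r x *ᵥ p y = (p y + p y) + r x *ᵥ p y := by rw [v2, zero_add]
        _ = p y + (p y + r x *ᵥ p y) := by abel
        _ = p y := by rw [h, add_zero]
    have hW4ne : W4 ≠ ⊤ := by
      intro h
      obtain ⟨z, hz, hzy⟩ := (hW4 (p y)).1 (by rw [h]; trivial)
      have hz' := (hE3' z).1 hz
      have := d.p_fix (hES hx) hz'.2 (hcomm hx hz'.1)
      rw [hzy] at this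
      exact hv this
    have b45 : Nat.card W4 * Nat.card W5 ≤ 8 := by
      rcases hp45 hw4 hne4 with h | h
      · exact h.trans (by norm_num)
      · rw [card_eq_one h, mul_one]
        have h9 := card_sub_le hW4ne
        rw [card_F] at h9
        omega
    by_cases hρ : ∀ x ∈ E, r x 0 1 = 0 ∧ r x 0 2 = 0 ∧ r x 1 2 = 0
    · have c1 : Nat.card W1 = 1 := card_eq_one fun w hw => by
        obtain ⟨x, hx, rfl⟩ := (hW1 w).1 hw
        show (![r x 0 1, r x 1 2] : Fin 2 → ZMod 2) = 0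
        rw [(hρ x hx).1, (hρ x hx).2.2]; decide
      have c2 : Nat.card W2 = 1 := card_eq_one fun w hw => by
        obtain ⟨x, hx, rfl⟩ := (hW2 w).1 hw
        exact (hρ x ((hE1' x).1 hx).1).2.1
      have b36 : Nat.card W3 * Nat.card W6 ≤ 8 := by
        have hxE2 : x ∈ E2 := (hE2' x).2 ⟨hx, (hρ x hx).1, (hρ x hx).2.2, (hρ x hx).2.1⟩
        have hw3 : (![r x 0 3, r x 1 3, r x 2 3] : Fin 3 → ZMod 2) ∈ W3 := (hW3 _).2 ⟨x, hxE2, rfl⟩
        have hne3 : (![r x 0 3, r x 1 3, r x 2 3] : Fin 3 → ZMod 2) ≠ 0 := by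
          intro h
          apply hrx
          rw [hrE2 x hxE2, h]
          decide
        rcases hp36 hw3 hne3 with h | h
        · exact h.trans (by norm_num)
        · rw [card_eq_one h, mul_one]; exact b3
      rw [hcard, c1, c2, one_mul, one_mul]
      calc Nat.card W3 * (Nat.card W4 * (Nat.card W5 * (Nat.card W6 * Nat.card W7)))
          = (Nat.card W4 * Nat.card W5) * ((Nat.card W3 * Nat.card W6) * Nat.card W7) := by ring
        _ ≤ 8 * (8 * 8) := Nat.mul_le_mul b45 (Nat.mul_le_mul b36 b7)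
        _ = 2 ^ 9 := by norm_num
    · -- the case `ρ₃ ≠ 1`
      push Not at hρ
      obtain ⟨u, hu, hu'⟩ := hρ
      have hu3 : ¬ (r u 0 1 = 0 ∧ r u 0 2 = 0 ∧ r u 1 2 = 0) := fun h => hu' h.1 h.2.1 h.2.2
      -- layer 3
      obtain ⟨v, v', hv'0, hvv⟩ := ff4 _ _ (r u 0 3) _ (r u 1 3) (r u 2 3) hu3
      rw [← d.ut (hES hu)] at hvv
      obtain ⟨s, hs, hsr⟩ := d.r_surj 0 0 (v 0) 0 (v 1) (v 2)
      have hMM : Mv v * Mv v = 1 := by
        have : ∀ v, Mv v * Mv v = 1 := by (refine of_decide_eq_true ?_; (try (rewrite [Cfsg.Agent.LsF.mmulF_pat, Cfsg.Agent.LsF.piFintype_pat, Cfsg.Agent.LsF.fb7fa25_8.2, Cfsg.Agent.LsF.zadd_pat, Cfsg.Agent.LsF.zmul_pat, Cfsg.Agent.LsF.zdecEq_eq, Cfsg.Agent.LsF.finFintype_eq, Cfsg.Agent.LsF.zFintype_eq, Cfsg.Agent.LsF.dForall_eq, Cfsg.Agent.LsF.dMat_eq, Cfsg.Agent.LsF.instMOne_eq, Cfsg.Agent.LsF.zACM_pat, Cfsg.Agent.LsF.dFinEq_eq, Cfsg.Agent.LsF.decide_eq])); decide +kernel)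
        exact this v
      have hsi : r s⁻¹ = Mv v := by
        have h5 : r s * r s⁻¹ = 1 := by
          rw [← d.r_mul s hs _ (S.inv_mem hs), mul_inv_cancel]
          exact (d.r_one 1 S.one_mem).2 J.one_mem
        calc r s⁻¹ = (Mv v * Mv v) * r s⁻¹ := by rw [hMM, one_mul]
          _ = Mv v * (r s * r s⁻¹) := by rw [hsr, mul_assoc]; rfl
          _ = Mv v := by rw [h5, mul_one]
      have hwE : s * u * s⁻¹ * u⁻¹ ∈ E := E.mul_mem (hn s hs u hu) (E.inv_mem hu)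
      have hrw : r (s * u * s⁻¹ * u⁻¹) = Mv v' := by
        have h5 : r (s * u * s⁻¹ * u⁻¹) * r u = Mv v' * r u := by
          rw [← d.r_mul _ (hES hwE) _ (hES hu), inv_mul_cancel_right,
            d.r_mul _ (S.mul_mem hs (hES hu)) _ (S.inv_mem hs), d.r_mul _ hs _ (hES hu), hsi, hsr]
          exact hvv
        have h6 : r u * r u⁻¹ = 1 := by
          rw [← d.r_mul u (hES hu) _ (S.inv_mem (hES hu)), mul_inv_cancel]
          exact (d.r_one 1 S.one_mem).2 J.one_mem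
        calc r (s * u * s⁻¹ * u⁻¹) = r (s * u * s⁻¹ * u⁻¹) * (r u * r u⁻¹) := by rw [h6, mul_one]
          _ = (r (s * u * s⁻¹ * u⁻¹) * r u) * r u⁻¹ := (mul_assoc _ _ _).symm
          _ = Mv v' * (r u * r u⁻¹) := by rw [h5, mul_assoc]
          _ = Mv v' := by rw [h6, mul_one]
      have hw3 : v' ∈ W3 := by
        rw [hW3]
        refine ⟨_, (hE2' _).2 ⟨hwE, ?_, ?_, ?_⟩, ?_⟩
        · rw [hrw]; rfl
        · rw [hrw]; rfl
        · rw [hrw]; rfl
        · rw [hrw]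
          funext i
          fin_cases i <;> rfl
      have hW3ne : W3 ≠ ⊤ := by
        intro h
        apply hu3
        have := ff4' (r u 0 1) (r u 0 2) (r u 0 3) (r u 1 2) (r u 1 3) (r u 2 3) (by
          intro w
          obtain ⟨z, hz, hzw⟩ := (hW3 w).1 (by rw [h]; trivial)
          have hzE := ((hE2' z).1 hz).1
          have h5 := hrE2 z hz
          have h6 : (![r z 0 3, r z 1 3, r z 2 3] : Fin 3 → ZMod 2) = w := hzw
          rw [h6] at h5
          rw [← d.ut (hES hu), ← h5, ← d.r_mul _ (hES hu) _ (hES hzE),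
            ← d.r_mul _ (hES hzE) _ (hES hu), hcomm hu hzE])
        exact this
      have b36 : Nat.card W3 * Nat.card W6 ≤ 4 := by
        rcases hp36 hw3 hv'0 with h | h
        · exact h
        · rw [card_eq_one h, mul_one]
          have h9 := card_sub_le hW3ne
          rw [card_F] at h9
          omega
      have hW7ne : W7 ≠ ⊤ := by
        intro h
        apply hu3
        have := ff5 (r u 0 1) (r u 0 2) (r u 0 3) (r u 1 2) (r u 1 3) (r u 2 3) (by
          intro g h' l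
          obtain ⟨z, hz, hzw⟩ := (hW7 ![g, h', l]).1 (by rw [h]; trivial)
          have hz' := (hE6' z).1 hz
          have h5 := hz'.2.2
          have e0 : c z 0 1 = g := congrFun hzw 0
          have e1 : c z 0 2 = h' := congrFun hzw 1
          have e2 : c z 1 2 = l := congrFun hzw 2
          rw [e0, e1, e2] at h5
          have h6 := d.c_conj u (hES hu) z hz'.2.1
          have h7 : u * z * u⁻¹ = z := by rw [hcomm hu hz'.1]; group
          rw [h7, h5] at h6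
          rw [← d.ut (hES hu)]
          exact h6.symm)
        exact this
      have b7' : Nat.card W7 ≤ 4 := by
        have h9 := card_sub_le hW7ne
        rw [card_F] at h9
        omega
      rw [hcard]
      calc Nat.card W1 * (Nat.card W2 * (Nat.card W3 * (Nat.card W4 * (Nat.card W5 *
            (Nat.card W6 * Nat.card W7)))))
          = (Nat.card W1 * Nat.card W2) * ((Nat.card W4 * Nat.card W5) *
            ((Nat.card W3 * Nat.card W6) * Nat.card W7)) := by ring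
        _ ≤ (2 * 2) * (8 * (4 * 4)) :=
            Nat.mul_le_mul (Nat.mul_le_mul b1 b2) (Nat.mul_le_mul b45 (Nat.mul_le_mul b36 b7'))
        _ = 2 ^ 9 := by norm_num

end

end Cfsg.Agent.H338.L5
end

-- part: H338/L5Sw
section
/-!
# The swap (helper338)
-/

set_option autoImplicit false

namespace Cfsg.Agent.H338.L5

open Matrix

section

variable {K : Type*} [Group K] {A C J S : Subgroup K} {r : K → M4} {p k : K → V4} {c : K → M4}

theorem conj_mul' (g x y : K) : g * (x * y) * g⁻¹ = (g * x * g⁻¹) * (g * y * g⁻¹) := by group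
theorem conj_conj' (g h x : K) : g * (h * x * h⁻¹) * g⁻¹ = (g * h) * x * (g * h)⁻¹ := by group
theorem conj_inv' (g x : K) : g * x⁻¹ * g⁻¹ = (g * x * g⁻¹)⁻¹ := by group

theorem Dat.r_one' (d : Dat A C J S r p k c) : r 1 = 1 := (d.r_one 1 S.one_mem).2 J.one_mem

theorem Dat.r_inv_mul (d : Dat A C J S r p k c) {s : K} (hs : s ∈ S) : r s⁻¹ * r s = 1 := by
  rw [← d.r_mul _ (S.inv_mem hs) _ hs, inv_mul_cancel, d.r_one']

theorem Dat.k_inv (d : Dat A C J S r p k c) {x : K} (hx : x ∈ A) : k x⁻¹ = k x := by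
  rw [inv_eq_of_mul_eq_one_left (d.A2 x hx)]

theorem Dat.c_inj (d : Dat A C J S r p k c) {x y : K} (hx : x ∈ C) (hy : y ∈ C)
    (h : c x = c y) : x = y := by
  have h12 : c (x * y) = 0 := by rw [d.c_mul _ hx _ hy, h, m2]
  have h13 := (d.c_zero _ (C.mul_mem hx hy)).1 h12
  have h14 := d.A2 _ (d.CA hy)
  exact mul_right_cancel (h13.trans h14.symm)

theorem Dat.c_inv (d : Dat A C J S r p k c) {x : K} (hx : x ∈ C) : c x⁻¹ = c x := by
  rw [inv_eq_of_mul_eq_one_left (d.A2 x (d.CA hx))]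

/-- `C` is central in `J`. -/
theorem Dat.C_central (d : Dat A C J S r p k c) {x z : K} (hx : x ∈ J) (hz : z ∈ C) :
    x * z = z * x := by
  obtain ⟨h1, h2⟩ := d.comm x hx z (d.CA hz)
  rw [(d.k_zero z (d.CA hz)).2 hz, om_zero_right] at h2
  have h3 := (d.c_zero _ h1).1 h2
  calc x * z = (x * z * x⁻¹ * z⁻¹) * (z * x) := by group
    _ = z * x := by rw [h3, one_mul]

/-- The matrix equation determined by its action. -/
theorem eq_of_mulVec {M M' : M4} (h : ∀ v, M *ᵥ v = M' *ᵥ v) : M = M' :=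
  Matrix.ext_of_mulVec_single fun _ => h _

/-- Swapping data. -/
structure Sw (A C J S : Subgroup K) (r : K → M4) (p k : K → V4) (c : K → M4) (T : Subgroup K)
    (g : K) : Prop where
  dat : Dat A C J S r p k c
  ST : S ≤ T
  gT : g ∈ T
  gS : g ∉ S
  cases : ∀ t ∈ T, t ∈ S ∨ g⁻¹ * t ∈ S
  nS : ∀ t ∈ T, ∀ s ∈ S, t * s * t⁻¹ ∈ S
  gg : g * g ∈ S
  gJ : ∀ a ∈ A, g * a * g⁻¹ ∈ J
  pg : ∀ a ∈ A, p (g * a * g⁻¹) = k a
  gC : ∀ x ∈ C, g * x * g⁻¹ ∈ C

namespace Sw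

variable {T : Subgroup K} {g : K}

theorem ggA (w : Sw A C J S r p k c T g) {a : K} (ha : a ∈ A) : (g * g) * a * (g * g)⁻¹ ∈ A :=
  w.dat.nA _ w.gg a ha

theorem split (w : Sw A C J S r p k c T g) {x : K} (hx : x ∈ J) :
    ∃ a ∈ A, ∃ b ∈ A, x = a * (g * b * g⁻¹) ∧ k b = p x := by
  obtain ⟨b, hb, hbv⟩ := w.dat.k_surj (p x)
  have h1 := w.gJ b hb
  refine ⟨x * (g * b * g⁻¹)⁻¹, ?_, b, hb, by group, hbv⟩
  rw [← w.dat.p_zero _ (J.mul_mem hx (J.inv_mem h1)), w.dat.p_mul _ hx _ (J.inv_mem h1),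
    w.dat.p_inv h1, w.pg b hb, hbv, v2]

theorem ngJ (w : Sw A C J S r p k c T g) {x : K} (hx : x ∈ J) : g * x * g⁻¹ ∈ J := by
  obtain ⟨a, ha, b, hb, rfl, -⟩ := w.split hx
  rw [conj_mul', conj_conj']
  exact J.mul_mem (w.gJ a ha) (w.dat.AJ (w.ggA hb))

/-- The second coordinate. -/
def q (p : K → V4) (g : K) (x : K) : V4 := p (g * x * g⁻¹)

theorem q_mul (w : Sw A C J S r p k c T g) {x y : K} (hx : x ∈ J) (hy : y ∈ J) :
    q p g (x * y) = q p g x + q p g y := by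
  unfold q
  rw [conj_mul', w.dat.p_mul _ (w.ngJ hx) _ (w.ngJ hy)]

theorem q_A (w : Sw A C J S r p k c T g) {x : K} (hx : x ∈ A) : q p g x = k x := w.pg x hx

theorem q_E (w : Sw A C J S r p k c T g) {x : K} (hx : x ∈ A) : q p g (g * x * g⁻¹) = 0 := by
  unfold q
  rw [conj_conj', w.dat.p_zero _ (w.dat.AJ (w.ggA hx))]
  exact w.ggA hx

theorem q_inv (w : Sw A C J S r p k c T g) {x : K} (hx : x ∈ J) : q p g x⁻¹ = q p g x := by
  unfold q
  rw [conj_inv', w.dat.p_inv (w.ngJ hx)]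

theorem rg (w : Sw A C J S r p k c T g) {s : K} (hs : s ∈ S) : r (g * s * g⁻¹) = r s := by
  apply eq_of_mulVec
  intro v
  obtain ⟨a, ha, rfl⟩ := w.dat.k_surj v
  have h1 : g * (s * a * s⁻¹) * g⁻¹ = (g * s * g⁻¹) * (g * a * g⁻¹) * (g * s * g⁻¹)⁻¹ := by group
  have h2 := w.pg _ (w.dat.nA s hs a ha)
  rw [h1, w.dat.p_conj _ (w.nS g w.gT s hs) _ (w.gJ a ha), w.pg a ha, w.dat.k_conj s hs a ha] at h2
  exact h2

theorem q_conj (w : Sw A C J S r p k c T g) {s x : K} (hs : s ∈ S) (hx : x ∈ J) :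
    q p g (s * x * s⁻¹) = r s *ᵥ q p g x := by
  unfold q
  have h1 : g * (s * x * s⁻¹) * g⁻¹ = (g * s * g⁻¹) * (g * x * g⁻¹) * (g * s * g⁻¹)⁻¹ := by group
  rw [h1, w.dat.p_conj _ (w.nS g w.gT s hs) _ (w.ngJ hx), w.rg hs]

theorem comm_E (w : Sw A C J S r p k c T g) {a b : K} (ha : a ∈ A) (hb : b ∈ A)
    (h : k a = k b) : (g * a * g⁻¹) * b = b * (g * a * g⁻¹) := by
  obtain ⟨h1, h2⟩ := w.dat.comm _ (w.gJ a ha) b hb
  rw [w.pg a ha, h, om_self] at h2
  have h3 := (w.dat.c_zero _ h1).1 h2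
  calc (g * a * g⁻¹) * b = ((g * a * g⁻¹) * b * (g * a * g⁻¹)⁻¹ * b⁻¹) * (b * (g * a * g⁻¹)) := by
        group
    _ = _ := by rw [h3, one_mul]

theorem rgg (w : Sw A C J S r p k c T g) : r (g * g) = 1 := by
  apply eq_of_mulVec
  intro v
  rw [Matrix.one_mulVec]
  obtain ⟨a, ha, rfl⟩ := w.dat.k_surj v
  have h1 := w.comm_E ha ha rfl
  have hb := w.ggA ha
  -- conjugate by `g`
  have h2 : ((g * g) * a * (g * g)⁻¹) * (g * a * g⁻¹) = (g * a * g⁻¹) * ((g * g) * a * (g * g)⁻¹) := by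
    calc ((g * g) * a * (g * g)⁻¹) * (g * a * g⁻¹) = g * ((g * a * g⁻¹) * a) * g⁻¹ := by group
      _ = g * (a * (g * a * g⁻¹)) * g⁻¹ := by rw [h1]
      _ = _ := by group
  obtain ⟨h3, h4⟩ := w.dat.comm _ (w.gJ a ha) _ hb
  have h5 : (g * a * g⁻¹) * ((g * g) * a * (g * g)⁻¹) * (g * a * g⁻¹)⁻¹ *
      ((g * g) * a * (g * g)⁻¹)⁻¹ = 1 := by
    rw [← h2]; group
  rw [h5, (w.dat.c_zero 1 C.one_mem).2 rfl, w.pg a ha, w.dat.k_conj _ w.gg a ha] at h4
  rcases om_zero _ _ h4.symm with h | h | h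
  · rw [h, Matrix.mulVec_zero]
  · have h6 : k a = 0 := by
      calc k a = (r (g * g)⁻¹ * r (g * g)) *ᵥ k a := by rw [w.dat.r_inv_mul w.gg, Matrix.one_mulVec]
        _ = r (g * g)⁻¹ *ᵥ (r (g * g) *ᵥ k a) := by rw [Matrix.mulVec_mulVec]
        _ = 0 := by rw [h, Matrix.mulVec_zero]
    rw [h6, Matrix.mulVec_zero]
  · exact h.symm

theorem ggJ (w : Sw A C J S r p k c T g) : g * g ∈ J := w.dat.J_le w.gg w.rgg

theorem q_g (w : Sw A C J S r p k c T g) {x : K} (hx : x ∈ J) :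
    q p g (g * x * g⁻¹) = p x := by
  unfold q
  rw [conj_conj', w.dat.p_conj _ w.gg x hx, w.rgg, Matrix.one_mulVec]

/-- The commutator formula. -/
theorem commJ (w : Sw A C J S r p k c T g) {x y : K} (hx : x ∈ J) (hy : y ∈ J) :
    x * y * x⁻¹ * y⁻¹ ∈ C ∧
      c (x * y * x⁻¹ * y⁻¹) = om (p x) (q p g y) + om (q p g x) (p y) := by
  obtain ⟨a, ha, b, hb, hxe, hxb⟩ := w.split hx
  obtain ⟨a', ha', b', hb', hye, hyb⟩ := w.split hy
  have hqx : q p g x = k a := by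
    rw [hxe, w.q_mul (w.dat.AJ ha) (w.gJ b hb), w.q_A ha, w.q_E hb, add_zero]
  have hqy : q p g y = k a' := by
    rw [hye, w.q_mul (w.dat.AJ ha') (w.gJ b' hb'), w.q_A ha', w.q_E hb', add_zero]
  obtain ⟨h1, h2⟩ := w.dat.comm x hx a' ha'
  obtain ⟨h3, h4⟩ := w.dat.comm _ (w.gJ b' hb') a ha
  rw [w.pg b' hb', hyb] at h4
  -- `[x, f] = [f, a]⁻¹`
  have hEE : (g * b * g⁻¹) * (g * b' * g⁻¹) = (g * b' * g⁻¹) * (g * b * g⁻¹) := by
    rw [← conj_mul', ← conj_mul', w.dat.A_comm hb hb']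
  have h5 : x * (g * b' * g⁻¹) * x⁻¹ * (g * b' * g⁻¹)⁻¹ =
      ((g * b' * g⁻¹) * a * (g * b' * g⁻¹)⁻¹ * a⁻¹)⁻¹ := by
    rw [hxe]
    calc a * (g * b * g⁻¹) * (g * b' * g⁻¹) * (a * (g * b * g⁻¹))⁻¹ * (g * b' * g⁻¹)⁻¹
        = a * ((g * b * g⁻¹) * (g * b' * g⁻¹)) * (g * b * g⁻¹)⁻¹ * a⁻¹ * (g * b' * g⁻¹)⁻¹ := by group
      _ = a * ((g * b' * g⁻¹) * (g * b * g⁻¹)) * (g * b * g⁻¹)⁻¹ * a⁻¹ * (g * b' * g⁻¹)⁻¹ := by
          rw [hEE]
      _ = _ := by group
  have h6 : x * y * x⁻¹ * y⁻¹ = (x * a' * x⁻¹ * a'⁻¹) *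
      ((g * b' * g⁻¹) * a * (g * b' * g⁻¹)⁻¹ * a⁻¹)⁻¹ := by
    have h7 : a' * ((g * b' * g⁻¹) * a * (g * b' * g⁻¹)⁻¹ * a⁻¹)⁻¹ =
        ((g * b' * g⁻¹) * a * (g * b' * g⁻¹)⁻¹ * a⁻¹)⁻¹ * a' :=
      w.dat.C_central (w.dat.AJ ha') (C.inv_mem h3)
    rw [← h5] at h7 ⊢
    calc x * y * x⁻¹ * y⁻¹ = x * (a' * (g * b' * g⁻¹)) * x⁻¹ * (a' * (g * b' * g⁻¹))⁻¹ := by
          rw [← hye]
      _ = (x * a' * x⁻¹) * ((x * (g * b' * g⁻¹) * x⁻¹ * (g * b' * g⁻¹)⁻¹) * a') * a'⁻¹ * a'⁻¹ := by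
          group
      _ = (x * a' * x⁻¹) * (a' * (x * (g * b' * g⁻¹) * x⁻¹ * (g * b' * g⁻¹)⁻¹)) * a'⁻¹ * a'⁻¹ := by
          rw [h7]
      _ = (x * a' * x⁻¹ * a'⁻¹) * (a' * (a' * (x * (g * b' * g⁻¹) * x⁻¹ * (g * b' * g⁻¹)⁻¹)) * a'⁻¹) * a'⁻¹ := by
          group
      _ = (x * a' * x⁻¹ * a'⁻¹) * (a' * ((x * (g * b' * g⁻¹) * x⁻¹ * (g * b' * g⁻¹)⁻¹) * a') * a'⁻¹) * a'⁻¹ := by
          rw [h7]
      _ = (x * a' * x⁻¹ * a'⁻¹) * (a' * (x * (g * b' * g⁻¹) * x⁻¹ * (g * b' * g⁻¹)⁻¹)) * a'⁻¹ := by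
          group
      _ = (x * a' * x⁻¹ * a'⁻¹) * ((x * (g * b' * g⁻¹) * x⁻¹ * (g * b' * g⁻¹)⁻¹) * a') * a'⁻¹ := by
          rw [h7]
      _ = _ := by group
  rw [h6]
  refine ⟨C.mul_mem h1 (C.inv_mem h3), ?_⟩
  rw [w.dat.c_mul _ h1 _ (C.inv_mem h3), w.dat.c_inv h3, h2, h4, hqx, hqy, om_comm (p y)]

theorem sq (w : Sw A C J S r p k c T g) {x : K} (hx : x ∈ J) (h2 : x * x = 1) :
    om (p x) (q p g x) = 0 := by
  obtain ⟨a, ha, b, hb, hxe, hxb⟩ := w.split hx
  have hqx : q p g x = k a := by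
    rw [hxe, w.q_mul (w.dat.AJ ha) (w.gJ b hb), w.q_A ha, w.q_E hb, add_zero]
  obtain ⟨h3, h4⟩ := w.dat.comm _ (w.gJ b hb) a ha
  rw [w.pg b hb, hxb] at h4
  have hbb : (g * b * g⁻¹) * (g * b * g⁻¹) = 1 := by
    rw [← conj_mul', w.dat.A2 b hb]; group
  have haa := w.dat.A2 a ha
  have h5 : (g * b * g⁻¹) * a * (g * b * g⁻¹)⁻¹ * a⁻¹ = 1 := by
    rw [inv_eq_of_mul_eq_one_left hbb, inv_eq_of_mul_eq_one_left haa]
    rw [hxe] at h2
    -- `a e a e = 1`
    calc (g * b * g⁻¹) * a * (g * b * g⁻¹) * a = a⁻¹ * (a * (g * b * g⁻¹) * (a * (g * b * g⁻¹))) * a := by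
          group
      _ = 1 := by rw [h2]; group
  rw [h5, (w.dat.c_zero 1 C.one_mem).2 rfl] at h4
  rw [hqx]
  exact h4.symm

theorem pure (w : Sw A C J S r p k c T g) {x : K} (hx : x ∈ J) (h2 : x * x = 1) :
    p x = 0 ∨ q p g x = 0 ∨ p x = q p g x := om_zero _ _ (w.sq hx h2)

/-- `g` centralises the commutators. -/
theorem g_comm (w : Sw A C J S r p k c T g) (u v : V4) :
    ∃ z ∈ C, c z = om u v ∧ g * z * g⁻¹ = z := by
  obtain ⟨a, ha, rfl⟩ := w.dat.k_surj v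
  obtain ⟨b, hb, rfl⟩ := w.dat.k_surj u
  obtain ⟨h1, h2⟩ := w.dat.comm _ (w.gJ b hb) a ha
  rw [w.pg b hb] at h2
  refine ⟨_, h1, h2, ?_⟩
  apply w.dat.c_inj (w.gC _ h1) h1
  have h3 : g * ((g * b * g⁻¹) * a * (g * b * g⁻¹)⁻¹ * a⁻¹) * g⁻¹ =
      ((g * a * g⁻¹) * ((g * g) * b * (g * g)⁻¹) * (g * a * g⁻¹)⁻¹ *
        ((g * g) * b * (g * g)⁻¹)⁻¹)⁻¹ := by simp [mul_assoc]
  obtain ⟨h4, h5⟩ := w.dat.comm _ (w.gJ a ha) _ (w.ggA hb)
  rw [h3, w.dat.c_inv h4, h5, h2, w.pg a ha, w.dat.k_conj _ w.gg b hb, w.rgg, Matrix.one_mulVec,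
    om_comm]

theorem gC_fix (w : Sw A C J S r p k c T g) {z : K} (hz : z ∈ C) : g * z * g⁻¹ = z := by
  have hdec : ∀ a b c d e f : ZMod 2, ALm a b c d e f =
      om ![1, 0, 0, 0] ![0, a, b, c] + om ![0, 1, 0, 0] ![0, 0, d, e] + om ![0, 0, 1, 0] ![0, 0, 0, f] := by
    (set_option synthInstance.maxSize 100000 in exact Cfsg.Agent.Lib.Refl.of (by ((try (rewrite [Cfsg.Agent.LsF.fb7fa25_9.2, Cfsg.Agent.LsF.fb7fa25_5.2, Cfsg.Agent.LsF.zcast_pat, Cfsg.Agent.LsF.vecCons_eq, Cfsg.Agent.LsF.zval_eq])); decide +kernel)))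
  obtain ⟨z1, h1, h1', h1''⟩ := w.g_comm ![1, 0, 0, 0] ![0, c z 0 1, c z 0 2, c z 0 3]
  obtain ⟨z2, h2, h2', h2''⟩ := w.g_comm ![0, 1, 0, 0] ![0, 0, c z 1 2, c z 1 3]
  obtain ⟨z3, h3, h3', h3''⟩ := w.g_comm ![0, 0, 1, 0] ![0, 0, 0, c z 2 3]
  have h4 : z = z1 * z2 * z3 := by
    apply w.dat.c_inj hz (C.mul_mem (C.mul_mem h1 h2) h3)
    rw [w.dat.c_mul _ (C.mul_mem h1 h2) _ h3, w.dat.c_mul _ h1 _ h2, h1', h2', h3', ← hdec]
    exact w.dat.al hz
  rw [h4, conj_mul', conj_mul', h1'', h2'', h3'']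

theorem pq_zero (w : Sw A C J S r p k c T g) {x : K} (hx : x ∈ J) (hp : p x = 0)
    (hq : q p g x = 0) : x ∈ C := by
  have hA := (w.dat.p_zero x hx).1 hp
  rw [← w.dat.k_zero x hA, ← w.q_A hA, hq]

theorem C_p (w : Sw A C J S r p k c T g) {x : K} (hx : x ∈ C) : p x = 0 :=
  (w.dat.p_zero x (w.dat.AJ (w.dat.CA hx))).2 (w.dat.CA hx)

theorem C_q (w : Sw A C J S r p k c T g) {x : K} (hx : x ∈ C) : q p g x = 0 := by
  rw [w.q_A (w.dat.CA hx), w.dat.k_zero x (w.dat.CA hx)]; exact hx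

/-- Action of elements outside `S`. -/
theorem p_out (w : Sw A C J S r p k c T g) {s x : K} (hs : s ∈ S) (hx : x ∈ J) :
    p ((g * s) * x * (g * s)⁻¹) = r s *ᵥ q p g x := by
  rw [← conj_conj', ← w.q_conj hs hx]; rfl

theorem q_out (w : Sw A C J S r p k c T g) {s x : K} (hs : s ∈ S) (hx : x ∈ J) :
    q p g ((g * s) * x * (g * s)⁻¹) = r s *ᵥ p x := by
  rw [← conj_conj', w.q_g (w.dat.nJ hs hx), w.dat.p_conj s hs x hx]

theorem nJT (w : Sw A C J S r p k c T g) {t x : K} (ht : t ∈ T) (hx : x ∈ J) :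
    t * x * t⁻¹ ∈ J := by
  rcases w.cases t ht with h | h
  · exact w.dat.nJ h hx
  · have h1 : t = g * (g⁻¹ * t) := by group
    rw [h1, ← conj_conj']
    exact w.ngJ (w.dat.nJ h hx)

theorem nCT (w : Sw A C J S r p k c T g) {t x : K} (ht : t ∈ T) (hx : x ∈ C) :
    t * x * t⁻¹ ∈ C := by
  rcases w.cases t ht with h | h
  · exact w.dat.nC _ h _ hx
  · have h1 : t = g * (g⁻¹ * t) := by group
    rw [h1, ← conj_conj']
    exact w.gC _ (w.dat.nC _ h _ hx)

/-- The diagonal group. -/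
def D (w : Sw A C J S r p k c T g) : Subgroup K where
  carrier := {x | x ∈ J ∧ p x = q p g x}
  one_mem' := ⟨J.one_mem, by rw [w.C_p C.one_mem, w.C_q C.one_mem]⟩
  mul_mem' := fun {x y} hx hy => ⟨J.mul_mem hx.1 hy.1, by
    rw [w.dat.p_mul x hx.1 y hy.1, w.q_mul hx.1 hy.1, hx.2, hy.2]⟩
  inv_mem' := fun {x} hx => ⟨J.inv_mem hx.1, by rw [w.dat.p_inv hx.1, w.q_inv hx.1, hx.2]⟩

theorem D_comm (w : Sw A C J S r p k c T g) {x y : K} (hx : x ∈ w.D) (hy : y ∈ w.D) :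
    x * y = y * x := by
  obtain ⟨h1, h2⟩ := w.commJ hx.1 hy.1
  rw [← hx.2, ← hy.2, m2] at h2
  have h3 := (w.dat.c_zero _ h1).1 h2
  calc x * y = (x * y * x⁻¹ * y⁻¹) * (y * x) := by group
    _ = _ := by rw [h3, one_mul]

theorem D_surj (w : Sw A C J S r p k c T g) (v : V4) : ∃ x ∈ w.D, p x = v := by
  obtain ⟨a, ha, rfl⟩ := w.dat.k_surj v
  refine ⟨a * (g * a * g⁻¹), ⟨J.mul_mem (w.dat.AJ ha) (w.gJ a ha), ?_⟩, ?_⟩
  · rw [w.dat.p_mul _ (w.dat.AJ ha) _ (w.gJ a ha), w.q_mul (w.dat.AJ ha) (w.gJ a ha), w.q_A ha,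
      w.q_E ha, w.pg a ha, (w.dat.p_zero a (w.dat.AJ ha)).2 ha, add_zero, zero_add]
  · rw [w.dat.p_mul _ (w.dat.AJ ha) _ (w.gJ a ha), w.pg a ha, (w.dat.p_zero a (w.dat.AJ ha)).2 ha,
      zero_add]

/-- An element outside `S` centralising `D`. -/
theorem exists_g1 (w : Sw A C J S r p k c T g) : ∃ y ∈ J, ∀ x ∈ w.D,
    (y * g) * x * (y * g)⁻¹ = x := by
  obtain ⟨y, hy, hyp⟩ := w.dat.k_surj (p (g * g))
  refine ⟨y, w.dat.AJ hy, ?_⟩
  intro x hx
  obtain ⟨a, ha, hav⟩ := w.dat.k_surj (p x)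
  have hyJ := w.dat.AJ hy
  -- the element `a * a^g`
  have hd' : a * (g * a * g⁻¹) ∈ w.D := by
    refine ⟨J.mul_mem (w.dat.AJ ha) (w.gJ a ha), ?_⟩
    rw [w.dat.p_mul _ (w.dat.AJ ha) _ (w.gJ a ha), w.q_mul (w.dat.AJ ha) (w.gJ a ha), w.q_A ha,
      w.q_E ha, w.pg a ha, (w.dat.p_zero a (w.dat.AJ ha)).2 ha, add_zero, zero_add]
  have hpd' : p (a * (g * a * g⁻¹)) = p x := by
    rw [w.dat.p_mul _ (w.dat.AJ ha) _ (w.gJ a ha), w.pg a ha, (w.dat.p_zero a (w.dat.AJ ha)).2 ha,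
      zero_add, hav]
  set d' := a * (g * a * g⁻¹) with hd'e
  have hz : d'⁻¹ * x ∈ C := by
    apply w.pq_zero (J.mul_mem (J.inv_mem hd'.1) hx.1)
    · rw [w.dat.p_mul _ (J.inv_mem hd'.1) _ hx.1, w.dat.p_inv hd'.1, hpd', v2]
    · rw [w.q_mul (J.inv_mem hd'.1) hx.1, w.q_inv hd'.1, ← hd'.2, ← hx.2, hpd', v2]
  set z := d'⁻¹ * x with hze
  have hxz : x = d' * z := by rw [hze]; group
  obtain ⟨h1, h2⟩ := w.dat.comm _ w.ggJ a ha
  -- conjugation by `g`
  have h3 : g * x * g⁻¹ = ((g * g) * a * (g * g)⁻¹ * a⁻¹) * x := by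
    have h4 : g * d' * g⁻¹ = ((g * g) * a * (g * g)⁻¹ * a⁻¹) * d' := by
      rw [hd'e, conj_mul', conj_conj']
      have h5 := w.dat.C_central (w.gJ a ha) h1
      calc (g * a * g⁻¹) * ((g * g) * a * (g * g)⁻¹)
          = ((g * a * g⁻¹) * ((g * g) * a * (g * g)⁻¹ * a⁻¹)) * a := by group
        _ = (((g * g) * a * (g * g)⁻¹ * a⁻¹) * (g * a * g⁻¹)) * a := by rw [h5]
        _ = ((g * g) * a * (g * g)⁻¹ * a⁻¹) * ((g * a * g⁻¹) * a) := by rw [mul_assoc]
        _ = _ := by rw [w.comm_E ha ha rfl]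
    calc g * x * g⁻¹ = (g * d' * g⁻¹) * (g * z * g⁻¹) := by rw [hxz, conj_mul']
      _ = _ := by rw [h4, w.gC_fix hz, mul_assoc, ← hxz]
  obtain ⟨h6, h7⟩ := w.commJ hyJ hx.1
  rw [(w.dat.p_zero y hyJ).2 hy, om_zero_left, zero_add, w.q_A hy, hyp] at h7
  rw [hav] at h2
  have h8 : ((g * g) * a * (g * g)⁻¹ * a⁻¹) * (y * x * y⁻¹ * x⁻¹) = 1 := by
    rw [← w.dat.c_zero _ (C.mul_mem h1 h6), w.dat.c_mul _ h1 _ h6, h2, h7, m2]
  have h9 := w.dat.C_central hyJ h1
  calc (y * g) * x * (y * g)⁻¹ = y * (g * x * g⁻¹) * y⁻¹ := by group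
    _ = (y * ((g * g) * a * (g * g)⁻¹ * a⁻¹)) * x * y⁻¹ := by rw [h3]; group
    _ = (((g * g) * a * (g * g)⁻¹ * a⁻¹) * y) * x * y⁻¹ := by rw [h9]
    _ = (((g * g) * a * (g * g)⁻¹ * a⁻¹) * (y * x * y⁻¹ * x⁻¹)) * x := by group
    _ = x := by rw [h8, one_mul]

/-- The centraliser of `D` in `T`. -/
def F (w : Sw A C J S r p k c T g) : Subgroup K := T ⊓ Subgroup.centralizer (w.D : Set K)

theorem mem_F (w : Sw A C J S r p k c T g) {x : K} :
    x ∈ w.F ↔ x ∈ T ∧ ∀ y ∈ w.D, x * y = y * x := by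
  unfold F
  rw [Subgroup.mem_inf, Subgroup.mem_centralizer_iff]
  constructor
  · rintro ⟨h, h'⟩; exact ⟨h, fun y hy => (h' y hy).symm⟩
  · rintro ⟨h, h'⟩; exact ⟨h, fun y hy => (h' y hy).symm⟩

theorem DS (w : Sw A C J S r p k c T g) {x : K} (hx : x ∈ w.D) : x ∈ S := w.dat.JS hx.1

theorem D_F (w : Sw A C J S r p k c T g) {x : K} (hx : x ∈ w.D) : x ∈ w.F :=
  w.mem_F.2 ⟨w.ST (w.DS hx), fun _ hy => w.D_comm hx hy⟩

/-- An element of `S` commuting with representatives lies in `D`. -/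
theorem cent_D (w : Sw A C J S r p k c T g) {s : K} (hs : s ∈ S)
    (h : ∀ v, ∃ x ∈ w.D, p x = v ∧ s * x = x * s) : s ∈ w.D := by
  have hr : r s = 1 := by
    apply eq_of_mulVec
    intro v
    obtain ⟨x, hx, rfl, hsx⟩ := h v
    rw [Matrix.one_mulVec, w.dat.p_fix hs hx.1 hsx]
  have hsJ := w.dat.J_le hs hr
  refine ⟨hsJ, ?_⟩
  have h5 : ∀ v, om (p s + q p g s) v = 0 := by
    intro v
    obtain ⟨x, hx, hxv, hsx⟩ := h v
    obtain ⟨h1, h2⟩ := w.commJ hsJ hx.1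
    have h3 : s * x * s⁻¹ * x⁻¹ = 1 := by rw [hsx]; group
    rw [h3, (w.dat.c_zero 1 C.one_mem).2 rfl, ← hx.2, hxv, ← om_add] at h2
    exact h2.symm
  have h6 : ∀ u : V4, (∀ v, om u v = 0) → u = 0 := by decide +kernel
  have h7 := h6 _ h5
  calc p s = p s + (q p g s + q p g s) := by rw [v2, add_zero]
    _ = (p s + q p g s) + q p g s := by abel
    _ = q p g s := by rw [h7, zero_add]

theorem F_S (w : Sw A C J S r p k c T g) {x : K} (hx : x ∈ w.F) (hxS : x ∈ S) : x ∈ w.D := by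
  apply w.cent_D hxS
  intro v
  obtain ⟨y, hy, hyv⟩ := w.D_surj v
  exact ⟨y, hy, hyv, (w.mem_F.1 hx).2 y hy⟩

/-- Products of two elements outside `S`. -/
theorem out_out (w : Sw A C J S r p k c T g) {x y : K} (hx : x ∈ T) (hy : y ∈ T) (hxS : x ∉ S)
    (hyS : y ∉ S) : x⁻¹ * y ∈ S := by
  have h1 := (w.cases x hx).resolve_left hxS
  have h2 := (w.cases y hy).resolve_left hyS
  have h3 : x⁻¹ * y = (g⁻¹ * x)⁻¹ * (g⁻¹ * y) := by group
  rw [h3]
  exact S.mul_mem (S.inv_mem h1) h2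

theorem F_comm (w : Sw A C J S r p k c T g) {x y : K} (hx : x ∈ w.F) (hy : y ∈ w.F) :
    x * y = y * x := by
  by_cases hxS : x ∈ S
  · exact ((w.mem_F.1 hy).2 x (w.F_S hx hxS)).symm
  · by_cases hyS : y ∈ S
    · exact (w.mem_F.1 hx).2 y (w.F_S hy hyS)
    · have h1 := w.out_out (w.mem_F.1 hx).1 (w.mem_F.1 hy).1 hxS hyS
      have h2 := w.F_S (w.F.mul_mem (w.F.inv_mem hx) hy) h1
      have h3 := (w.mem_F.1 hx).2 _ h2
      calc x * y = x * (x * (x⁻¹ * y)) := by group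
        _ = x * ((x⁻¹ * y) * x) := by rw [h3]
        _ = y * x := by group

end Sw

end

end Cfsg.Agent.H338.L5
end

-- part: H338/L5Rank
section
/-!
# A rank computation (helper338)
-/

set_option autoImplicit false

namespace Cfsg.Agent.H338.L5

open Matrix

def Bas (i : Fin 6) : M4 :=
  ALm (if i = 0 then 1 else 0) (if i = 1 then 1 else 0) (if i = 2 then 1 else 0)
    (if i = 3 then 1 else 0) (if i = 4 then 1 else 0) (if i = 5 then 1 else 0)

def Chk (u : M4) (i j : Fin 6) : Prop :=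
  u * Bas i * uᵀ ≠ Bas i ∧ u * Bas j * uᵀ ≠ Bas j ∧ u * Bas i * uᵀ + Bas i ≠ u * Bas j * uᵀ + Bas j

instance instDecChk (u : M4) (i j : Fin 6) : Decidable (Chk u i j) := by
  unfold Chk; infer_instance

private noncomputable def _root_.Cfsg.Agent.LsF.fb7fa25_10 : {f // @Cfsg.Agent.H338.L5.Bas = f} := ⟨_, by first | (delta Cfsg.Agent.H338.L5.Bas; rewrite [Cfsg.Agent.LsF.fb7fa25_9.2, Cfsg.Agent.LsF.dFinEq_eq, Cfsg.Agent.LsF.ite_eq]; exact rfl) | exact rfl⟩
theorem rank_two : ∀ a b c d e f : ZMod 2,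
    (a = 0 ∧ b = 0 ∧ c = 0 ∧ d = 0 ∧ e = 0 ∧ f = 0) ∨ ∃ i j : Fin 6,
      Chk (UTm a b c d e f) i j := by
  (delta Cfsg.Agent.H338.L5.Chk; set_option synthInstance.maxSize 100000 in exact Cfsg.Agent.Lib.Refl.of (by ((try (rewrite [Cfsg.Agent.LsF.fb7fa25_7.2, Cfsg.Agent.LsF.fb7fa25_10.2, Cfsg.Agent.LsF.zcast_pat, Cfsg.Agent.LsF.zval_eq])); decide +kernel)))

end Cfsg.Agent.H338.L5
end

-- part: H338/L5Norm
section
/-!
# The normaliser of the extended 2-group (helper338)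
-/

set_option autoImplicit false

namespace Cfsg.Agent.H338.L5

open Matrix

theorem four_le {V : Type*} [AddCommGroup V] (W : AddSubgroup V) [Finite W] {a b : V}
    (ha : a ∈ W) (hb : b ∈ W) (ha0 : a ≠ 0) (hb0 : b ≠ 0) (hab : a ≠ b) (hs : a + b ≠ 0) :
    4 ≤ Nat.card W := by
  classical
  have h1 : ({0, a, b, a + b} : Finset V).card = 4 := by
    rw [Finset.card_insert_of_notMem, Finset.card_insert_of_notMem, Finset.card_insert_of_notMem,
      Finset.card_singleton]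
    · rw [Finset.mem_singleton]
      intro h
      exact ha0 (right_eq_add.1 h)
    · rw [Finset.mem_insert, Finset.mem_singleton]
      rintro (h | h)
      · exact hab h
      · exact hb0 (left_eq_add.1 h)
    · rw [Finset.mem_insert, Finset.mem_insert, Finset.mem_singleton]
      rintro (h | h | h)
      · exact ha0 h.symm
      · exact hb0 h.symm
      · exact hs h.symm
  have h2 : ∀ x ∈ ({0, a, b, a + b} : Finset V), x ∈ W := by
    intro x hx
    rw [Finset.mem_insert, Finset.mem_insert, Finset.mem_insert, Finset.mem_singleton] at hx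
    rcases hx with rfl | rfl | rfl | rfl
    · exact W.zero_mem
    · exact ha
    · exact hb
    · exact W.add_mem ha hb
  have h3 := Nat.card_le_card_of_injective (fun x : ({0, a, b, a + b} : Finset V) =>
    (⟨x.1, h2 x.1 x.2⟩ : W)) (fun x y h => Subtype.ext (congrArg (fun z : W => (z : V)) h))
  rw [Nat.card_eq_fintype_card, Fintype.card_coe, h1] at h3
  exact h3

section

variable {K : Type*} [Group K] {A C J S : Subgroup K} {r : K → M4} {p k : K → V4} {c : K → M4}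

namespace Sw

variable {T : Subgroup K} {g : K}

open Classical in
/-- The extension of `r` to `T`. -/
noncomputable def rt (S : Subgroup K) (r : K → M4) (g : K) (y : K) : M4 :=
  if y ∈ S then r y else r (g⁻¹ * y)

theorem rt_in {y : K} (h : y ∈ S) : rt S r g y = r y := if_pos h
theorem rt_out {y : K} (h : y ∉ S) : rt S r g y = r (g⁻¹ * y) := if_neg h

/-- The difference. -/
def de (p : K → V4) (g : K) (x : K) : V4 := p x + q p g x

theorem de_mul (w : Sw A C J S r p k c T g) {x y : K} (hx : x ∈ J) (hy : y ∈ J) :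
    de p g (x * y) = de p g x + de p g y := by
  unfold de
  rw [w.dat.p_mul x hx y hy, w.q_mul hx hy]
  abel

theorem de_inv (w : Sw A C J S r p k c T g) {x : K} (hx : x ∈ J) :
    de p g x⁻¹ = de p g x := by
  unfold de
  rw [w.dat.p_inv hx, w.q_inv hx]

theorem de_conj (w : Sw A C J S r p k c T g) {y x : K} (hy : y ∈ T) (hx : x ∈ J) :
    de p g (y * x * y⁻¹) = rt S r g y *ᵥ de p g x := by
  unfold de
  by_cases hS : y ∈ S
  · rw [rt_in hS, w.dat.p_conj y hS x hx, w.q_conj hS hx, Matrix.mulVec_add]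
  · have h1 := (w.cases y hy).resolve_left hS
    have h2 : y = g * (g⁻¹ * y) := by group
    rw [rt_out hS]
    conv_lhs => rw [h2]
    rw [w.p_out h1 hx, w.q_out h1 hx, Matrix.mulVec_add, add_comm]

theorem c_conj (w : Sw A C J S r p k c T g) {y x : K} (hy : y ∈ T) (hx : x ∈ C) :
    c (y * x * y⁻¹) = rt S r g y * c x * (rt S r g y)ᵀ := by
  by_cases hS : y ∈ S
  · rw [rt_in hS, w.dat.c_conj y hS x hx]
  · have h1 := (w.cases y hy).resolve_left hS
    have h2 : y = g * (g⁻¹ * y) := by group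
    rw [rt_out hS]
    conv_lhs => rw [h2]
    rw [← conj_conj', w.gC_fix (w.dat.nC _ h1 _ hx), w.dat.c_conj _ h1 x hx]

theorem rt_ut (w : Sw A C J S r p k c T g) {y : K} (hy : y ∈ T) :
    ∃ a b c d e f, rt S r g y = UTm a b c d e f := by
  by_cases hS : y ∈ S
  · rw [rt_in hS]; exact w.dat.r_ut y hS
  · rw [rt_out hS]; exact w.dat.r_ut _ ((w.cases y hy).resolve_left hS)

/-- The centraliser of `y` in `C` is small. -/
theorem card_CC [Finite K] (w : Sw A C J S r p k c T g) {y : K} (hy : y ∈ T)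
    (hr : rt S r g y ≠ 1) {Q : Subgroup K} (hQ : ∀ z ∈ Q, z ∈ C ∧ y * z * y⁻¹ = z) :
    4 * Nat.card Q ≤ Nat.card C := by
  obtain ⟨E0, W, hE0, hW, hc⟩ := lay C (fun z => c (y * z * y⁻¹) + c z) (by
    intro a ha b hb
    show c (y * (a * b) * y⁻¹) + c (a * b) = _
    rw [conj_mul', w.dat.c_mul _ (w.nCT hy ha) _ (w.nCT hy hb), w.dat.c_mul _ ha _ hb]
    abel)
  obtain ⟨a, b, c', d, e, f, hu⟩ := w.rt_ut hy
  have h4 : 4 ≤ Nat.card W := by
    rcases rank_two a b c' d e f with ⟨rfl, rfl, rfl, rfl, rfl, rfl⟩ | ⟨i, j, h1, h2, h3⟩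
    · exact absurd (hu.trans UTm_one) hr
    · have hB : ∀ i : Fin 6, rt S r g y * Bas i * (rt S r g y)ᵀ + Bas i ∈ W := by
        intro i
        obtain ⟨z, hz, hzi⟩ := w.dat.c_surj (if i = 0 then 1 else 0) (if i = 1 then 1 else 0)
          (if i = 2 then 1 else 0) (if i = 3 then 1 else 0) (if i = 4 then 1 else 0)
          (if i = 5 then 1 else 0)
        rw [hW]
        refine ⟨z, hz, ?_⟩
        have h5 : c z = Bas i := hzi
        show c (y * z * y⁻¹) + c z = _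
        rw [w.c_conj hy hz, h5]
      rw [← hu] at h1 h2 h3
      have hi := hB i
      have hj := hB j
      set wi := rt S r g y * Bas i * (rt S r g y)ᵀ + Bas i with hwi
      set wj := rt S r g y * Bas j * (rt S r g y)ᵀ + Bas j with hwj
      have hi0 : wi ≠ 0 := by
        intro h
        apply h1
        calc rt S r g y * Bas i * (rt S r g y)ᵀ = rt S r g y * Bas i * (rt S r g y)ᵀ + (Bas i + Bas i) := by
              rw [m2, add_zero]
          _ = wi + Bas i := by rw [hwi]; abel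
          _ = Bas i := by rw [h, zero_add]
      have hj0 : wj ≠ 0 := by
        intro h
        apply h2
        calc rt S r g y * Bas j * (rt S r g y)ᵀ = rt S r g y * Bas j * (rt S r g y)ᵀ + (Bas j + Bas j) := by
              rw [m2, add_zero]
          _ = wj + Bas j := by rw [hwj]; abel
          _ = Bas j := by rw [h, zero_add]
      have hij : wi + wj ≠ 0 := by
        intro h
        apply h3
        calc wi = wi + (wj + wj) := by rw [m2, add_zero]
          _ = (wi + wj) + wj := by abel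
          _ = wj := by rw [h, zero_add]
      exact four_le W hi hj hi0 hj0 h3 hij
  have hQE : Q ≤ E0 := by
    intro z hz
    rw [hE0]
    obtain ⟨h1, h2⟩ := hQ z hz
    refine ⟨h1, ?_⟩
    show c (y * z * y⁻¹) + c z = 0
    rw [h2, m2]
  have h5 : Nat.card Q ≤ Nat.card E0 := Nat.card_mono (Set.toFinite _) hQE
  rw [hc]
  exact Nat.mul_le_mul h4 h5

/-- Elements of `F` outside `S`. -/
theorem F_out (w : Sw A C J S r p k c T g) {z x : K} (hz : z ∈ w.F) (hzS : z ∉ S) (hx : x ∈ J) :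
    p (z * x * z⁻¹) = q p g x := by
  have h1 := (w.cases z (w.mem_F.1 hz).1).resolve_left hzS
  have h2 : z = g * (g⁻¹ * z) := by group
  have h3 : r (g⁻¹ * z) = 1 := by
    apply eq_of_mulVec
    intro v
    obtain ⟨y, hy, hyv⟩ := w.D_surj v
    have h4 : z * y * z⁻¹ = y := by rw [(w.mem_F.1 hz).2 y hy]; group
    have h5 := w.p_out h1 hy.1
    rw [← h2, h4, ← hy.2, hyv] at h5
    rw [Matrix.one_mulVec, ← h5]
  have h6 := w.p_out h1 hx
  rw [← h2, h3, Matrix.one_mulVec] at h6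
  exact h6

theorem om_eq (w : Sw A C J S r p k c T g) {z x : K} (hz : z ∈ w.D) (hx : x ∈ J)
    (h : z * x = x * z) : om (p z) (de p g x) = 0 := by
  obtain ⟨h1, h2⟩ := w.commJ hz.1 hx
  have h3 : z * x * z⁻¹ * x⁻¹ = 1 := by rw [h]; group
  rw [h3, (w.dat.c_zero 1 C.one_mem).2 rfl, ← hz.2, ← om_add'] at h2
  unfold de
  rw [add_comm]
  exact h2.symm

theorem gT_inv (w : Sw A C J S r p k c T g) : g⁻¹ ∈ T := T.inv_mem w.gT

/-- An element outside `S` in `F`. -/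
theorem exists_F_out (w : Sw A C J S r p k c T g) : ∃ z ∈ w.F, z ∉ S := by
  obtain ⟨y, hy, h⟩ := w.exists_g1
  refine ⟨y * g, w.mem_F.2 ⟨T.mul_mem (w.ST (w.dat.JS hy)) w.gT, fun x hx => ?_⟩, fun hS => ?_⟩
  · calc (y * g) * x = ((y * g) * x * (y * g)⁻¹) * (y * g) := by group
      _ = x * (y * g) := by rw [h x hx]
  · apply w.gS
    have : g = y⁻¹ * (y * g) := by group
    rw [this]
    exact S.mul_mem (S.inv_mem (w.dat.JS hy)) hS

theorem el_p (w : Sw A C J S r p k c T g) (v : V4) : ∃ x ∈ J, p x = v ∧ q p g x = 0 := by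
  obtain ⟨b, hb, rfl⟩ := w.dat.k_surj v
  exact ⟨g * b * g⁻¹, w.gJ b hb, w.pg b hb, w.q_E hb⟩

/-- Normal elementary abelian subgroups of `T` of order `2^10` lie in `F`. -/
theorem normal_le_F [Finite K] (w : Sw A C J S r p k c T g) (hA : Nat.card A = 2 ^ 10)
    {Y : Subgroup K} (hYT : Y ≤ T) (hn : ∀ t ∈ T, ∀ x ∈ Y, t * x * t⁻¹ ∈ Y)
    (h2 : ∀ x ∈ Y, x * x = 1) (hY : Nat.card Y = 2 ^ 10) : Y ≤ w.F := by
  by_cases hYS : Y ≤ S
  · rcases w.dat.ff hYS (fun s hs => hn s (w.ST hs)) h2 with h | h | ⟨h, -, h'⟩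
    · exfalso
      have hYA : Y = A := Subgroup.eq_of_le_of_card_ge h (by rw [hA, hY])
      obtain ⟨a, ha, hka⟩ := w.dat.k_surj (fun _ => 1)
      have h1 : g * a * g⁻¹ ∈ A := by
        rw [← hYA] at ha ⊢
        exact hn g w.gT a ha
      have h3 := w.pg a ha
      rw [(w.dat.p_zero _ (w.gJ a ha)).2 h1, hka] at h3
      have h4 := congrFun h3 0
      exact absurd h4 (by decide)
    · rw [hY] at h
      norm_num at h
    · obtain ⟨-, h3⟩ := h' hY
      have hpC : ∀ x ∈ Y, p x = 0 → x ∈ C := by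
        intro x hx hp
        rw [← h3]
        exact ⟨hx, (w.dat.p_zero x (h hx)).1 hp⟩
      intro x hx
      apply w.D_F
      rcases w.pure (h hx) (h2 x hx) with h4 | h4 | h4
      · have hxC := hpC x hx h4
        exact ⟨h hx, by rw [h4, w.C_q hxC]⟩
      · have h5 := hpC _ (hn g w.gT x hx) h4
        have h6 := w.nCT w.gT_inv h5
        have h7 : g⁻¹ * (g * x * g⁻¹) * g⁻¹⁻¹ = x := by group
        rw [h7] at h6
        exact ⟨h hx, by rw [w.C_p h6, w.C_q h6]⟩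
      · exact ⟨h hx, h4⟩
  · obtain ⟨y, hy, hyS⟩ := Set.not_subset.1 hYS
    have hyT := hYT hy
    have h1 := (w.cases y hyT).resolve_left hyS
    have hyg : y = g * (g⁻¹ * y) := by group
    -- elements of `Y` in `D`
    have key : ∀ v, ∃ x ∈ w.D, p x = v ∧ x ∈ Y := by
      intro v
      obtain ⟨x, hxJ, hxp, hxq⟩ := w.el_p v
      have h3 : x * (y * x⁻¹ * y⁻¹) ∈ Y := by
        have : x * (y * x⁻¹ * y⁻¹) = (x * y * x⁻¹) * y⁻¹ := by group
        rw [this]
        exact Y.mul_mem (hn x (w.ST (w.dat.JS hxJ)) y hy) (Y.inv_mem hy)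
      have h4 : y * x⁻¹ * y⁻¹ ∈ J := w.nJT hyT (J.inv_mem hxJ)
      have hp : p (x * (y * x⁻¹ * y⁻¹)) = v := by
        rw [w.dat.p_mul x hxJ _ h4, hxp]
        have := w.p_out h1 (J.inv_mem hxJ)
        rw [← hyg, w.q_inv hxJ, hxq, Matrix.mulVec_zero] at this
        rw [this, add_zero]
      have hq : q p g (x * (y * x⁻¹ * y⁻¹)) = r (g⁻¹ * y) *ᵥ v := by
        rw [w.q_mul hxJ h4, hxq, zero_add]
        have := w.q_out h1 (J.inv_mem hxJ)
        rw [← hyg, w.dat.p_inv hxJ, hxp] at this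
        exact this
      have hJ := J.mul_mem hxJ h4
      refine ⟨_, ⟨hJ, ?_⟩, hp, h3⟩
      rcases w.pure hJ (h2 _ h3) with h5 | h5 | h5
      · rw [hp] at h5
        rw [hp, hq, h5, Matrix.mulVec_zero]
      · rw [hq] at h5
        have h6 : v = 0 := by
          calc v = (r (g⁻¹ * y)⁻¹ * r (g⁻¹ * y)) *ᵥ v := by
                rw [w.dat.r_inv_mul h1, Matrix.one_mulVec]
            _ = r (g⁻¹ * y)⁻¹ *ᵥ (r (g⁻¹ * y) *ᵥ v) := by rw [Matrix.mulVec_mulVec]
            _ = 0 := by rw [h5, Matrix.mulVec_zero]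
        rw [hp, hq, h6, Matrix.mulVec_zero]
      · exact h5
    intro x hx
    by_cases hxS : x ∈ S
    · apply w.D_F
      apply w.cent_D hxS
      intro v
      obtain ⟨z, hz, hzv, hzY⟩ := key v
      exact ⟨z, hz, hzv, comm_of_two h2 hx hzY⟩
    · obtain ⟨u, hu, huS⟩ := w.exists_F_out
      have h3 := w.out_out (w.mem_F.1 hu).1 (hYT hx) huS hxS
      have h4 : u⁻¹ * x ∈ w.D := by
        apply w.cent_D h3
        intro v
        obtain ⟨z, hz, hzv, hzY⟩ := key v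
        refine ⟨z, hz, hzv, ?_⟩
        have h5 := (w.mem_F.1 (w.F.inv_mem hu)).2 z hz
        have h6 := comm_of_two h2 hx hzY
        rw [mul_assoc, h6, ← mul_assoc, h5, mul_assoc]
      have h5 : x = u * (u⁻¹ * x) := by group
      rw [h5]
      exact w.F.mul_mem hu (w.D_F h4)

theorem card_D [Finite K] (w : Sw A C J S r p k c T g) : Nat.card w.D = Nat.card A := by
  obtain ⟨E0, W, hE0, hW, hc⟩ := lay w.D p (fun x hx y hy => w.dat.p_mul x hx.1 y hy.1)
  obtain ⟨E1, W1, hE1, hW1, hc1⟩ := lay A k (fun x hx y hy => w.dat.k_mul x hx y hy)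
  have h1 : W = ⊤ := by
    rw [eq_top_iff]
    intro v _
    obtain ⟨x, hx, hxv⟩ := w.D_surj v
    exact (hW v).2 ⟨x, hx, hxv⟩
  have h2 : W1 = ⊤ := by
    rw [eq_top_iff]
    intro v _
    obtain ⟨x, hx, hxv⟩ := w.dat.k_surj v
    exact (hW1 v).2 ⟨x, hx, hxv⟩
  have h3 : E0 = C := by
    ext x
    rw [hE0]
    constructor
    · rintro ⟨h, h'⟩; exact w.pq_zero h.1 h' (by rw [← h.2, h'])
    · intro h
      exact ⟨⟨w.dat.AJ (w.dat.CA h), by rw [w.C_p h, w.C_q h]⟩, w.C_p h⟩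
  have h4 : E1 = C := by
    ext x
    rw [hE1]
    constructor
    · rintro ⟨h, h'⟩; exact (w.dat.k_zero x h).1 h'
    · intro h
      exact ⟨w.dat.CA h, (w.dat.k_zero x (w.dat.CA h)).2 h⟩
  rw [hc, hc1, h1, h2, h3, h4]

theorem D_sq (w : Sw A C J S r p k c T g) {x : K} (hx : x ∈ w.D) : x * x = 1 := by
  obtain ⟨a, ha, b, hb, hxe, hxb⟩ := w.split hx.1
  have hqx : q p g x = k a := by
    rw [hxe, w.q_mul (w.dat.AJ ha) (w.gJ b hb), w.q_A ha, w.q_E hb, add_zero]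
  have h1 : k b = k a := by rw [hxb, hx.2, hqx]
  have h2 := w.comm_E hb ha h1
  have hbb : (g * b * g⁻¹) * (g * b * g⁻¹) = 1 := by
    rw [← conj_mul', w.dat.A2 b hb]; group
  have haa := w.dat.A2 a ha
  rw [hxe]
  calc a * (g * b * g⁻¹) * (a * (g * b * g⁻¹)) = a * ((g * b * g⁻¹) * a) * (g * b * g⁻¹) := by
        simp only [mul_assoc]
    _ = a * (a * (g * b * g⁻¹)) * (g * b * g⁻¹) := by rw [h2]
    _ = (a * a) * ((g * b * g⁻¹) * (g * b * g⁻¹)) := by simp only [mul_assoc]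
    _ = 1 := by rw [haa, hbb, one_mul]

theorem D_normal (w : Sw A C J S r p k c T g) {t x : K} (ht : t ∈ T) (hx : x ∈ w.D) :
    t * x * t⁻¹ ∈ w.D := by
  refine ⟨w.nJT ht hx.1, ?_⟩
  rcases w.cases t ht with h | h
  · rw [w.dat.p_conj t h x hx.1, w.q_conj h hx.1, hx.2]
  · have h2 : t = g * (g⁻¹ * t) := by group
    rw [h2, w.p_out h hx.1, w.q_out h hx.1, hx.2]

end Sw

end

end Cfsg.Agent.H338.L5
end

-- part: H338/L5Norm2
section
/-!
# The normaliser of the extended 2-group, conclusion (helper338)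
-/

set_option autoImplicit false

namespace Cfsg.Agent.H338.L5

open Matrix

section

variable {K : Type*} [Group K] {A C J S : Subgroup K} {r : K → M4} {p k : K → V4} {c : K → M4}

namespace Sw

variable {T : Subgroup K} {g : K}

theorem norm_inv {t : K} (ht : ∀ x, x ∈ T ↔ t * x * t⁻¹ ∈ T) : ∀ x ∈ T, t⁻¹ * x * t ∈ T := by
  intro x hx
  rw [ht]
  have : t * (t⁻¹ * x * t) * t⁻¹ = x := by group
  rw [this]; exact hx

theorem norm_symm {t : K} (ht : ∀ x, x ∈ T ↔ t * x * t⁻¹ ∈ T) :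
    ∀ x, x ∈ T ↔ t⁻¹ * x * t⁻¹⁻¹ ∈ T := by
  intro x
  rw [inv_inv]
  constructor
  · exact norm_inv ht x
  · intro h
    have := (ht _).1 h
    have h2 : t * (t⁻¹ * x * t) * t⁻¹ = x := by group
    rwa [h2] at this

theorem norm_F [Finite K] (w : Sw A C J S r p k c T g) (hA : Nat.card A = 2 ^ 10) {t : K}
    (ht : ∀ x, x ∈ T ↔ t * x * t⁻¹ ∈ T) : ∀ x ∈ w.F, t⁻¹ * x * t ∈ w.F := by
  have hY : w.D.map (MulAut.conj t).toMonoidHom ≤ w.F := by
    apply w.normal_le_F hA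
    · rintro _ ⟨x, hx, rfl⟩
      exact (ht x).1 (w.ST (w.DS hx))
    · rintro s hs _ ⟨x, hx, rfl⟩
      refine ⟨(t⁻¹ * s * t) * x * (t⁻¹ * s * t)⁻¹, w.D_normal (norm_inv ht s hs) hx, ?_⟩
      show t * ((t⁻¹ * s * t) * x * (t⁻¹ * s * t)⁻¹) * t⁻¹ = s * (t * x * t⁻¹) * s⁻¹
      group
    · rintro _ ⟨x, hx, rfl⟩
      show (t * x * t⁻¹) * (t * x * t⁻¹) = 1
      rw [← conj_mul', w.D_sq hx]; group
    · rw [Nat.card_congr (w.D.equivMapOfInjective _ (MulAut.conj t).injective).toEquiv.symm,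
        w.card_D, hA]
  intro x hx
  rw [w.mem_F]
  refine ⟨norm_inv ht x (w.mem_F.1 hx).1, ?_⟩
  intro y hy
  have h1 : t * y * t⁻¹ ∈ w.F := hY ⟨y, hy, rfl⟩
  have h2 := w.F_comm hx h1
  calc t⁻¹ * x * t * y = t⁻¹ * (x * (t * y * t⁻¹)) * t := by group
    _ = t⁻¹ * ((t * y * t⁻¹) * x) * t := by rw [h2]
    _ = _ := by group

theorem norm_F' [Finite K] (w : Sw A C J S r p k c T g) (hA : Nat.card A = 2 ^ 10) {t : K}
    (ht : ∀ x, x ∈ T ↔ t * x * t⁻¹ ∈ T) : ∀ x ∈ w.F, t * x * t⁻¹ ∈ w.F := by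
  intro x hx
  have := w.norm_F hA (norm_symm ht) x hx
  rwa [inv_inv] at this

theorem C_F (w : Sw A C J S r p k c T g) {z : K} (hz : z ∈ C) : z ∈ w.F :=
  w.D_F ⟨w.dat.AJ (w.dat.CA hz), by rw [w.C_p hz, w.C_q hz]⟩

theorem norm_rt [Finite K] (w : Sw A C J S r p k c T g) (hA : Nat.card A = 2 ^ 10) {t : K}
    (ht : ∀ x, x ∈ T ↔ t * x * t⁻¹ ∈ T) {a : K} (ha : a ∈ A) : rt S r g (t * a * t⁻¹) = 1 := by
  by_contra hr
  set y := t * a * t⁻¹ with hy
  have hyT : y ∈ T := (ht a).1 (w.ST (w.dat.JS (w.dat.AJ ha)))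
  obtain ⟨v, hv⟩ : ∃ v : V4, rt S r g y *ᵥ v ≠ v := by
    by_contra hcon
    push Not at hcon
    exact hr (eq_of_mulVec fun v => by rw [hcon, Matrix.one_mulVec])
  obtain ⟨x, hxJ, hxp, hxq⟩ := w.el_p v
  have hxT : x ∈ T := w.ST (w.dat.JS hxJ)
  have hdx : de p g x = v := by unfold de; rw [hxp, hxq, add_zero]
  have h4 : y * x⁻¹ * y⁻¹ ∈ J := w.nJT hyT (J.inv_mem hxJ)
  have hwJ : x * (y * x⁻¹ * y⁻¹) ∈ J := J.mul_mem hxJ h4
  set u := x * (y * x⁻¹ * y⁻¹) with hu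
  have hdu : de p g u ≠ 0 := by
    rw [hu, w.de_mul hxJ h4, w.de_conj hyT (J.inv_mem hxJ), w.de_inv hxJ, hdx]
    intro h
    apply hv
    calc rt S r g y *ᵥ v = (v + v) + rt S r g y *ᵥ v := by rw [v2, zero_add]
      _ = v + (v + rt S r g y *ᵥ v) := by abel
      _ = v := by rw [h, add_zero]
  let Q : Subgroup K := w.F ⊓ Subgroup.centralizer ({u, y} : Set K)
  have hQ : ∀ z, z ∈ Q ↔ z ∈ w.F ∧ z * u = u * z ∧ z * y = y * z := by
    intro z
    rw [Subgroup.mem_inf, Subgroup.mem_centralizer_iff]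
    constructor
    · rintro ⟨h1, h2⟩
      exact ⟨h1, (h2 u (by simp)).symm, (h2 y (by simp)).symm⟩
    · rintro ⟨h1, h2, h3⟩
      refine ⟨h1, ?_⟩
      rintro b (rfl | rfl)
      · exact h2.symm
      · exact h3.symm
  have hCy : ∀ z ∈ C, (t * z * t⁻¹) * y = y * (t * z * t⁻¹) := by
    intro z hz
    rw [hy, ← conj_mul', ← conj_mul', w.dat.A_comm (w.dat.CA hz) ha]
  have hCQ : C.map (MulAut.conj t).toMonoidHom ≤ Q := by
    rintro _ ⟨z, hz, rfl⟩
    show t * z * t⁻¹ ∈ Q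
    rw [hQ]
    refine ⟨w.norm_F' hA ht z (w.C_F hz), ?_, hCy z hz⟩
    -- commutes with `x y x⁻¹`
    have h1 : (t⁻¹ * x * t)⁻¹ * z * (t⁻¹ * x * t)⁻¹⁻¹ ∈ C :=
      w.nCT (T.inv_mem (norm_inv ht x hxT)) hz
    have h2 := hCy _ h1
    have h3 : t * ((t⁻¹ * x * t)⁻¹ * z * (t⁻¹ * x * t)⁻¹⁻¹) * t⁻¹ = x⁻¹ * (t * z * t⁻¹) * x := by
      group
    rw [h3] at h2
    have h5 : (t * z * t⁻¹) * (x * y * x⁻¹) = (x * y * x⁻¹) * (t * z * t⁻¹) := by
      calc (t * z * t⁻¹) * (x * y * x⁻¹) = x * ((x⁻¹ * (t * z * t⁻¹) * x) * y) * x⁻¹ := by group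
        _ = x * (y * (x⁻¹ * (t * z * t⁻¹) * x)) * x⁻¹ := by rw [h2]
        _ = _ := by group
    have h6 : (t * z * t⁻¹) * y⁻¹ = y⁻¹ * (t * z * t⁻¹) := by
      calc (t * z * t⁻¹) * y⁻¹ = y⁻¹ * (y * (t * z * t⁻¹)) * y⁻¹ := by group
        _ = y⁻¹ * ((t * z * t⁻¹) * y) * y⁻¹ := by rw [hCy z hz]
        _ = _ := by group
    have h7 : u = (x * y * x⁻¹) * y⁻¹ := by rw [hu]; group
    rw [h7]
    calc (t * z * t⁻¹) * ((x * y * x⁻¹) * y⁻¹) = ((t * z * t⁻¹) * (x * y * x⁻¹)) * y⁻¹ := by group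
      _ = (x * y * x⁻¹) * ((t * z * t⁻¹) * y⁻¹) := by rw [h5, mul_assoc]
      _ = (x * y * x⁻¹) * (y⁻¹ * (t * z * t⁻¹)) := by rw [h6]
      _ = _ := by group
  have hQD : ∀ z ∈ Q, z ∈ w.D := by
    intro z hz
    obtain ⟨h1, h2, h3⟩ := (hQ z).1 hz
    by_cases hzS : z ∈ S
    · exact w.F_S h1 hzS
    · exfalso
      have h5 := w.F_out h1 hzS hwJ
      have h6 : z * u * z⁻¹ = u := by rw [h2]; group
      rw [h6] at h5
      apply hdu
      unfold de
      rw [h5, v2]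
  obtain ⟨E0, W, hE0, hW, hc⟩ := lay Q p (fun a ha b hb =>
    w.dat.p_mul a (hQD a ha).1 b (hQD b hb).1)
  have hW2 : Nat.card W ≤ 2 := card_le_two (a := de p g u) fun v hv => by
    obtain ⟨z, hz, rfl⟩ := (hW v).1 hv
    rcases om_zero _ _ (w.om_eq (hQD z hz) hwJ ((hQ z).1 hz).2.1) with h | h | h
    · exact Or.inl h
    · exact absurd h hdu
    · exact Or.inr h
  have hE4 := w.card_CC hyT hr (Q := E0) (by
    intro z hz
    obtain ⟨h1, h2⟩ := (hE0 z).1 hz
    have h3 := hQD z h1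
    refine ⟨w.pq_zero h3.1 h2 (by rw [← h3.2, h2]), ?_⟩
    rw [← ((hQ z).1 h1).2.2]; group)
  have h5 : Nat.card C ≤ Nat.card Q := by
    rw [Nat.card_congr (C.equivMapOfInjective (MulAut.conj t).toMonoidHom
      (MulAut.conj t).injective).toEquiv]
    exact Nat.card_mono (Set.toFinite _) hCQ
  have h6 : 0 < Nat.card E0 := Nat.card_pos
  have h7 : Nat.card W * Nat.card E0 ≤ 2 * Nat.card E0 := Nat.mul_le_mul_right _ hW2
  rw [hc] at h5
  omega

theorem A_of_F (w : Sw A C J S r p k c T g) {a : K} (ha : a ∈ A) (haF : a ∈ w.F) : a ∈ C := by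
  have h1 := w.F_S haF (w.dat.JS (w.dat.AJ ha))
  have h2 := (w.dat.p_zero a (w.dat.AJ ha)).2 ha
  exact w.pq_zero h1.1 h2 (by rw [← h1.2, h2])

theorem norm_J [Finite K] (w : Sw A C J S r p k c T g) (hA : Nat.card A = 2 ^ 10) {t : K}
    (ht : ∀ x, x ∈ T ↔ t * x * t⁻¹ ∈ T) {a : K} (ha : a ∈ A) : t * a * t⁻¹ ∈ J := by
  have hT : ∀ a ∈ A, t * a * t⁻¹ ∈ T := fun a ha => (ht a).1 (w.ST (w.dat.JS (w.dat.AJ ha)))
  have hSJ : ∀ a ∈ A, t * a * t⁻¹ ∈ S → t * a * t⁻¹ ∈ J := by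
    intro a ha hS
    have := w.norm_rt hA ht ha
    rw [rt_in hS] at this
    exact w.dat.J_le hS this
  by_contra hcon
  have hyS : t * a * t⁻¹ ∉ S := fun h => hcon (hSJ a ha h)
  have hrt := w.norm_rt hA ht ha
  rw [rt_out hyS] at hrt
  have h1 := (w.cases _ (hT a ha)).resolve_left hyS
  have key : ∀ b ∈ A, t * b * t⁻¹ ∈ S → b ∈ C := by
    intro b hb hS
    have hJ := hSJ b hb hS
    have h2 := w.p_out h1 hJ
    have h3 : g * (g⁻¹ * (t * a * t⁻¹)) = t * a * t⁻¹ := by group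
    rw [h3, hrt, Matrix.one_mulVec] at h2
    have h4 : (t * a * t⁻¹) * (t * b * t⁻¹) * (t * a * t⁻¹)⁻¹ = t * b * t⁻¹ := by
      rw [← conj_mul', w.dat.A_comm ha hb]; group
    rw [h4] at h2
    have h5 : t * b * t⁻¹ ∈ w.D := ⟨hJ, h2⟩
    have h6 := w.norm_F hA ht _ (w.D_F h5)
    have h7 : t⁻¹ * (t * b * t⁻¹) * t = b := by group
    rw [h7] at h6
    exact w.A_of_F hb h6
  obtain ⟨a1, ha1, hk1⟩ := w.dat.k_surj ![1, 0, 0, 0]
  obtain ⟨a2, ha2, hk2⟩ := w.dat.k_surj ![0, 1, 0, 0]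
  have hn1 : t * a1 * t⁻¹ ∉ S := by
    intro h
    have := (w.dat.k_zero a1 ha1).2 (key a1 ha1 h)
    rw [hk1] at this
    exact absurd (congrFun this 0) (by decide)
  have hn2 : t * a2 * t⁻¹ ∉ S := by
    intro h
    have := (w.dat.k_zero a2 ha2).2 (key a2 ha2 h)
    rw [hk2] at this
    exact absurd (congrFun this 1) (by decide)
  have h12 := w.out_out (hT a1 ha1) (hT a2 ha2) hn1 hn2
  have h13 : (t * a1 * t⁻¹)⁻¹ * (t * a2 * t⁻¹) = t * (a1⁻¹ * a2) * t⁻¹ := by group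
  rw [h13] at h12
  have h14 := A.mul_mem (A.inv_mem ha1) ha2
  have h15 := (w.dat.k_zero _ h14).2 (key _ h14 h12)
  rw [w.dat.k_mul _ (A.inv_mem ha1) _ ha2, w.dat.k_inv ha1, hk1, hk2] at h15
  exact absurd (congrFun h15 0) (by decide)

theorem main [Finite K] (w : Sw A C J S r p k c T g) (hA : Nat.card A = 2 ^ 10) {t : K}
    (ht : ∀ x, x ∈ T ↔ t * x * t⁻¹ ∈ T) :
    (∀ a ∈ A, t * a * t⁻¹ ∈ A) ∨ ∀ a ∈ A, (g * t) * a * (g * t)⁻¹ ∈ A := by
  have hJ : ∀ a ∈ A, t * a * t⁻¹ ∈ J := fun a ha => w.norm_J hA ht ha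
  have hα : ∀ a ∈ A, ∀ b ∈ A, p (t * (a * b) * t⁻¹) = p (t * a * t⁻¹) + p (t * b * t⁻¹) := by
    intro a ha b hb
    rw [conj_mul', w.dat.p_mul _ (hJ a ha) _ (hJ b hb)]
  have hβ : ∀ a ∈ A, ∀ b ∈ A,
      q p g (t * (a * b) * t⁻¹) = q p g (t * a * t⁻¹) + q p g (t * b * t⁻¹) := by
    intro a ha b hb
    rw [conj_mul', w.q_mul (hJ a ha) (hJ b hb)]
  have hpure : ∀ a ∈ A, p (t * a * t⁻¹) = 0 ∨ q p g (t * a * t⁻¹) = 0 ∨
      p (t * a * t⁻¹) = q p g (t * a * t⁻¹) := by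
    intro a ha
    apply w.pure (hJ a ha)
    rw [← conj_mul', w.dat.A2 a ha]; group
  have hD : ∀ a ∈ A, p (t * a * t⁻¹) = q p g (t * a * t⁻¹) → a ∈ C := by
    intro a ha h
    have h5 : t * a * t⁻¹ ∈ w.D := ⟨hJ a ha, h⟩
    have h6 := w.norm_F hA ht _ (w.D_F h5)
    have h7 : t⁻¹ * (t * a * t⁻¹) * t = a := by group
    rw [h7] at h6
    exact w.A_of_F ha h6
  by_contra hcon
  push Not at hcon
  obtain ⟨⟨a0, ha0, ha0'⟩, ⟨b0, hb0, hb0'⟩⟩ := hcon
  have hα0 : p (t * a0 * t⁻¹) ≠ 0 := fun h => ha0' ((w.dat.p_zero _ (hJ a0 ha0)).1 h)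
  have hβ0 : q p g (t * b0 * t⁻¹) ≠ 0 := by
    intro h
    apply hb0'
    rw [← conj_conj']
    exact (w.dat.p_zero _ (w.ngJ (hJ b0 hb0))).1 h
  obtain ⟨a', ha', hka'⟩ := w.dat.k_surj ![1, 0, 0, 0]
  have ha'C : a' ∉ C := by
    intro h
    have := (w.dat.k_zero a' ha').2 h
    rw [hka'] at this
    exact absurd (congrFun this 0) (by decide)
  have hmulC : ∀ {a b : K}, a ∈ C → b ∉ C → a * b ∉ C := by
    intro a b ha hb h
    apply hb
    have : b = a⁻¹ * (a * b) := by group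
    rw [this]; exact C.mul_mem (C.inv_mem ha) h
  obtain ⟨a1, ha1, ha1C, hα1⟩ : ∃ a1 ∈ A, a1 ∉ C ∧ p (t * a1 * t⁻¹) ≠ 0 := by
    by_cases h : a0 ∈ C
    · by_cases h' : p (t * a' * t⁻¹) = 0
      · refine ⟨a0 * a', A.mul_mem ha0 ha', hmulC h ha'C, ?_⟩
        rw [hα a0 ha0 a' ha', h', add_zero]; exact hα0
      · exact ⟨a', ha', ha'C, h'⟩
    · exact ⟨a0, ha0, h, hα0⟩
  obtain ⟨b1, hb1, hb1C, hβ1⟩ : ∃ b1 ∈ A, b1 ∉ C ∧ q p g (t * b1 * t⁻¹) ≠ 0 := by
    by_cases h : b0 ∈ C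
    · by_cases h' : q p g (t * a' * t⁻¹) = 0
      · refine ⟨b0 * a', A.mul_mem hb0 ha', hmulC h ha'C, ?_⟩
        rw [hβ b0 hb0 a' ha', h', add_zero]; exact hβ0
      · exact ⟨a', ha', ha'C, h'⟩
    · exact ⟨b0, hb0, h, hβ0⟩
  -- a product of two elements of different type lies in `C`
  have prod : ∀ a ∈ A, ∀ b ∈ A, a ∉ C → b ∉ C → p (t * a * t⁻¹) ≠ 0 → q p g (t * b * t⁻¹) ≠ 0 →
      k a = k b := by
    intro a ha b hb haC hbC h1 h2
    have h3 : q p g (t * a * t⁻¹) = 0 := by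
      rcases hpure a ha with h | h | h
      · exact absurd h h1
      · exact h
      · exact absurd (hD a ha h) haC
    have h4 : p (t * b * t⁻¹) = 0 := by
      rcases hpure b hb with h | h | h
      · exact h
      · exact absurd h h2
      · exact absurd (hD b hb h) hbC
    have h5 : a * b ∈ C := by
      rcases hpure _ (A.mul_mem ha hb) with h | h | h
      · rw [hα a ha b hb, h4, add_zero] at h; exact absurd h h1
      · rw [hβ a ha b hb, h3, zero_add] at h; exact absurd h h2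
      · exact hD _ (A.mul_mem ha hb) h
    have h6 := (w.dat.k_zero _ (A.mul_mem ha hb)).2 h5
    rw [w.dat.k_mul a ha b hb] at h6
    calc k a = k a + (k b + k b) := by rw [v2, add_zero]
      _ = (k a + k b) + k b := by abel
      _ = k b := by rw [h6, zero_add]
  have h6 : ∀ u : V4, ∃ v, v ≠ 0 ∧ v ≠ u := by decide +kernel
  obtain ⟨v, hv0, hv1⟩ := h6 (k a1)
  obtain ⟨a3, ha3, hk3⟩ := w.dat.k_surj v
  have ha3C : a3 ∉ C := by
    intro h
    have := (w.dat.k_zero a3 ha3).2 h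
    rw [hk3] at this
    exact hv0 this
  have h11 := prod a1 ha1 b1 hb1 ha1C hb1C hα1 hβ1
  by_cases h7 : p (t * a3 * t⁻¹) = 0
  · have h8 : q p g (t * a3 * t⁻¹) ≠ 0 := by
      intro h
      exact ha3C (hD a3 ha3 (by rw [h7, h]))
    have := prod a1 ha1 a3 ha3 ha1C ha3C hα1 h8
    rw [hk3] at this
    exact hv1 this.symm
  · have := prod a3 ha3 b1 hb1 ha3C hb1C h7 hβ1
    rw [hk3, ← h11] at this
    exact hv1 this

end Sw

end

end Cfsg.Agent.H338.L5
end

private theorem dce_c0c53469c5a4 : _root_.True := by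
  try have : _root_.True := by simp only [_root_.Cfsg.Agent.H338.L5.UTm.eq_1]
  try have : _root_.True := by simp only [_root_.Cfsg.Agent.H338.L5.ALm.eq_1]
  exact _root_.True.intro
end

-- part: H338/L5Syl
section
prune_inst 0xc41000000000000000000000000000000000000000000000c10001020000804100000000300002020000000000080040000000000000000000000000000400000000000000400000000000000000000000000000000000000000000000000000000000000
set_option linter.all false
open scoped Cfsg.Agent.FastGrp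

-- part: H338/L5MkSw
section
/-!
# Construction of the swap (helper338)
-/

set_option autoImplicit false

namespace Cfsg.Agent.H338.L5

open Matrix

theorem exists_tau {K : Type*} [Group K] {A : Subgroup K} {φ k : K → V4}
    (hφ : ∀ a ∈ A, ∀ b ∈ A, φ (a * b) = φ a + φ b) (hk : ∀ a ∈ A, ∀ b ∈ A, k (a * b) = k a + k b)
    (hs : ∀ v, ∃ a ∈ A, k a = v) (h0 : ∀ a ∈ A, k a = 0 → φ a = 0) :
    ∃ τ : M4, ∀ a ∈ A, φ a = τ *ᵥ k a := by
  have hφ1 : φ 1 = 0 := by
    have := hφ 1 A.one_mem 1 A.one_mem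
    rw [mul_one] at this
    exact left_eq_add.1 this
  have hk1 : k 1 = 0 := by
    have := hk 1 A.one_mem 1 A.one_mem
    rw [mul_one] at this
    exact left_eq_add.1 this
  have heq : ∀ a ∈ A, ∀ b ∈ A, k a = k b → φ a = φ b := by
    intro a ha b hb h
    have h1 : k (b⁻¹ * a) = 0 := by
      have h2 := hk b hb _ (A.mul_mem (A.inv_mem hb) ha)
      rw [mul_inv_cancel_left, h] at h2
      exact left_eq_add.1 h2
    have h3 := h0 _ (A.mul_mem (A.inv_mem hb) ha) h1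
    have h4 := hφ b hb _ (A.mul_mem (A.inv_mem hb) ha)
    rw [mul_inv_cancel_left, h3, add_zero] at h4
    exact h4
  choose s hsA hs using hs
  let f : V4 →+ V4 :=
    { toFun := fun v => φ (s v)
      map_zero' := (heq _ (hsA 0) _ A.one_mem (by rw [hs, hk1])).trans hφ1
      map_add' := fun u v => by
        rw [← hφ _ (hsA u) _ (hsA v)]
        exact heq _ (hsA _) _ (A.mul_mem (hsA u) (hsA v)) (by rw [hk _ (hsA u) _ (hsA v), hs, hs, hs]) }
  refine ⟨LinearMap.toMatrix' (f.toZModLinearMap 2), ?_⟩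
  intro a ha
  rw [LinearMap.toMatrix'_mulVec]
  show φ a = φ (s (k a))
  exact heq _ ha _ (hsA _) (hs _).symm

theorem tau_ut {τ : M4} (hs : ∀ v, ∃ u, τ *ᵥ u = v)
    (h1 : ∃ a b c d e f, τ * UTm 1 0 0 0 0 0 = UTm a b c d e f * τ)
    (h2 : ∃ a b c d e f, τ * UTm 0 0 0 1 0 0 = UTm a b c d e f * τ)
    (h3 : ∃ a b c d e f, τ * UTm 0 0 0 0 0 1 = UTm a b c d e f * τ) :
    ∃ a b c d e f, τ = UTm a b c d e f := by
  obtain ⟨a1, b1, c1, d1, e1, f1, h1⟩ := h1
  obtain ⟨a2, b2, c2, d2, e2, f2, h2⟩ := h2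
  obtain ⟨a3, b3, c3, d3, e3, f3, h3⟩ := h3
  have e : ∀ (a b c d e f a' b' c' d' e' f' : ZMod 2) (i j : Fin 4),
      τ * UTm a' b' c' d' e' f' = UTm a b c d e f * τ →
      τ i 0 * UTm a' b' c' d' e' f' 0 j + τ i 1 * UTm a' b' c' d' e' f' 1 j +
        τ i 2 * UTm a' b' c' d' e' f' 2 j + τ i 3 * UTm a' b' c' d' e' f' 3 j =
      UTm a b c d e f i 0 * τ 0 j + UTm a b c d e f i 1 * τ 1 j + UTm a b c d e f i 2 * τ 2 j +
        UTm a b c d e f i 3 * τ 3 j := by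
    intro a b c d e f a' b' c' d' e' f' i j h
    have := congrFun (congrFun h i) j
    rw [Matrix.mul_apply, Matrix.mul_apply, Fin.sum_univ_four, Fin.sum_univ_four] at this
    exact this
  have t30 : τ 3 0 = 0 := by
    have := e _ _ _ _ _ _ _ _ _ _ _ _ 3 1 h1
    simpa [UTm] using this
  have t31 : τ 3 1 = 0 := by
    have := e _ _ _ _ _ _ _ _ _ _ _ _ 3 2 h2
    simpa [UTm] using this
  have t32 : τ 3 2 = 0 := by
    have := e _ _ _ _ _ _ _ _ _ _ _ _ 3 3 h3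
    simpa [UTm] using this
  have t20 : τ 2 0 = 0 := by
    have := e _ _ _ _ _ _ _ _ _ _ _ _ 2 1 h1
    simpa [UTm, t30, t31, t32] using this
  have t21 : τ 2 1 = 0 := by
    have := e _ _ _ _ _ _ _ _ _ _ _ _ 2 2 h2
    simpa [UTm, t30, t31, t32] using this
  have t10 : τ 1 0 = 0 := by
    have := e _ _ _ _ _ _ _ _ _ _ _ _ 1 1 h1
    simpa [UTm, t30, t31, t32, t20, t21] using this
  have z1 : ∀ a : ZMod 2, a ≠ 0 → a = 1 := by decide
  have v : ∀ (u : V4) (i : Fin 4), (τ *ᵥ u) i = τ i 0 * u 0 + τ i 1 * u 1 + τ i 2 * u 2 + τ i 3 * u 3 := by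
    intro u i
    rw [Matrix.mulVec, dotProduct, Fin.sum_univ_four]
  have t33 : τ 3 3 = 1 := by
    apply z1
    intro h
    obtain ⟨u, hu⟩ := hs ![0, 0, 0, 1]
    have := congrFun hu 3
    rw [v, t30, t31, t32, h] at this
    simp only [_root_.Fin.isValue, _root_.MulZeroClass.zero_mul, _root_.add_zero, _root_.Matrix.cons_val, _root_.zero_ne_one] at this
  have t22 : τ 2 2 = 1 := by
    apply z1
    intro h
    obtain ⟨u, hu⟩ := hs ![0, 0, 1, 0]
    have a3 := congrFun hu 3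
    rw [v, t30, t31, t32, t33] at a3
    have a3' : u 3 = 0 := by simpa using a3
    have := congrFun hu 2
    rw [v, t20, t21, h, a3'] at this
    simp only [_root_.Fin.isValue, _root_.MulZeroClass.zero_mul, _root_.add_zero, _root_.MulZeroClass.mul_zero, _root_.Matrix.cons_val, _root_.zero_ne_one] at this
  have t11 : τ 1 1 = 1 := by
    apply z1
    intro h
    obtain ⟨u, hu⟩ := hs ![0, 1, 0, 0]
    have a3 := congrFun hu 3
    rw [v, t30, t31, t32, t33] at a3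
    have a3' : u 3 = 0 := by simpa using a3
    have a2 := congrFun hu 2
    rw [v, t20, t21, t22, a3'] at a2
    have a2' : u 2 = 0 := by simpa using a2
    have := congrFun hu 1
    rw [v, t10, h, a3', a2'] at this
    simp at this
  have t00 : τ 0 0 = 1 := by
    apply z1
    intro h
    obtain ⟨u, hu⟩ := hs ![1, 0, 0, 0]
    have a3 := congrFun hu 3
    rw [v, t30, t31, t32, t33] at a3
    have a3' : u 3 = 0 := by simpa using a3
    have a2 := congrFun hu 2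
    rw [v, t20, t21, t22, a3'] at a2
    have a2' : u 2 = 0 := by simpa using a2
    have a1 := congrFun hu 1
    rw [v, t10, t11, a3', a2'] at a1
    have a1' : u 1 = 0 := by simpa using a1
    have := congrFun hu 0
    rw [v, h, a3', a2', a1'] at this
    simp at this
  refine ⟨τ 0 1, τ 0 2, τ 0 3, τ 1 2, τ 1 3, τ 2 3, ?_⟩
  ext i j
  (revert i j; simp only [UTm, t00, t11, t22, t33, t10, t20, t21, t30, t31, t32, _root_.Fin.forall_fin_succ, Fin.isValue, _root_.Matrix.of_apply, _root_.Matrix.cons_val', _root_.Matrix.cons_val_fin_one, _root_.Matrix.cons_val_zero, _root_.Matrix.cons_val_succ, _root_.Fin.succ_zero_eq_one, _root_.Fin.succ_one_eq_two, Fin.reduceSucc, _root_.IsEmpty.forall_iff, _root_.and_true, _root_.and_self])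

section

variable {K : Type*} [Group K] {A C J S : Subgroup K} {r : K → M4} {p k : K → V4} {c : K → M4}

theorem Dat.exists_Sw [Finite K] (d : Dat A C J S r p k c) (hA : Nat.card A = 2 ^ 10)
    {T : Subgroup K} (hST : S ≤ T) (hT : Nat.card T = 2 * Nat.card S)
    (hNA : ∀ t ∈ T, (∀ a ∈ A, t * a * t⁻¹ ∈ A) → t ∈ S) : ∃ g, Sw A C J S r p k c T g := by
  have hidx : (S.subgroupOf T).index = 2 := by
    have h1 := (S.subgroupOf T).card_mul_index
    have h2 : Nat.card (S.subgroupOf T) = Nat.card S :=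
      Nat.card_congr (Subgroup.subgroupOfEquivOfLe hST).toEquiv
    rw [h2, hT, mul_comm] at h1
    exact Nat.eq_of_mul_eq_mul_right Nat.card_pos h1
  have hmul : ∀ a ∈ T, ∀ b ∈ T, (a * b ∈ S ↔ (a ∈ S ↔ b ∈ S)) := by
    intro a ha b hb
    have := Subgroup.mul_mem_iff_of_index_two hidx (a := ⟨a, ha⟩) (b := ⟨b, hb⟩)
    simpa [Subgroup.mem_subgroupOf] using this
  have hnorm : (S.subgroupOf T).Normal := Subgroup.normal_of_index_eq_two hidx
  have hnS : ∀ t ∈ T, ∀ s ∈ S, t * s * t⁻¹ ∈ S := by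
    intro t ht s hs
    have := hnorm.conj_mem ⟨s, hST hs⟩ (Subgroup.mem_subgroupOf.2 hs) ⟨t, ht⟩
    exact this
  obtain ⟨g, hgT, hgS⟩ : ∃ g ∈ T, g ∉ S := by
    by_contra hcon
    push Not at hcon
    have h1 : T = S := le_antisymm hcon hST
    rw [h1] at hT
    have : 0 < Nat.card S := Nat.card_pos
    omega
  have hcases : ∀ g ∈ T, g ∉ S → ∀ t ∈ T, t ∈ S ∨ g⁻¹ * t ∈ S := by
    intro g hgT hgS t ht
    by_cases h : t ∈ S
    · exact Or.inl h
    · right
      rw [hmul _ (T.inv_mem hgT) _ ht]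
      constructor
      · intro h1; exact absurd (by simpa using S.inv_mem h1) hgS
      · intro h1; exact absurd h1 h
  have hggS : ∀ g ∈ T, g * g ∈ S := fun g hg => (hmul g hg g hg).2 Iff.rfl
  -- the conjugate of `A`
  have hES : A.map (MulAut.conj g).toMonoidHom ≤ S := by
    rintro _ ⟨a, ha, rfl⟩
    exact hnS g hgT a (d.JS (d.AJ ha))
  have hEc : Nat.card (A.map (MulAut.conj g).toMonoidHom) = 2 ^ 10 := by
    rw [← hA]
    exact (Nat.card_congr (A.equivMapOfInjective (MulAut.conj g).toMonoidHom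
      (MulAut.conj g).injective).toEquiv).symm
  have hE := d.ff hES (by
    rintro s hs _ ⟨a, ha, rfl⟩
    have h1 : g⁻¹ * s * g ∈ S := by
      have := hnS g⁻¹ (T.inv_mem hgT) s hs
      rwa [inv_inv] at this
    refine ⟨(g⁻¹ * s * g) * a * (g⁻¹ * s * g)⁻¹, d.nA _ h1 a ha, ?_⟩
    show g * ((g⁻¹ * s * g) * a * (g⁻¹ * s * g)⁻¹) * g⁻¹ = s * (g * a * g⁻¹) * s⁻¹
    group) (by
    rintro _ ⟨a, ha, rfl⟩
    show (g * a * g⁻¹) * (g * a * g⁻¹) = 1
    rw [← conj_mul', d.A2 a ha]; group)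
  have hE' : (A.map (MulAut.conj g).toMonoidHom ≤ J ∧
      ((∀ v, ∃ x ∈ A.map (MulAut.conj g).toMonoidHom, p x = v) ∧
        A.map (MulAut.conj g).toMonoidHom ⊓ A = C)) := by
    rcases hE with h | h | ⟨h, -, h'⟩
    · exfalso
      apply hgS
      apply hNA g hgT
      intro a ha
      exact h ⟨a, ha, rfl⟩
    · rw [hEc] at h; norm_num at h
    · exact ⟨h, h' hEc⟩
  obtain ⟨hEJ, hEp, hEA⟩ := hE'
  have hgJ : ∀ a ∈ A, g * a * g⁻¹ ∈ J := fun a ha => hEJ ⟨a, ha, rfl⟩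
  have hgg : ∀ a ∈ A, g * (g * a * g⁻¹) * g⁻¹ ∈ A := by
    intro a ha
    rw [conj_conj']
    exact d.nA _ (hggS g hgT) a ha
  have hgC : ∀ z ∈ C, g * z * g⁻¹ ∈ C := by
    intro z hz
    rw [← hEA] at hz ⊢
    refine ⟨⟨z, hz.2, rfl⟩, ?_⟩
    obtain ⟨a, ha, rfl⟩ := hz.1
    exact hgg a ha
  -- the matrix `τ`
  obtain ⟨τ, hτ⟩ := exists_tau (A := A) (φ := fun a => p (g * a * g⁻¹)) (k := k) (by
    intro a ha b hb
    show p (g * (a * b) * g⁻¹) = _
    rw [conj_mul', d.p_mul _ (hgJ a ha) _ (hgJ b hb)]) d.k_mul d.k_surj (by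
    intro a ha hka
    show p (g * a * g⁻¹) = 0
    have haC := (d.k_zero a ha).1 hka
    exact (d.p_zero _ (hgJ a ha)).2 (d.CA (hgC a haC)))
  have hτr : ∀ s ∈ S, τ * r s = r (g * s * g⁻¹) * τ := by
    intro s hs
    apply eq_of_mulVec
    intro v
    obtain ⟨a, ha, rfl⟩ := d.k_surj v
    rw [← Matrix.mulVec_mulVec, ← Matrix.mulVec_mulVec, ← d.k_conj s hs a ha, ← hτ a ha,
      ← hτ _ (d.nA s hs a ha)]
    show p (g * (s * a * s⁻¹) * g⁻¹) = r (g * s * g⁻¹) *ᵥ p (g * a * g⁻¹)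
    rw [← d.p_conj _ (hnS g hgT s hs) _ (hgJ a ha)]
    congr 1
    group
  have hτs : ∀ v, ∃ u, τ *ᵥ u = v := by
    intro v
    obtain ⟨_, ⟨a, ha, rfl⟩, hav⟩ := hEp v
    exact ⟨k a, by rw [← hτ a ha]; exact hav⟩
  have hgen : ∀ a b c d' e f : ZMod 2, ∃ a' b' c' d'' e' f',
      τ * UTm a b c d' e f = UTm a' b' c' d'' e' f' * τ := by
    intro a b c' d' e f
    obtain ⟨s, hs, hsr⟩ := d.r_surj a b c' d' e f
    obtain ⟨a', b', c'', d'', e', f', h⟩ := d.r_ut _ (hnS g hgT s hs)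
    refine ⟨a', b', c'', d'', e', f', ?_⟩
    rw [← hsr, ← h]
    exact hτr s hs
  obtain ⟨a, b, c', d', e, f, hτe⟩ := tau_ut hτs (hgen _ _ _ _ _ _) (hgen _ _ _ _ _ _)
    (hgen _ _ _ _ _ _)
  obtain ⟨s1, hs1, hs1r⟩ := d.r_surj a b c' d' e f
  have hs1' := S.inv_mem hs1
  have hgT' : s1⁻¹ * g ∈ T := T.mul_mem (hST hs1') hgT
  have hgS' : s1⁻¹ * g ∉ S := by
    intro h
    apply hgS
    have : g = s1 * (s1⁻¹ * g) := by group
    rw [this]; exact S.mul_mem hs1 h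
  refine ⟨s1⁻¹ * g, d, hST, hgT', hgS', hcases _ hgT' hgS', hnS, hggS _ hgT', ?_, ?_, ?_⟩
  · intro a ha
    rw [← conj_conj']
    exact d.nJ hs1' (hgJ a ha)
  · intro a ha
    rw [← conj_conj', d.p_conj _ hs1' _ (hgJ a ha)]
    have h1 := hτ a ha
    have h2 : p (g * a * g⁻¹) = τ *ᵥ k a := h1
    rw [h2, hτe, ← hs1r, Matrix.mulVec_mulVec]
    have h3 : r s1⁻¹ * r s1 = 1 := by
      rw [← d.r_mul _ hs1' _ hs1, inv_mul_cancel]
      exact (d.r_one 1 S.one_mem).2 J.one_mem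
    rw [h3, Matrix.one_mulVec]
  · intro z hz
    rw [← conj_conj']
    exact d.nC _ hs1' _ (hgC z hz)

end

end Cfsg.Agent.H338.L5
end

-- part: H338/L5Blk
section
/-!
# Block computations (helper338)
-/

set_option autoImplicit false

namespace Cfsg.Agent.H338.L5

open Matrix

abbrev M5 := Matrix (Fin 5) (Fin 5) (ZMod 2)

def rB (g : M5) : M4 := Matrix.of fun i j => g i.castSucc j.castSucc
def pB (g : M5) : V4 := fun i => g i.castSucc (Fin.last 4)

theorem rB_apply (g : M5) (i j : Fin 4) : rB g i j = g i.castSucc j.castSucc := rfl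
theorem pB_apply (g : M5) (i : Fin 4) : pB g i = g i.castSucc (Fin.last 4) := rfl

/-- Last row condition. -/
def LR (g : M5) : Prop := (∀ j : Fin 4, g (Fin.last 4) j.castSucc = 0) ∧
  g (Fin.last 4) (Fin.last 4) = 1

theorem rB_mul {g h : M5} (hh : LR h) : rB (g * h) = rB g * rB h := by
  ext i j
  rw [rB_apply, Matrix.mul_apply, Fin.sum_univ_castSucc, hh.1, mul_zero, add_zero, Matrix.mul_apply]
  rfl

theorem pB_mul {g h : M5} (hh : LR h) : pB (g * h) = rB g *ᵥ pB h + pB g := by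
  funext i
  rw [pB_apply, Matrix.mul_apply, Fin.sum_univ_castSucc, hh.2, mul_one]
  rfl

theorem alt_last {ψ : M5} (hψ : ψ ∈ Alt) : ψ (Fin.last 4) (Fin.last 4) = 0 := hψ.2 _

theorem pB_conj {s ψ : M5} (hs : LR s) (hψ : ψ ∈ Alt) : pB (s * ψ * sᵀ) = rB s *ᵥ pB ψ := by
  funext i
  rw [pB_apply, Matrix.mul_apply, Fin.sum_univ_castSucc]
  have h1 : ∀ m : Fin 4, (s * ψ) i.castSucc m.castSucc * sᵀ m.castSucc (Fin.last 4) = 0 := by
    intro m
    rw [Matrix.transpose_apply, hs.1, mul_zero]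
  rw [Finset.sum_eq_zero (fun m _ => h1 m), zero_add, Matrix.transpose_apply, hs.2, mul_one,
    Matrix.mul_apply, Fin.sum_univ_castSucc, alt_last hψ, mul_zero, add_zero]
  rfl

theorem rB_conj {s ψ : M5} (hψ : ψ ∈ Alt) :
    rB (s * ψ * sᵀ) = rB s * rB ψ * (rB s)ᵀ + om (pB s) (rB s *ᵥ pB ψ) := by
  ext i j
  have e1 : ∀ m : Fin 4, (s * ψ) i.castSucc m.castSucc = (rB s * rB ψ) i m + pB s i * pB ψ m := by
    intro m
    rw [Matrix.mul_apply, Fin.sum_univ_castSucc, Matrix.mul_apply, pB_apply, pB_apply,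
      hψ.1 (Fin.last 4)]
    rfl
  have e2 : (s * ψ) i.castSucc (Fin.last 4) = (rB s *ᵥ pB ψ) i := by
    rw [Matrix.mul_apply, Fin.sum_univ_castSucc, alt_last hψ, mul_zero, add_zero]
    rfl
  rw [rB_apply, Matrix.mul_apply, Fin.sum_univ_castSucc, e2]
  simp only [e1, Matrix.transpose_apply, add_mul, Finset.sum_add_distrib]
  rw [Matrix.add_apply, Matrix.mul_apply]
  have e3 : om (pB s) (rB s *ᵥ pB ψ) i j =
      pB s i * (rB s *ᵥ pB ψ) j + pB s j * (rB s *ᵥ pB ψ) i := rfl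
  rw [e3, add_assoc]
  congr 1
  rw [mul_comm (pB s j)]
  congr 1
  rw [Matrix.mulVec, dotProduct, Finset.mul_sum]
  apply Finset.sum_congr rfl
  intro m _
  rw [mul_assoc, mul_comm (pB ψ m)]
  rfl

theorem rB_alt {ψ : M5} (hψ : ψ ∈ Alt) : ∃ a b c d e f, rB ψ = ALm a b c d e f := by
  refine ⟨rB ψ 0 1, rB ψ 0 2, rB ψ 0 3, rB ψ 1 2, rB ψ 1 3, rB ψ 2 3, ?_⟩
  have h0 : ∀ i j, rB ψ i j = rB ψ j i := fun i j => hψ.1 _ _
  have h1 : ∀ i, rB ψ i i = 0 := fun i => hψ.2 _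
  ext i j
  fin_cases i <;> fin_cases j <;> first | exact h1 _ | rfl | exact h0 _ _

theorem eq_of_blocks {ψ ψ' : M5} (hψ : ψ ∈ Alt) (hψ' : ψ' ∈ Alt) (h1 : rB ψ = rB ψ')
    (h2 : pB ψ = pB ψ') : ψ = ψ' := by
  ext i j
  induction i using Fin.lastCases with
  | last =>
    induction j using Fin.lastCases with
    | last => rw [hψ.2, hψ'.2]
    | cast j => rw [hψ.1, hψ'.1]; exact congrFun h2 j
  | cast i =>
    induction j using Fin.lastCases with
    | last => exact congrFun h2 i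
    | cast j => exact congrFun (congrFun h1 i) j

/-- Upper unitriangular matrices. -/
def UT5 (a b c d e f u0 u1 u2 u3 : ZMod 2) : M5 :=
  !![1, a, b, c, u0; 0, 1, d, e, u1; 0, 0, 1, f, u2; 0, 0, 0, 1, u3; 0, 0, 0, 0, 1]

theorem rB_UT5 (a b c d e f u0 u1 u2 u3 : ZMod 2) :
    rB (UT5 a b c d e f u0 u1 u2 u3) = UTm a b c d e f := by
  ext i j
  fin_cases i <;> fin_cases j <;> rfl

theorem pB_UT5 (a b c d e f u0 u1 u2 u3 : ZMod 2) :
    pB (UT5 a b c d e f u0 u1 u2 u3) = ![u0, u1, u2, u3] := by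
  funext i
  fin_cases i <;> rfl

theorem exists_UT5 (a b c d e f u0 u1 u2 u3 : ZMod 2) :
    ∃ g : X, g.1 = UT5 a b c d e f u0 u1 u2 u3 ∧ g ∈ U up := by
  have hdet : (UT5 a b c d e f u0 u1 u2 u3).det = 1 := by
    rw [Matrix.det_of_isUpperTriangular]
    · rw [Fin.prod_univ_five]
      simp [UT5]
    · intro i j hij
      fin_cases i <;> fin_cases j <;> first | rfl | exact absurd hij (by decide)
  let g : X := ⟨_, hdet⟩
  refine ⟨g, rfl, ?_⟩
  rw [mem_U]
  intro i j hij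
  show UT5 a b c d e f u0 u1 u2 u3 i j = _
  fin_cases i <;> fin_cases j <;> first | rfl | exact absurd (by decide) hij

theorem U_form {g : X} (hg : g ∈ U up) : ∃ a b c d e f u0 u1 u2 u3,
    g.1 = UT5 a b c d e f u0 u1 u2 u3 := by
  rw [mem_U] at hg
  refine ⟨g.1 0 1, g.1 0 2, g.1 0 3, g.1 1 2, g.1 1 3, g.1 2 3, g.1 0 4, g.1 1 4, g.1 2 4,
    g.1 3 4, ?_⟩
  ext i j
  by_cases hij : up j < up i
  · fin_cases i <;> fin_cases j <;> first | rfl | exact absurd hij (by decide)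
  · rw [hg i j hij]
    fin_cases i <;> fin_cases j <;> first | rfl | exact absurd (by decide) hij

theorem LR_U {g : X} (hg : g ∈ U up) : LR g.1 := by
  obtain ⟨a, b, c, d, e, f, u0, u1, u2, u3, h⟩ := U_form hg
  rw [h]
  constructor
  · intro j; fin_cases j <;> rfl
  · rfl

theorem rB_U {g : X} (hg : g ∈ U up) : ∃ a b c d e f, rB g.1 = UTm a b c d e f := by
  obtain ⟨a, b, c, d, e, f, u0, u1, u2, u3, h⟩ := U_form hg
  exact ⟨a, b, c, d, e, f, by rw [h, rB_UT5]⟩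

/-- Alternating matrices with given blocks. -/
theorem exists_alt (a b c d e f u0 u1 u2 u3 : ZMod 2) :
    ∃ ψ ∈ Alt, rB ψ = ALm a b c d e f ∧ pB ψ = ![u0, u1, u2, u3] := by
  refine ⟨!![0, a, b, c, u0; a, 0, d, e, u1; b, d, 0, f, u2; c, e, f, 0, u3; u0, u1, u2, u3, 0],
    ⟨?_, ?_⟩, ?_, ?_⟩
  · intro i j; fin_cases i <;> fin_cases j <;> rfl
  · intro i; fin_cases i <;> rfl
  · ext i j
    fin_cases i <;> fin_cases j <;> rfl
  · funext i
    fin_cases i <;> rfl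

theorem vec4 (v : V4) : ![v 0, v 1, v 2, v 3] = v := by
  funext i
  fin_cases i <;> rfl

end Cfsg.Agent.H338.L5
end

-- part: H338/L5MkDat
section
/-!
# Construction of the data (helper338)
-/

set_option autoImplicit false

namespace Cfsg.Agent.H338.L5

open Matrix Subgroup

section

variable {G : Type*} [Group G]

/-- The natural situation: `N(V)/V ≅ SL(5,2)` acting on `V` as on alternating matrices. -/
structure Nat5 (V : Subgroup G) (F : normalizer (V : Set G) →* X) (ψ : G → M5) : Prop where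
  surj : Function.Surjective F
  ker : ∀ x : normalizer (V : Set G), F x = 1 ↔ (x : G) ∈ V
  sq : ∀ v ∈ V, v * v = 1
  cent : ∀ g : G, (∀ v ∈ V, g * v = v * g) → g ∈ V
  add : ∀ v ∈ V, ∀ w ∈ V, ψ (v * w) = ψ v + ψ w
  inj : ∀ v ∈ V, ψ v = 0 → v = 1
  alt : ∀ v ∈ V, ψ v ∈ Alt
  onto : ∀ B ∈ Alt, ∃ v ∈ V, ψ v = B
  conj : ∀ (n : normalizer (V : Set G)), ∀ v ∈ V,
    ψ (n * v * (n : G)⁻¹) = (F n).1 * ψ v * ((F n).1)ᵀ

variable {V : Subgroup G} {F : normalizer (V : Set G) →* X} {ψ : G → M5}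

open Classical in
/-- Extension of `F` to `G`. -/
noncomputable def Fm (F : normalizer (V : Set G) →* X) (x : G) : M5 :=
  if h : x ∈ normalizer (V : Set G) then (F ⟨x, h⟩).1 else 1

theorem Fm_of {x : G} (h : x ∈ normalizer (V : Set G)) : Fm F x = (F ⟨x, h⟩).1 := dif_pos h

theorem Fm_mul {x y : G} (hx : x ∈ normalizer (V : Set G)) (hy : y ∈ normalizer (V : Set G)) :
    Fm F (x * y) = Fm F x * Fm F y := by
  rw [Fm_of hx, Fm_of hy, Fm_of (mul_mem hx hy)]
  exact congrArg Subtype.val (map_mul F ⟨x, hx⟩ ⟨y, hy⟩)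

theorem Fm_one : Fm F 1 = 1 := by
  rw [Fm_of (one_mem _)]
  exact congrArg Subtype.val (map_one F)

/-- The Sylow 2-subgroup of the normaliser. -/
noncomputable def SS (F : normalizer (V : Set G) →* X) : Subgroup G :=
  ((U up).comap F).map (normalizer (V : Set G)).subtype

theorem mem_SS {x : G} : x ∈ SS F ↔ ∃ h : x ∈ normalizer (V : Set G), F ⟨x, h⟩ ∈ U up := by
  constructor
  · rintro ⟨y, hy, rfl⟩
    exact ⟨y.2, hy⟩
  · rintro ⟨h, h'⟩
    exact ⟨⟨x, h⟩, h', rfl⟩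

theorem SS_le : SS F ≤ normalizer (V : Set G) := map_subtype_le _

theorem SS_U {x : G} (hx : x ∈ SS F) : ∃ g ∈ U up, Fm F x = g.1 := by
  obtain ⟨h, h'⟩ := mem_SS.1 hx
  exact ⟨_, h', Fm_of h⟩

theorem SS_LR {x : G} (hx : x ∈ SS F) : LR (Fm F x) := by
  obtain ⟨g, hg, h⟩ := SS_U hx
  rw [h]
  exact LR_U hg

theorem SS_mul {x y : G} (hx : x ∈ SS F) (hy : y ∈ SS F) : Fm F (x * y) = Fm F x * Fm F y :=
  Fm_mul (SS_le hx) (SS_le hy)

theorem SS_inv {x : G} (hx : x ∈ SS F) : Fm F x * Fm F x⁻¹ = 1 := by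
  rw [← SS_mul hx (inv_mem hx), mul_inv_cancel, Fm_one]

/-- The subgroup `J`. -/
noncomputable def JJ (F : normalizer (V : Set G) →* X) : Subgroup G where
  carrier := {x | x ∈ SS F ∧ rB (Fm F x) = 1}
  one_mem' := ⟨one_mem _, by
    rw [Fm_one]
    ext i j
    rw [rB_apply, Matrix.one_apply, Matrix.one_apply]
    simp⟩
  mul_mem' := by
    rintro x y ⟨hx, hx'⟩ ⟨hy, hy'⟩
    refine ⟨mul_mem hx hy, ?_⟩
    rw [SS_mul hx hy, rB_mul (SS_LR hy), hx', hy', mul_one]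
  inv_mem' := by
    rintro x ⟨hx, hx'⟩
    refine ⟨inv_mem hx, ?_⟩
    have h1 := SS_inv (inv_mem hx)
    rw [inv_inv] at h1
    have h2 : rB (Fm F x⁻¹) * rB (Fm F x) = rB (1 : M5) := by
      rw [← rB_mul (SS_LR hx), h1]
    rw [hx', mul_one] at h2
    rw [h2]
    ext i j
    rw [rB_apply, Matrix.one_apply, Matrix.one_apply]
    simp

theorem rB_one : rB (1 : M5) = 1 := by
  ext i j
  rw [rB_apply, Matrix.one_apply, Matrix.one_apply]
  simp

theorem pB_one : pB (1 : M5) = 0 := by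
  funext i
  rw [pB_apply, Matrix.one_apply, if_neg]
  · rfl
  · exact (Fin.castSucc_lt_last i).ne

theorem pB_add (ψ ψ' : M5) : pB (ψ + ψ') = pB ψ + pB ψ' := rfl
theorem rB_add (ψ ψ' : M5) : rB (ψ + ψ') = rB ψ + rB ψ' := rfl

theorem Nat5.one (H : Nat5 V F ψ) : ψ 1 = 0 := by
  have := H.add 1 V.one_mem 1 V.one_mem
  rw [mul_one] at this
  exact left_eq_add.1 this

/-- The subgroup `C`. -/
def CC (H : Nat5 V F ψ) : Subgroup G where
  carrier := {x | x ∈ V ∧ pB (ψ x) = 0}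
  one_mem' := ⟨V.one_mem, by rw [H.one]; rfl⟩
  mul_mem' := by
    rintro x y ⟨hx, hx'⟩ ⟨hy, hy'⟩
    exact ⟨V.mul_mem hx hy, by rw [H.add x hx y hy, pB_add, hx', hy', add_zero]⟩
  inv_mem' := by
    rintro x ⟨hx, hx'⟩
    have : x⁻¹ = x := inv_eq_of_mul_eq_one_left (H.sq x hx)
    rw [this]
    exact ⟨hx, hx'⟩

theorem Nat5.conj' (H : Nat5 V F ψ) {s v : G} (hs : s ∈ SS F) (hv : v ∈ V) :
    ψ (s * v * s⁻¹) = Fm F s * ψ v * (Fm F s)ᵀ := by
  rw [Fm_of (SS_le hs)]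
  exact H.conj ⟨s, SS_le hs⟩ v hv

theorem Nat5.V_J (H : Nat5 V F ψ) {x : G} (hx : x ∈ V) : x ∈ SS F ∧ Fm F x = 1 := by
  have h1 : x ∈ normalizer (V : Set G) := le_normalizer hx
  have h2 : F ⟨x, h1⟩ = 1 := (H.ker ⟨x, h1⟩).2 hx
  refine ⟨mem_SS.2 ⟨h1, by rw [h2]; exact one_mem _⟩, ?_⟩
  rw [Fm_of h1, h2]
  rfl

theorem conj_mem_V' {g v : G} (hg : g ∈ normalizer (V : Set G)) (hv : v ∈ V) : g * v * g⁻¹ ∈ V :=
  (mem_normalizer_iff.1 hg v).1 hv

theorem Nat5.exists_SS (H : Nat5 V F ψ) {g : X} (hg : g ∈ U up) : ∃ s ∈ SS F, Fm F s = g.1 := by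
  obtain ⟨n, hn⟩ := H.surj g
  refine ⟨n, mem_SS.2 ⟨n.2, by rw [Subtype.coe_eta, hn]; exact hg⟩, ?_⟩
  rw [Fm_of n.2, Subtype.coe_eta, hn]

theorem one_UT (M : M5) (h1 : rB M = 1) (h2 : pB M = 0) (h3 : LR M) : M = 1 := by
  ext i j
  induction i using Fin.lastCases with
  | last =>
    induction j using Fin.lastCases with
    | last => rw [h3.2, Matrix.one_apply_eq]
    | cast j => rw [h3.1, Matrix.one_apply_ne (Fin.castSucc_lt_last j).ne']
  | cast i =>
    induction j using Fin.lastCases with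
    | last => rw [Matrix.one_apply_ne (Fin.castSucc_lt_last i).ne]; exact congrFun h2 i
    | cast j =>
      have := congrFun (congrFun h1 i) j
      rw [rB_apply] at this
      rw [this, Matrix.one_apply, Matrix.one_apply]
      simp

theorem Nat5.dat (H : Nat5 V F ψ) : Dat V (CC H) (JJ F) (SS F) (fun x => rB (Fm F x))
    (fun x => pB (Fm F x)) (fun x => pB (ψ x)) (fun x => rB (ψ x)) where
  CA := fun x hx => hx.1
  AJ := fun x hx => by
    obtain ⟨h1, h2⟩ := H.V_J hx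
    exact ⟨h1, by rw [h2, rB_one]⟩
  JS := fun x hx => hx.1
  nA := fun s hs a ha => conj_mem_V' (SS_le hs) ha
  nC := fun s hs a ha => by
    refine ⟨conj_mem_V' (SS_le hs) ha.1, ?_⟩
    rw [H.conj' hs ha.1, pB_conj (SS_LR hs) (H.alt a ha.1), ha.2, Matrix.mulVec_zero]
  A2 := H.sq
  r_mul := fun s hs t ht => by rw [SS_mul hs ht, rB_mul (SS_LR ht)]
  r_one := fun s hs => ⟨fun h => ⟨hs, h⟩, fun h => h.2⟩
  r_ut := fun s hs => by
    obtain ⟨g, hg, h⟩ := SS_U hs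
    rw [h]
    exact rB_U hg
  r_surj := fun a b c d e f => by
    obtain ⟨g, hg, hgU⟩ := exists_UT5 a b c d e f 0 0 0 0
    obtain ⟨s, hs, h⟩ := H.exists_SS hgU
    exact ⟨s, hs, by rw [h, hg, rB_UT5]⟩
  p_mul := fun x hx y hy => by
    rw [SS_mul hx.1 hy.1, pB_mul (SS_LR hy.1), hx.2, Matrix.one_mulVec, add_comm]
  p_zero := fun x hx => by
    constructor
    · intro h
      have h1 := one_UT _ hx.2 h (SS_LR hx.1)
      rw [Fm_of (SS_le hx.1)] at h1
      exact (H.ker ⟨x, SS_le hx.1⟩).1 (Subtype.ext h1)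
    · intro h
      rw [(H.V_J h).2, pB_one]
  p_conj := fun s hs x hx => by
    have h1 : s * x * s⁻¹ ∈ SS F := mul_mem (mul_mem hs hx.1) (inv_mem hs)
    have h2 : Fm F (s * x * s⁻¹) * Fm F s = Fm F s * Fm F x := by
      rw [← SS_mul h1 hs, ← SS_mul hs hx.1]; congr 1; group
    have h3 : rB (Fm F (s * x * s⁻¹)) = 1 := by
      have h4 : rB (Fm F (s * x * s⁻¹)) * rB (Fm F s) = rB (Fm F s) := by
        rw [← rB_mul (SS_LR hs), h2, rB_mul (SS_LR hx.1), hx.2, mul_one]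
      have h5 : rB (Fm F s) * rB (Fm F s⁻¹) = 1 := by
        rw [← rB_mul (SS_LR (inv_mem hs)), SS_inv hs, rB_one]
      calc rB (Fm F (s * x * s⁻¹)) = rB (Fm F (s * x * s⁻¹)) * (rB (Fm F s) * rB (Fm F s⁻¹)) := by
            rw [h5, mul_one]
        _ = (rB (Fm F (s * x * s⁻¹)) * rB (Fm F s)) * rB (Fm F s⁻¹) := (mul_assoc _ _ _).symm
        _ = 1 := by rw [h4, h5]
    have h6 : pB (Fm F (s * x * s⁻¹) * Fm F s) = pB (Fm F s * Fm F x) := by rw [h2]
    rw [pB_mul (SS_LR hs), pB_mul (SS_LR hx.1), h3, Matrix.one_mulVec, add_comm] at h6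
    exact add_right_cancel h6
  p_surj := fun v => by
    obtain ⟨g, hg, hgU⟩ := exists_UT5 0 0 0 0 0 0 (v 0) (v 1) (v 2) (v 3)
    obtain ⟨s, hs, h⟩ := H.exists_SS hgU
    refine ⟨s, ⟨hs, by rw [h, hg, rB_UT5, UTm_one]⟩, ?_⟩
    rw [h, hg, pB_UT5, vec4]
  k_mul := fun x hx y hy => by rw [H.add x hx y hy, pB_add]
  k_zero := fun x hx => ⟨fun h => ⟨hx, h⟩, fun h => h.2⟩
  k_conj := fun s hs x hx => by
    rw [H.conj' hs hx, pB_conj (SS_LR hs) (H.alt x hx)]
  k_surj := fun v => by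
    obtain ⟨B, hB, -, hp⟩ := exists_alt 0 0 0 0 0 0 (v 0) (v 1) (v 2) (v 3)
    obtain ⟨x, hx, h⟩ := H.onto B hB
    exact ⟨x, hx, by rw [h, hp, vec4]⟩
  c_mul := fun x hx y hy => by rw [H.add x hx.1 y hy.1, rB_add]
  c_zero := fun x hx => by
    constructor
    · intro h
      apply H.inj x hx.1
      exact eq_of_blocks (H.alt x hx.1) Alt.zero_mem h hx.2
    · rintro rfl
      rw [H.one]; rfl
  c_alt := fun x hx => rB_alt (H.alt x hx.1)
  c_surj := fun a b c d e f => by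
    obtain ⟨B, hB, hr, hp⟩ := exists_alt a b c d e f 0 0 0 0
    obtain ⟨x, hx, h⟩ := H.onto B hB
    refine ⟨x, ⟨hx, ?_⟩, by rw [h, hr]⟩
    rw [h, hp]
    funext i; fin_cases i <;> rfl
  c_conj := fun s hs x hx => by
    rw [H.conj' hs hx.1, rB_conj (H.alt x hx.1), hx.2, Matrix.mulVec_zero, om_zero_right, add_zero]
  comm := fun x hx a ha => by
    have h1 : x * a * x⁻¹ ∈ V := conj_mem_V' (SS_le hx.1) ha
    have h2 : a⁻¹ = a := inv_eq_of_mul_eq_one_left (H.sq a ha)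
    have h3 : ψ (x * a * x⁻¹ * a⁻¹) = Fm F x * ψ a * (Fm F x)ᵀ + ψ a := by
      rw [h2, H.add _ h1 _ ha, H.conj' hx.1 ha]
    have h4 : pB (ψ (x * a * x⁻¹ * a⁻¹)) = 0 := by
      rw [h3, pB_add, pB_conj (SS_LR hx.1) (H.alt a ha), hx.2, Matrix.one_mulVec, v2]
    refine ⟨⟨V.mul_mem h1 (V.inv_mem ha), h4⟩, ?_⟩
    rw [h3, rB_add, rB_conj (H.alt a ha), hx.2, Matrix.transpose_one, one_mul, mul_one,
      Matrix.one_mulVec, add_comm, ← add_assoc, m2, zero_add]

end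

end Cfsg.Agent.H338.L5
end

-- part: H338/L5Syl
section
/-!
# The order of a Sylow 2-subgroup (helper338)
-/

set_option autoImplicit false

namespace Cfsg.Agent.H338.L5

open Matrix Subgroup

theorem card_X : Nat.card X = 9999360 := by
  have h := Cfsg.Agent.S0242.result (F := ZMod 2) (q := 2) (ZMod.card 2) 5 (by norm_num)
  rw [Fin.prod_univ_five] at h
  have e : ((2 : ℕ) ^ 5 - 2 ^ ((0 : Fin 5) : ℕ)) * (2 ^ 5 - 2 ^ ((1 : Fin 5) : ℕ)) *
      (2 ^ 5 - 2 ^ ((2 : Fin 5) : ℕ)) * (2 ^ 5 - 2 ^ ((3 : Fin 5) : ℕ)) *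
      (2 ^ 5 - 2 ^ ((4 : Fin 5) : ℕ)) = 9999360 := by decide +kernel
  rw [e] at h
  have h' : (2 - 1) * Nat.card X = 9999360 := h
  rw [show (2 - 1 : ℕ) = 1 by norm_num, one_mul] at h'
  exact h'

theorem card_U : Nat.card (U up) = 2 ^ 10 := by
  rw [← card_F (n := 10)]
  symm
  choose f hf hfU using exists_UT5
  apply Nat.card_congr
  refine Equiv.ofBijective (fun v : Fin 10 → ZMod 2 =>
    (⟨f (v 0) (v 1) (v 2) (v 3) (v 4) (v 5) (v 6) (v 7) (v 8) (v 9), hfU _ _ _ _ _ _ _ _ _ _⟩ :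
      U up)) ⟨?_, ?_⟩
  · intro v w h
    have h1 : UT5 (v 0) (v 1) (v 2) (v 3) (v 4) (v 5) (v 6) (v 7) (v 8) (v 9) =
        UT5 (w 0) (w 1) (w 2) (w 3) (w 4) (w 5) (w 6) (w 7) (w 8) (w 9) := by
      rw [← hf, ← hf]
      exact congrArg (fun z : U up => (z : X).1) h
    funext i
    fin_cases i
    · exact congrFun (congrFun h1 0) 1
    · exact congrFun (congrFun h1 0) 2
    · exact congrFun (congrFun h1 0) 3
    · exact congrFun (congrFun h1 1) 2
    · exact congrFun (congrFun h1 1) 3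
    · exact congrFun (congrFun h1 2) 3
    · exact congrFun (congrFun h1 0) 4
    · exact congrFun (congrFun h1 1) 4
    · exact congrFun (congrFun h1 2) 4
    · exact congrFun (congrFun h1 3) 4
  · rintro ⟨g, hg⟩
    obtain ⟨a, b, c, d, e, f', u0, u1, u2, u3, h⟩ := U_form hg
    refine ⟨![a, b, c, d, e, f', u0, u1, u2, u3], Subtype.ext (Subtype.ext ?_)⟩
    show (f a b c d e f' u0 u1 u2 u3).1 = g.1
    rw [hf, h]

section

variable {G : Type*} [Group G] {V : Subgroup G} {F : normalizer (V : Set G) →* X} {ψ : G → M5}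

theorem Nat5.card_V [Finite G] (H : Nat5 V F ψ) : Nat.card V = 2 ^ 10 := by
  have h1 : Nat.card V ≤ 2 ^ 10 := by
    refine le_trans ?_ card_Alt_le
    have : Finite Alt := Subtype.finite
    refine Nat.card_le_card_of_injective (fun v : V => (⟨ψ v, H.alt v v.2⟩ : Alt)) ?_
    intro v w h
    have h2 : ψ v = ψ w := congrArg Subtype.val h
    have h3 : ψ ((v : G) * w) = 0 := by
      rw [H.add _ v.2 _ w.2, h2]
      ext i j; exact CharTwo.add_self_eq_zero _
    have h4 := H.inj _ (V.mul_mem v.2 w.2) h3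
    exact Subtype.ext (mul_right_cancel (h4.trans (H.sq _ w.2).symm))
  have h2 : 2 ^ 10 ≤ Nat.card V := by
    obtain ⟨E0, W, hE0, hW, hc⟩ := lay V (fun x => pB (ψ x)) (fun x hx y hy => by
      show pB (ψ (x * y)) = _
      rw [H.add x hx y hy, pB_add])
    have h3 : W = ⊤ := by
      rw [eq_top_iff]
      intro v _
      obtain ⟨x, hx, hxv⟩ := H.dat.k_surj v
      exact (hW v).2 ⟨x, hx, hxv⟩
    rw [hc, h3]
    have h4 : Nat.card (⊤ : AddSubgroup V4) = 2 ^ 4 := by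
      rw [AddSubgroup.card_top, card_F]
    have h5 : 2 ^ 6 ≤ Nat.card E0 := by
      rw [← card_F (n := 6)]
      choose f hf hfc using H.dat.c_surj
      refine Nat.card_le_card_of_injective (fun v : Fin 6 → ZMod 2 =>
        (⟨f (v 0) (v 1) (v 2) (v 3) (v 4) (v 5), (hE0 _).2
          ⟨(hf _ _ _ _ _ _).1, (hf _ _ _ _ _ _).2⟩⟩ : E0)) ?_
      intro v w h
      have h6 : ALm (v 0) (v 1) (v 2) (v 3) (v 4) (v 5) = ALm (w 0) (w 1) (w 2) (w 3) (w 4) (w 5) := by
        rw [← hfc, ← hfc]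
        exact congrArg (fun z : E0 => rB (ψ (z : G))) h
      funext i
      fin_cases i
      · exact congrFun (congrFun h6 0) 1
      · exact congrFun (congrFun h6 0) 2
      · exact congrFun (congrFun h6 0) 3
      · exact congrFun (congrFun h6 1) 2
      · exact congrFun (congrFun h6 1) 3
      · exact congrFun (congrFun h6 2) 3
    rw [h4]
    calc 2 ^ 10 = 2 ^ 4 * 2 ^ 6 := by norm_num
      _ ≤ _ := Nat.mul_le_mul_left _ h5
  exact le_antisymm h1 h2

theorem Nat5.ker_eq (H : Nat5 V F ψ) : F.ker = V.subgroupOf (normalizer (V : Set G)) := by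
  ext x
  rw [MonoidHom.mem_ker, H.ker]
  rfl

theorem Nat5.card_ker [Finite G] (H : Nat5 V F ψ) : Nat.card F.ker = 2 ^ 10 := by
  rw [H.ker_eq, Nat.card_congr (Subgroup.subgroupOfEquivOfLe le_normalizer).toEquiv, H.card_V]

theorem Nat5.card_comap [Finite G] (H : Nat5 V F ψ) (B : Subgroup X) :
    Nat.card (B.comap F) = 2 ^ 10 * Nat.card B := by
  have h1 := (B.comap F).card_mul_index
  have h2 := B.card_mul_index
  have h3 := F.ker.card_mul_index
  rw [Subgroup.index_comap_of_surjective _ H.surj] at h1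
  rw [Subgroup.index_ker, MonoidHom.range_eq_top.2 H.surj, Subgroup.card_top, H.card_ker] at h3
  have h4 : 0 < B.index := Nat.pos_of_ne_zero B.index_ne_zero_of_finite
  apply Nat.eq_of_mul_eq_mul_right h4
  rw [h1, mul_assoc, h2, h3]

theorem Nat5.card_N [Finite G] (H : Nat5 V F ψ) :
    Nat.card (normalizer (V : Set G)) = 2 ^ 20 * 9765 := by
  have h1 := H.card_comap ⊤
  rw [Subgroup.comap_top, Subgroup.card_top, Subgroup.card_top, card_X] at h1
  rw [h1]
  norm_num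

theorem Nat5.card_SS [Finite G] (H : Nat5 V F ψ) : Nat.card (SS F) = 2 ^ 20 := by
  have h1 := H.card_comap (U up)
  rw [card_U] at h1
  have h2 : Nat.card (SS F) = Nat.card ((U up).comap F) := Nat.card_congr
    (Subgroup.equivMapOfInjective _ (normalizer (V : Set G)).subtype
      (normalizer (V : Set G)).subtype_injective).symm.toEquiv
  rw [h2, h1]
  norm_num

/-- A 2-subgroup of the normaliser containing `SS F`. -/
theorem Nat5.maximal [Finite G] (H : Nat5 V F ψ) {Q : Subgroup G} (hQ : IsPGroup 2 Q)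
    (hSQ : SS F ≤ Q) (hQN : Q ≤ normalizer (V : Set G)) : Q = SS F := by
  have : Fact (Nat.Prime 2) := ⟨Nat.prime_two⟩
  obtain ⟨k, hk⟩ := IsPGroup.iff_card.1 hQ
  have h1 : 2 ^ k ∣ 2 ^ 20 * 9765 := by
    rw [← hk, ← H.card_N]
    exact Subgroup.card_dvd_of_le hQN
  have h2 : k ≤ 20 := by
    by_contra hcon
    have h3 : 2 ^ 21 ∣ 2 ^ 20 * 9765 := (pow_dvd_pow 2 (by omega)).trans h1
    norm_num at h3
  symm
  apply Subgroup.eq_of_le_of_card_ge hSQ
  rw [hk, H.card_SS]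
  exact Nat.pow_le_pow_right (by norm_num) h2

/-- The 2-part of the order. -/
theorem Nat5.two_part [Finite G] (H : Nat5 V F ψ) :
    ¬ 2 ^ 21 ∣ Nat.card G ∨ (¬ 2 ^ 22 ∣ Nat.card G ∧ ∃ T : Subgroup G, SS F ≤ T ∧
      Nat.card T = 2 ^ 21) := by
  have : Fact (Nat.Prime 2) := ⟨Nat.prime_two⟩
  have hS2 : IsPGroup 2 (SS F) := IsPGroup.of_card H.card_SS
  obtain ⟨Q, hSQ⟩ := hS2.exists_le_sylow
  have hQ2 := Q.2
  obtain ⟨m, hm⟩ := IsPGroup.iff_card.1 hQ2
  -- the part of `Q` normalising `V`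
  have hQN : ∀ t ∈ (Q : Subgroup G), (∀ a ∈ V, t * a * t⁻¹ ∈ V) → t ∈ SS F := by
    intro t ht htV
    have h1 : (Q : Subgroup G) ⊓ normalizer (V : Set G) = SS F :=
      H.maximal (hQ2.to_le inf_le_left) (le_inf hSQ SS_le) inf_le_right
    rw [← h1]
    refine ⟨ht, ?_⟩
    show t ∈ normalizer (V : Set G)
    rw [mem_normalizer_iff]
    intro h
    constructor
    · exact htV h
    · intro hh
      have h2 : V.map (MulAut.conj t).toMonoidHom = V := by
        apply Subgroup.eq_of_le_of_card_ge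
        · rintro _ ⟨a, ha, rfl⟩
          exact htV a ha
        · rw [Nat.card_congr (Subgroup.equivMapOfInjective V (MulAut.conj t).toMonoidHom
            (MulAut.conj t).injective).toEquiv]
      have hh' : t * h * t⁻¹ ∈ V.map (MulAut.conj t).toMonoidHom := by
        rw [h2]; exact hh
      obtain ⟨a, ha, hah⟩ := hh'
      have h3 : t * a * t⁻¹ = t * h * t⁻¹ := hah
      have h4 := mul_right_cancel h3
      have h5 := mul_left_cancel h4
      rw [← h5]
      exact ha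
  have hcardQ : ∀ n, 2 ^ n ∣ Nat.card G → n ≤ m := by
    intro n hn
    have h1 : ¬ 2 ∣ (Q : Subgroup G).index := Q.not_dvd_index
    have h2 := (Q : Subgroup G).card_mul_index
    rw [← h2, hm] at hn
    have h3 : 2 ^ n ∣ 2 ^ m := by
      apply Nat.Coprime.dvd_of_dvd_mul_right _ hn
      apply Nat.Coprime.pow_left
      exact (Nat.Prime.coprime_iff_not_dvd Nat.prime_two).2 h1
    exact (Nat.pow_dvd_pow_iff_le_right (by norm_num)).1 h3
  by_cases hm20 : m ≤ 20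
  · left
    intro h
    have := hcardQ 21 h
    omega
  right
  have hmS : 20 < m := by omega
  -- a subgroup of order `2^21`
  have hSub : Nat.card ((SS F).subgroupOf (Q : Subgroup G)) = 2 ^ 20 := by
    rw [Nat.card_congr (Subgroup.subgroupOfEquivOfLe hSQ).toEquiv, H.card_SS]
  obtain ⟨T', hT', hST'⟩ := Sylow.exists_subgroup_card_pow_succ (G := (Q : Subgroup G)) (p := 2)
    (n := 20) (by rw [hm]; exact pow_dvd_pow 2 (by omega)) hSub
  let T : Subgroup G := T'.map (Q : Subgroup G).subtype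
  have hTQ : T ≤ Q := map_subtype_le _
  have hST : SS F ≤ T := by
    intro x hx
    exact ⟨⟨x, hSQ hx⟩, hST' hx, rfl⟩
  have hTc : Nat.card T = 2 ^ 21 := by
    rw [← hT']
    exact (Nat.card_congr (Subgroup.equivMapOfInjective T' (Q : Subgroup G).subtype
      (Q : Subgroup G).subtype_injective).toEquiv).symm
  refine ⟨?_, T, hST, hTc⟩
  obtain ⟨g, w⟩ := H.dat.exists_Sw H.card_V hST (by rw [hTc, H.card_SS]; norm_num)
    (fun t ht htV => hQN t (hTQ ht) htV)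
  -- `T` is self-normalising in `Q`
  have hTT : T' = ⊤ := by
    by_contra hne
    have hnil : Group.IsNilpotent (Q : Subgroup G) := hQ2.isNilpotent
    have hlt := Group.normalizerCondition_of_isNilpotent (G := (Q : Subgroup G)) T' (lt_top_iff_ne_top.2 hne)
    obtain ⟨t, ht, htT⟩ := SetLike.exists_of_lt hlt
    apply htT
    have hn : ∀ x : G, x ∈ T ↔ (t : G) * x * (t : G)⁻¹ ∈ T := by
      intro x
      constructor
      · rintro ⟨y, hy, rfl⟩
        exact ⟨t * y * t⁻¹, (mem_normalizer_iff.1 ht y).1 hy, rfl⟩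
      · rintro ⟨y, hy, hyx⟩
        have h1 : x = ((t⁻¹ * y * t : (Q : Subgroup G)) : G) := by
          have h2 : (y : G) = (t : G) * x * (t : G)⁻¹ := hyx
          show x = (t : G)⁻¹ * y * t
          rw [h2]; group
        have h3 : t⁻¹ * y * t ∈ T' := by
          apply (mem_normalizer_iff.1 ht _).2
          have : t * (t⁻¹ * y * t) * t⁻¹ = y := by group
          rw [this]; exact hy
        rw [h1]
        exact ⟨_, h3, rfl⟩
    rcases w.main H.card_V hn with h | h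
    · have h1 := hQN t t.2 h
      exact hST' h1
    · have h1 : g * (t : G) ∈ SS F := hQN _ (mul_mem (hTQ w.gT) t.2) h
      have h2 : (t : G) ∈ T := by
        have : (t : G) = g⁻¹ * (g * t) := by group
        rw [this]
        exact T.mul_mem (T.inv_mem w.gT) (hST h1)
      obtain ⟨y, hy, hyt⟩ := h2
      have h3 : y = t := Subtype.ext hyt
      rw [← h3]; exact hy
  have hm21 : m = 21 := by
    rw [hTT, Subgroup.card_top] at hT'
    have h1 : 2 ^ m = 2 ^ 21 := by rw [← hm]; exact hT'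
    exact Nat.pow_right_injective (le_refl 2) h1
  intro h
  have := hcardQ 22 h
  omega

end

end Cfsg.Agent.H338.L5
end

private theorem dce_aba371bae18a : _root_.True := by
  try have : _root_.True := by simp only [_root_.Cfsg.Agent.H338.L5.UT5.eq_1]
  exact _root_.True.intro
end
end
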